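import Mathlib
import Cfsg.Agent.Lib.Classical.Herm.OrthFinal

/-!
# Equivariant isometric embeddings of spaces with an isometry of odd prime order
-/

set_option autoImplicit false
set_option linter.unusedSectionVars false
set_option linter.unusedSimpArgs false
set_option linter.unusedVariables false
set_option maxHeartbeats 1000000

open Polynomial Module QuadraticMap Matrix
open Cfsg Cfsg.Agent.Lib.Classical.Herm.CycTuples Cfsg.Agent.Lib.Classical.Witt.Hyp Cfsg.Agent.Lib.Linalg.OrthModels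
open Cfsg.Agent.Lib.Classical.Herm.OrthBlock Cfsg.Agent.Lib.Classical.Herm.OrthEmbed Cfsg.Agent.Lib.Linalg.Bridge
open Cfsg.Agent.Lib.Classical.Herm.OrthType Cfsg.Agent.Lib.Classical.Herm.OrthCount Cfsg.Agent.Lib.Classical.Witt.Index
open Cfsg.Agent.Lib.Classical.Herm.OrthFinal

namespace Cfsg.Agent.Lib.Classical.OSemi.Ext

universe u

section Ext

variable {F : Type u} [Field F]

/-- An isometric embedding of a nondegenerate space and an isometry of it give an isometry of the big
space, acting trivially on the orthogonal complement, with the equivariance statement. -/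
theorem exists_extension_eq {V W : Type*} [AddCommGroup V] [Module F V] [FiniteDimensional F V]
    [AddCommGroup W] [Module F W] [FiniteDimensional F W]
    (Q : QuadraticForm F V) (QW : QuadraticForm F W) (hQW : PolarNondeg QW)
    (ι : W →ₗ[F] V) (hι : ∀ w, Q (ι w) = QW w) (A : W ≃ₗ[F] W) (hA : ∀ w, QW (A w) = QW w)
    {k : ℕ} (hk : (A : Module.End F W) ^ k = 1) :
    ∃ g : V ≃ₗ[F] V, (∀ v, Q (g v) = Q v) ∧ (g : Module.End F V) ^ k = 1 ∧
      LinearMap.charpoly (g : V →ₗ[F] V) =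
        LinearMap.charpoly (A : W →ₗ[F] W) * (X - 1) ^ (finrank F V - finrank F W) ∧
      ∀ w, g (ι w) = ι (A w) := by
  classical
  obtain ⟨B, hB⟩ : ∃ B : LinearMap.BilinForm F V, B = polarBilin Q := ⟨_, rfl⟩
  have hpol : ∀ a b, B (ι a) (ι b) = polar QW a b := by
    intro a b
    simp only [hB, polarBilin_apply_apply, polar, ← map_add, hι]
  have hinj : Function.Injective ι := by
    rw [injective_iff_map_eq_zero]
    intro a ha
    apply hQW a
    intro y
    rw [← hpol, ha]
    simp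
  have hrefl : B.IsRefl := fun x y hxy => by
    simp only [hB, polarBilin_apply_apply] at hxy ⊢
    rw [polar_comm]
    exact hxy
  let U : Submodule F V := LinearMap.range ι
  have hnd : (B.restrict U).Nondegenerate := by
    have key : ∀ x : U, (∀ y : U, B.restrict U x y = 0) → x = 0 := by
      rintro ⟨x, w, rfl⟩ hx
      have h0 : w = 0 := by
        apply hQW w
        intro y
        rw [← hpol]
        exact hx ⟨ι y, y, rfl⟩
      subst h0
      apply Subtype.ext
      simp
    refine ⟨key, fun y hy => key y fun x => ?_⟩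
    exact hrefl _ _ (hy x)
  have hC := LinearMap.BilinForm.isCompl_orthogonal_of_restrict_nondegenerate hrefl hnd
  let W' : Submodule F V := B.orthogonal U
  let e₁ : W ≃ₗ[F] U := LinearEquiv.ofInjective ι hinj
  let Φ : (W × W') ≃ₗ[F] V :=
    (e₁.prodCongr (LinearEquiv.refl F W')) ≪≫ₗ Submodule.prodEquivOfIsCompl U W' hC
  have hΦ : ∀ x, Φ x = ι x.1 + (x.2 : V) := fun x => rfl
  have hQΦ : ∀ x, Q (Φ x) = QW x.1 + Q (x.2 : V) := by
    intro x
    have h1 : polar Q (ι x.1) (x.2 : V) = 0 := by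
      have h3 := (LinearMap.BilinForm.mem_orthogonal_iff.1 x.2.2) _ ⟨x.1, rfl⟩
      change B (ι x.1) (x.2 : V) = 0 at h3
      rw [hB, polarBilin_apply_apply] at h3
      exact h3
    have h2 : Q (ι x.1 + (x.2 : V)) = Q (ι x.1) + Q (x.2 : V) + polar Q (ι x.1) (x.2 : V) := by
      simp only [polar]
      ring
    rw [hΦ, h2, h1, hι, add_zero]
  let AA : (W × W') ≃ₗ[F] (W × W') := A.prodCongr (LinearEquiv.refl F W')
  have hAA : ∀ x, AA x = (A x.1, x.2) := fun x => rfl
  let g : V ≃ₗ[F] V := Φ.symm ≪≫ₗ AA ≪≫ₗ Φ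
  have hg : ∀ x, g (Φ x) = Φ (A x.1, x.2) := by
    intro x
    change Φ (AA (Φ.symm (Φ x))) = _
    rw [LinearEquiv.symm_apply_apply, hAA]
  have hpow : ∀ (j : ℕ) (x : W × W'), ((g : Module.End F V) ^ j) (Φ x)
      = Φ (((A : Module.End F W) ^ j) x.1, x.2) := by
    intro j
    induction j with
    | zero => intro x; simp
    | succ j ih =>
      intro x
      rw [pow_succ, Module.End.mul_apply, pow_succ, Module.End.mul_apply]
      change ((g : Module.End F V) ^ j) (g (Φ x)) = _
      rw [hg, ih]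
      rfl
  refine ⟨g, ?_, ?_, ?_, ?_⟩
  · intro v
    obtain ⟨x, rfl⟩ := Φ.surjective v
    rw [hg, hQΦ, hQΦ, hA]
  · apply LinearMap.ext
    intro v
    obtain ⟨x, rfl⟩ := Φ.surjective v
    rw [hpow, hk]
    simp
  · have h1 : (g : V →ₗ[F] V) = Φ.conj (LinearMap.prodMap (A : W →ₗ[F] W) (LinearMap.id : W' →ₗ[F] W')) := by
      apply LinearMap.ext
      intro v
      obtain ⟨x, rfl⟩ := Φ.surjective v
      rw [LinearEquiv.conj_apply_apply]
      change g (Φ x) = Φ (LinearMap.prodMap (A : W →ₗ[F] W) (LinearMap.id : W' →ₗ[F] W') (Φ.symm (Φ x)))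
      rw [hg, LinearEquiv.symm_apply_apply]
      rfl
    have h2 : finrank F W' = finrank F V - finrank F W := by
      have h3 := Φ.finrank_eq
      rw [Module.finrank_prod] at h3
      omega
    rw [h1, LinearEquiv.charpoly_conj, LinearMap.charpoly_prodMap, charpoly_id', h2]
  · intro w
    have h5 := hg (w, 0)
    have h6 : Φ (w, 0) = ι w := by
      rw [hΦ]
      simp
    have h7 : Φ (A w, 0) = ι (A w) := by
      rw [hΦ]
      simp
    simpa only [h6, h7] using h5

end Ext

section Conj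

variable {F : Type u} [Field F] [Fintype F] {p : ℕ} [Fact p.Prime] [CharP F p]
variable {ι' : Type} [Fintype ι'] [DecidableEq ι'] {q r i t : ℕ} {D : Finset F[X]}

theorem charpoly_ne_of_orderOf (H : Data q r i t D) (hr : r.Prime) (hrp : r ≠ p) (x : GL ι' F) (hx : orderOf x = r) :
    (x : Matrix ι' ι' F).charpoly ≠ (X - 1) ^ Fintype.card ι' := by
  intro h
  obtain ⟨-, k, hk, hk0, hc⟩ := (orderOf_eq_iff rfl hr hrp H.hipos H.hD H.hDr x).1 hx
  rw [h, ← polyOf_zero] at hc
  exact hk0 (polyOf_injective H.hD hc).symm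

/-- The key statement: a model with the right characteristic polynomial maps equivariantly. -/
theorem exists_equivariant (H : Data q r i t D) (hr : r.Prime) (hr2 : r ≠ 2) (hrp : r ≠ p)
    (Q : QuadraticForm F (ι' → F)) (hQ : PolarNondeg Q) (x : ↥(Cfsg.isometryGroup F ⇑Q)) (hx : orderOf x = r)
    {W : Type*} [AddCommGroup W] [Module F W] [FiniteDimensional F W]
    (QW : QuadraticForm F W) (hQW : PolarNondeg QW) (ι₀ : W →ₗ[F] (ι' → F)) (hι₀ : ∀ w, Q (ι₀ w) = QW w)
    (A : W ≃ₗ[F] W) (hA : ∀ w, QW (A w) = QW w) (hAr : (A : Module.End F W) ^ r = 1)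
    (hc : ((x : GL ι' F) : Matrix ι' ι' F).charpoly =
      LinearMap.charpoly (A : W →ₗ[F] W) * (X - 1) ^ (Fintype.card ι' - finrank F W)) :
    ∃ ι₁ : W →ₗ[F] (ι' → F), (∀ w, Q (ι₁ w) = QW w) ∧
      ∀ w, ((x : GL ι' F) : Matrix ι' ι' F) *ᵥ ι₁ w = ι₁ (A w) := by
  classical
  obtain ⟨g, hg, hgr, hgc, hgι⟩ := exists_extension_eq Q QW hQW ι₀ hι₀ A hA hAr
  rw [Module.finrank_fintype_fun_eq_card] at hgc
  have hY : glOfEquiv g ∈ Cfsg.isometryGroup F ⇑Q := by
    intro u v
    change Q (((glOfEquiv g : GL ι' F) : Matrix ι' ι' F) *ᵥ u) = Q u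
    rw [glOfEquiv_mulVec]
    exact hg u
  let G : ↥(Cfsg.isometryGroup F ⇑Q) := ⟨glOfEquiv g, hY⟩
  have hGv : ∀ v, ((G : GL ι' F) : Matrix ι' ι' F) *ᵥ v = g v := fun v => glOfEquiv_mulVec g v
  have hcG : ((G : GL ι' F) : Matrix ι' ι' F).charpoly = ((x : GL ι' F) : Matrix ι' ι' F).charpoly := by
    change ((glOfEquiv g : GL ι' F) : Matrix ι' ι' F).charpoly = _
    rw [charpoly_glOfEquiv, hgc, hc]
  have hGr : G ^ r = 1 := by
    apply Subtype.ext
    apply Units.ext
    apply matrix_eq_of_mulVec_eq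
    intro v
    have h2 := equivOfGL_pow' (glOfEquiv g) r v
    rw [equivOfGL_glOfEquiv, hgr] at h2
    exact h2.symm.trans (by simp)
  have hG1 : G ≠ 1 := by
    intro hG
    have h1 : ((x : GL ι' F) : Matrix ι' ι' F).charpoly = (X - 1) ^ Fintype.card ι' := by
      rw [← hcG, hG]
      have h3 : (((1 : ↥(Cfsg.isometryGroup F ⇑Q)) : GL ι' F) : Matrix ι' ι' F) = 1 := rfl
      rw [h3, Matrix.charpoly_one]
    have hxo : orderOf (x : GL ι' F) = r := by rw [Subgroup.orderOf_coe]; exact hx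
    exact charpoly_ne_of_orderOf H hr hrp _ hxo h1
  haveI : Fact r.Prime := ⟨hr⟩
  have hGo : orderOf G = r := orderOf_eq_prime hGr hG1
  have hconj : IsConj G x := isConj_of_charpoly_eq Q (nondeg_of_polarNondeg Q hQ) G x hr hr2 hrp hGo hx hcG
  obtain ⟨y, hy⟩ := isConj_iff.1 hconj
  have hyv : ∀ v, Q (((y : GL ι' F) : Matrix ι' ι' F) *ᵥ v) = Q v := fun v => y.2 v v
  refine ⟨(Matrix.toLin' ((y : GL ι' F) : Matrix ι' ι' F)) ∘ₗ ι₀, ?_, ?_⟩
  · intro w
    rw [LinearMap.comp_apply, Matrix.toLin'_apply, hyv, hι₀]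
  · intro w
    simp only [LinearMap.comp_apply, Matrix.toLin'_apply]
    have h1 : ((x : GL ι' F) : Matrix ι' ι' F) * ((y : GL ι' F) : Matrix ι' ι' F) =
        ((y : GL ι' F) : Matrix ι' ι' F) * ((G : GL ι' F) : Matrix ι' ι' F) := by
      have h2 : x * y = y * G := by
        rw [← hy]
        group
      have h3 := congrArg (fun z : ↥(Cfsg.isometryGroup F ⇑Q) => ((z : GL ι' F) : Matrix ι' ι' F)) h2
      exact h3
    rw [mulVec_mulVec, h1, ← mulVec_mulVec, hGv, hgι]

end Conj

end Cfsg.Agent.Lib.Classical.OSemi.Ext
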