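import Mathlib
import Cfsg.Agent.Lib.Classical.OSemi.Ext
import Cfsg.Agent.Lib.Classical.Witt.Lagrangian
import Cfsg.Agent.Lib.Classical.GraphAut.Models
import Cfsg.Prelude.Def_GeometricClasses

/-!
# Lagrangians of quadratic spaces: the discriminant law, model spaces
-/

set_option autoImplicit false
set_option linter.unusedSectionVars false
set_option linter.unusedSimpArgs false
set_option linter.unusedVariables false
set_option linter.style.haveILetI false
set_option maxHeartbeats 1000000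

open Polynomial Module QuadraticMap Matrix
open Cfsg Cfsg.Agent.Lib.Classical.Herm.CycTuples Cfsg.Agent.Lib.Classical.Witt.Hyp Cfsg.Agent.Lib.Linalg.OrthModels
open Cfsg.Agent.Lib.Classical.Herm.OrthBlock Cfsg.Agent.Lib.Classical.Herm.OrthEmbed Cfsg.Agent.Lib.Linalg.Bridge
open Cfsg.Agent.Lib.Classical.Herm.OrthType Cfsg.Agent.Lib.Classical.Herm.OrthCount Cfsg.Agent.Lib.Classical.Witt.Index
open Cfsg.Agent.Lib.Classical.Herm.OrthFinal Cfsg.Agent.Lib.Classical.Witt.Lagrangian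

namespace Cfsg.Agent.Lib.Classical.OSemi.Lag

universe u

section Basic

variable {F : Type u} [Field F] {W : Type*} [AddCommGroup W] [Module F W]

/-- A Lagrangian: a totally singular subspace of half the dimension. -/
def Lag (Q : QuadraticForm F W) : Prop := ∃ X : Submodule F W, (∀ x ∈ X, Q x = 0) ∧ 2 * finrank F X = finrank F W

theorem lag_of_finrank_zero (Q : QuadraticForm F W) (h : finrank F W = 0) : Lag Q :=
  ⟨⊥, fun x hx => by rw [(Submodule.mem_bot F).1 hx]; simp, by simp [h]⟩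

variable [FiniteDimensional F W]

theorem gram_det_ne_zero {Q : QuadraticForm F W} (hQ : PolarNondeg Q) {κ : Type*} [Fintype κ] [DecidableEq κ]
    (b : Basis κ F W) : (Matrix.of fun i j => polar Q (b i) (b j)).det ≠ 0 := by
  have h1 := (LinearMap.BilinForm.nondegenerate_iff_det_ne_zero (B := polarBilin Q) b).1 (nondeg_of_polarNondeg Q hQ)
  have h2 : LinearMap.BilinForm.toMatrix b (polarBilin Q) = Matrix.of fun i j => polar Q (b i) (b j) := by
    ext i j
    simp [LinearMap.BilinForm.toMatrix_apply]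
  rwa [h2] at h1

variable [Fintype F]

/-- The Witt criterion. -/
theorem lag_iff_disc (h2 : (2 : F) ≠ 0) {Q : QuadraticForm F W} (hQ : PolarNondeg Q) {m : ℕ} (hdim : finrank F W = 2 * m)
    {κ : Type*} [Fintype κ] [DecidableEq κ] (b : Basis κ F W) :
    Lag Q ↔ IsSquare ((-1 : F) ^ m * (Matrix.of fun i j => polar Q (b i) (b j)).det) := by
  classical
  rcases Nat.eq_zero_or_pos m with rfl | hm
  · have hκ : IsEmpty κ := by
      rw [← Fintype.card_eq_zero_iff, ← Module.finrank_eq_card_basis b, hdim]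
    simp only [pow_zero, one_mul, Matrix.det_isEmpty]
    exact ⟨fun _ => IsSquare.one, fun _ => lag_of_finrank_zero Q (by omega)⟩
  have hS : LinearMap.BilinForm.IsSymm (polarBilin Q) := by
    refine ⟨fun x y => ?_⟩
    simp only [polarBilin_apply_apply, RingHom.id_apply]
    exact polar_comm _ _ _
  have h1 := exists_lagrangian_iff h2 (polarBilin Q) hS (nondeg_of_polarNondeg Q hQ) hm hdim b
  have h3 : (Matrix.of fun i j => (polarBilin Q) (b i) (b j)) = (Matrix.of fun i j => polar Q (b i) (b j)) := rfl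
  rw [← h3, ← h1]
  constructor
  · rintro ⟨X, hX, hd⟩
    refine ⟨X, by omega, fun x hx y hy => ?_⟩
    change polar Q x y = 0
    rw [polar, hX _ (X.add_mem hx hy), hX _ hx, hX _ hy]
    ring
  · rintro ⟨X, hd, hX⟩
    refine ⟨X, fun x hx => ?_, by omega⟩
    have h5 := hX x hx x hx
    change polar Q x x = 0 at h5
    rw [Cfsg.Agent.Lib.Classical.Witt.Hyp.polar_self] at h5
    exact (mul_eq_zero.mp h5).resolve_left h2

theorem isSquare_mul_iff (h2 : (2 : F) ≠ 0) {a b : F} (ha : a ≠ 0) (hb : b ≠ 0) :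
    IsSquare (a * b) ↔ (IsSquare a ↔ IsSquare b) := by
  classical
  have hc2 : ringChar F ≠ 2 := by
    intro hc
    apply h2
    have := ringChar.Nat.cast_ringChar (R := F)
    rw [hc] at this
    exact_mod_cast this
  rw [← quadraticChar_one_iff_isSquare (mul_ne_zero ha hb), map_mul, ← quadraticChar_one_iff_isSquare ha,
    ← quadraticChar_one_iff_isSquare hb]
  rcases quadraticChar_dichotomy ha with h | h <;> rcases quadraticChar_dichotomy hb with h' | h' <;>
    simp [h, h']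

end Basic

section Prod

variable {F : Type u} [Field F] [Fintype F]
variable {W₁ W₂ : Type*} [AddCommGroup W₁] [Module F W₁] [AddCommGroup W₂] [Module F W₂]
  [FiniteDimensional F W₁] [FiniteDimensional F W₂]

theorem polarNondeg_prod {Q₁ : QuadraticForm F W₁} {Q₂ : QuadraticForm F W₂} (h₁ : PolarNondeg Q₁) (h₂ : PolarNondeg Q₂) :
    PolarNondeg (Q₁.prod Q₂) := by
  rintro ⟨a, b⟩ h
  have hQQ : ∀ x, (Q₁.prod Q₂) x = Q₁ x.1 + Q₂ x.2 := fun x => rfl
  have h1 : a = 0 := h₁ a (fun y => by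
    have := h (y, 0)
    simpa [polar, hQQ] using this)
  have h2 : b = 0 := h₂ b (fun y => by
    have := h (0, y)
    simpa [polar, hQQ] using this)
  rw [h1, h2]
  rfl

/-- The law of the types of an orthogonal sum. -/
theorem lag_prod (h2 : (2 : F) ≠ 0) {Q₁ : QuadraticForm F W₁} {Q₂ : QuadraticForm F W₂} (h₁ : PolarNondeg Q₁)
    (h₂ : PolarNondeg Q₂) {m₁ m₂ : ℕ} (hd₁ : finrank F W₁ = 2 * m₁) (hd₂ : finrank F W₂ = 2 * m₂) :
    Lag (Q₁.prod Q₂) ↔ (Lag Q₁ ↔ Lag Q₂) := by
  classical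
  let b₁ := Module.finBasis F W₁
  let b₂ := Module.finBasis F W₂
  let b := b₁.prod b₂
  have hd : finrank F (W₁ × W₂) = 2 * (m₁ + m₂) := by
    rw [Module.finrank_prod, hd₁, hd₂]
    ring
  have hQQ : ∀ x, (Q₁.prod Q₂) x = Q₁ x.1 + Q₂ x.2 := fun x => rfl
  have hG : (Matrix.of fun i j => polar (Q₁.prod Q₂) (b i) (b j)) =
      Matrix.fromBlocks (Matrix.of fun i j => polar Q₁ (b₁ i) (b₁ j)) 0 0 (Matrix.of fun i j => polar Q₂ (b₂ i) (b₂ j)) := by
    ext i j
    rcases i with i | i <;> rcases j with j | j <;>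
      simp [b, polar, hQQ, Module.Basis.prod_apply]
  rw [lag_iff_disc h2 (polarNondeg_prod h₁ h₂) hd b, hG, Matrix.det_fromBlocks_zero₁₂, lag_iff_disc h2 h₁ hd₁ b₁,
    lag_iff_disc h2 h₂ hd₂ b₂, ← isSquare_mul_iff h2
      (mul_ne_zero (pow_ne_zero _ (by simp)) (gram_det_ne_zero h₁ b₁))
      (mul_ne_zero (pow_ne_zero _ (by simp)) (gram_det_ne_zero h₂ b₂))]
  rw [pow_add, mul_mul_mul_comm]

end Prod

section Model

variable {F : Type u} [Field F] [Fintype F]

theorem lag_plusQ (e : ℕ) : Lag (plusQ e F) := by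
  let ι : (Fin e → F) →ₗ[F] (Fin e ⊕ Fin e → F) := elimL LinearMap.id 0
  have hι : Function.Injective ι := by
    intro x y hxy
    funext j
    exact congrFun hxy (Sum.inl j)
  refine ⟨LinearMap.range ι, ?_, ?_⟩
  · rintro _ ⟨x, rfl⟩
    rw [plusQ_elim]
    simp
  · rw [LinearMap.finrank_range_of_inj hι, Module.finrank_fintype_fun_eq_card, Module.finrank_fintype_fun_eq_card]
    simp [Fintype.card_sum]
    ring

theorem not_lag_minusQ (s : ℕ) {a c : F} (hac : ∀ z₁ z₂ : F, z₁ ^ 2 + a * z₁ * z₂ + c * z₂ ^ 2 = 0 → z₁ = 0 ∧ z₂ = 0) :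
    ¬ Lag (minusQ s F a c) := by
  rintro ⟨X, hX, hd⟩
  have h1 := finrank_le_of_ts hac (LinearEquiv.refl F _) (fun v => rfl) X hX
  rw [Module.finrank_fintype_fun_eq_card] at hd
  simp [Fintype.card_sum] at hd
  omega

theorem anisotropic_no_root {ζ : F} (hζ : ∀ t : F, t ^ 2 + t + ζ ≠ 0) :
    ∀ z₁ z₂ : F, z₁ ^ 2 + 1 * z₁ * z₂ + ζ * z₂ ^ 2 = 0 → z₁ = 0 ∧ z₂ = 0 := by
  intro z₁ z₂ h
  by_cases hz : z₂ = 0
  · subst hz
    simp at h
    exact ⟨h, rfl⟩
  · exfalso
    apply hζ (z₁ / z₂)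
    field_simp
    linear_combination h

/-- A space of every type. -/
theorem exists_typed (e : ℕ) (τ : Prop) (he : e = 0 → τ) :
    ∃ (P : Type u) (_ : AddCommGroup P) (_ : Module F P) (_ : FiniteDimensional F P) (QP : QuadraticForm F P),
      PolarNondeg QP ∧ finrank F P = 2 * e ∧ (Lag QP ↔ τ) := by
  classical
  by_cases hτ : τ
  · refine ⟨Fin e ⊕ Fin e → F, inferInstance, inferInstance, inferInstance, plusQ e F, polarNondeg_plusQ e, ?_, ?_⟩
    · rw [Module.finrank_fintype_fun_eq_card]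
      simp [Fintype.card_sum]
      ring
    · exact ⟨fun _ => hτ, fun _ => lag_plusQ e⟩
  · have he0 : e ≠ 0 := fun h => hτ (he h)
    obtain ⟨s, rfl⟩ : ∃ s, e = s + 1 := ⟨e - 1, by omega⟩
    obtain ⟨ζ, hζ⟩ := Cfsg.Agent.Lib.Classical.GraphAut.Models.exists_no_root (F := F)
    have hac := anisotropic_no_root hζ
    refine ⟨(Fin s ⊕ Fin s) ⊕ Fin 2 → F, inferInstance, inferInstance, inferInstance, minusQ s F 1 ζ,
      polarNondeg_minusQ s hac, ?_, ?_⟩
    · rw [Module.finrank_fintype_fun_eq_card]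
      simp [Fintype.card_sum]
      ring
    · exact ⟨fun h => absurd h (not_lag_minusQ s hac), fun h => absurd h hτ⟩

variable {W : Type*} [AddCommGroup W] [Module F W] [FiniteDimensional F W]

theorem lag_of_plus {QW : QuadraticForm F W} {w : ℕ} (g : W ≃ₗ[F] (Fin w ⊕ Fin w → F)) (hg : ∀ v, plusQ w F (g v) = QW v) :
    Lag QW := by
  obtain ⟨X, hX, hd⟩ := lag_plusQ (F := F) w
  refine ⟨X.map (g.symm : _ →ₗ[F] W), ?_, ?_⟩
  · rintro _ ⟨x, hx, rfl⟩
    rw [← hg]
    simpa using hX x hx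
  · rw [LinearEquiv.finrank_map_eq, hd, g.finrank_eq]

theorem lag_iff_exists_plus {QW : QuadraticForm F W} (hQW : PolarNondeg QW) {w : ℕ} (hw : 1 ≤ w) (hdim : finrank F W = 2 * w) :
    Lag QW ↔ ∃ g : W ≃ₗ[F] (Fin w ⊕ Fin w → F), ∀ v, plusQ w F (g v) = QW v := by
  constructor
  · rintro ⟨X, hX, hd⟩
    rcases exists_isometry_plus_or_minus hw hdim QW (nondeg_of_polarNondeg QW hQW) with h | ⟨ζ, hζ, g, hg⟩
    · exact h
    · exfalso
      obtain ⟨s, rfl⟩ : ∃ s, w = s + 1 := ⟨w - 1, by omega⟩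
      obtain ⟨g', hg'⟩ : ∃ g' : W ≃ₗ[F] ((Fin s ⊕ Fin s) ⊕ Fin 2 → F), ∀ v, minusQ s F 1 ζ (g' v) = QW v := ⟨g, hg⟩
      have h1 := finrank_le_of_ts (anisotropic_no_root hζ) g' hg' X hX
      omega
  · rintro ⟨g, hg⟩
    exact lag_of_plus g hg

/-- The type of a space with a fixed point free isometry of prime order. -/
theorem lag_model {q r i t : ℕ} {D : Finset F[X]} (H : Data q r i t D) [Fact r.Prime] (hr2 : r ≠ 2) (hF : Fintype.card F = q)
    (k : D → ℕ) (hk : ∀ d, k (starD H d) = k d) (QW : QuadraticForm F W) (hQW : PolarNondeg QW)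
    (A : W ≃ₗ[F] W) (hA : ∀ v, QW (A v) = QW v) (hAr : (A : Module.End F W) ^ r = 1)
    (hc : LinearMap.charpoly (A : W →ₗ[F] W) = (∏ d : D, (d : F[X]) ^ k d)) (hdim : finrank F W = i * ∑ d, k d) :
    (¬ Even i → Lag QW) ∧ (Even i → (Lag QW ↔ Even (∑ d, k d))) := by
  classical
  by_cases h0 : ∑ d, k d = 0
  · have hW : finrank F W = 0 := by rw [hdim, h0, mul_zero]
    exact ⟨fun _ => lag_of_finrank_zero _ hW, fun _ => ⟨fun _ => by rw [h0]; exact Even.zero, fun _ => lag_of_finrank_zero _ hW⟩⟩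
  obtain ⟨w, hw⟩ := even_mul_sum H k hk
  have hpos2 : 0 < i * ∑ d, k d := Nat.mul_pos H.hipos (Nat.pos_of_ne_zero h0)
  have hw1 : 1 ≤ w := by omega
  have hdim2 : finrank F W = 2 * w := by omega
  have hiw : i * ∑ d, k d = 2 * w := by omega
  constructor
  · intro hodd
    exact (lag_iff_exists_plus hQW hw1 hdim2).2 (plus_of_type H hr2 hF k hk (fun h => absurd h hodd) QW hQW A hA hAr hc hw1 hdim2 hiw)
  · intro hev
    rw [lag_iff_exists_plus hQW hw1 hdim2]
    constructor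
    · intro hg
      by_contra hodd
      exact not_plus_of_type H hr2 hF k hev (Nat.not_even_iff_odd.1 hodd) QW A hA hAr hc hw1 hiw hg
    · intro hs
      exact plus_of_type H hr2 hF k hk (fun _ => hs) QW hQW A hA hAr hc hw1 hdim2 hiw

end Model

section Transfer

variable {ι' : Type} [Fintype ι'] [DecidableEq ι'] {F : Type u} [Field F]
variable {W : Type*} [AddCommGroup W] [Module F W] [FiniteDimensional F W]

theorem injective_of_isometric {Q : QuadraticForm F (ι' → F)} {QW : QuadraticForm F W} (hQW : PolarNondeg QW)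
    (φ : W →ₗ[F] (ι' → F)) (hφ : ∀ w, Q (φ w) = QW w) : Function.Injective φ := by
  rw [injective_iff_map_eq_zero]
  intro a ha
  apply hQW a
  intro y
  have h1 : polar QW a y = polar Q (φ a) (φ y) := by
    simp only [polar, ← map_add, hφ]
  rw [h1, ha]
  simp

/-- The image of an isometric embedding. -/
theorem transfer (Q : QuadraticForm F (ι' → F)) {QW : QuadraticForm F W} (hQW : PolarNondeg QW)
    (φ : W →ₗ[F] (ι' → F)) (hφ : ∀ w, Q (φ w) = QW w) :
    finrank F (LinearMap.range φ) = finrank F W ∧ Cfsg.Geo.IsNondegenerateOn (polar (⇑Q)) (LinearMap.range φ) ∧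
      (Cfsg.Geo.IsPlusTypeOn (⇑Q) (LinearMap.range φ) ↔ Lag QW) := by
  have hinj := injective_of_isometric hQW φ hφ
  have hpol : ∀ a b, polar (⇑Q) (φ a) (φ b) = polar QW a b := by
    intro a b
    simp only [polar, ← map_add, hφ]
  have hdim := LinearMap.finrank_range_of_inj hinj
  refine ⟨hdim, ?_, ?_, ?_⟩
  · rintro _ ⟨a, rfl⟩ ha
    have ha0 : a ≠ 0 := fun h => ha (by rw [h, map_zero])
    have h1 : ∃ y, polar QW a y ≠ 0 := by
      by_contra hcon
      push Not at hcon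
      exact ha0 (hQW a hcon)
    obtain ⟨y, hy⟩ := h1
    exact ⟨⟨φ y, ⟨y, rfl⟩, by rw [hpol, polar_comm]; exact hy⟩, ⟨φ y, ⟨y, rfl⟩, by rw [hpol]; exact hy⟩⟩
  · rintro ⟨U, hU, hUs, hUd⟩
    refine ⟨U.comap φ, fun x hx => ?_, ?_⟩
    · rw [← hφ]
      exact hUs _ hx
    · have h1 : (U.comap φ).map φ = U := Submodule.map_comap_eq_of_le hU
      have h2 : finrank F ↥((U.comap φ).map φ) = finrank F (U.comap φ) :=
        ((Submodule.equivMapOfInjective φ hinj _).finrank_eq).symm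
      rw [h1] at h2
      rw [← h2, hUd, hdim]
  · rintro ⟨X, hX, hd⟩
    refine ⟨X.map φ, Submodule.map_mono le_top |>.trans (by rw [LinearMap.range_eq_map]), ?_, ?_⟩
    · rintro _ ⟨x, hx, rfl⟩
      rw [hφ, hX x hx]
    · rw [← (Submodule.equivMapOfInjective φ hinj X).finrank_eq, hd, hdim]

end Transfer

end Cfsg.Agent.Lib.Classical.OSemi.Lag
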