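import Mathlib
import Cfsg.Agent.Lib.Classical.OSemi.Lag

/-!
# Invariant nondegenerate subspaces of given type for an isometry of odd prime order
-/

set_option autoImplicit false
set_option linter.unusedSectionVars false
set_option linter.unusedSimpArgs false
set_option linter.unusedVariables false
set_option linter.style.haveILetI false
set_option maxHeartbeats 1000000

open Polynomial Module QuadraticMap Matrix
open Cfsg Cfsg.Agent.Lib.Classical.Herm.CycTuples Cfsg.Agent.Lib.Classical.Witt.Hyp Cfsg.Agent.Lib.Linalg.OrthModels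
open Cfsg.Agent.Lib.Classical.Herm.OrthBlock Cfsg.Agent.Lib.Classical.Herm.OrthEmbed Cfsg.Agent.Lib.Linalg.Bridge
open Cfsg.Agent.Lib.Classical.Herm.OrthType Cfsg.Agent.Lib.Classical.Herm.OrthCount Cfsg.Agent.Lib.Classical.Witt.Index
open Cfsg.Agent.Lib.Classical.Herm.OrthFinal Cfsg.Agent.Lib.Classical.OSemi.Ext Cfsg.Agent.Lib.Classical.OSemi.Lag

namespace Cfsg.Agent.Lib.Classical.OSemi.Nondeg

universe u

section Tuples

variable {α : Type*} [Fintype α]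

/-- Sub-tuples with prescribed sum. -/
theorem exists_sub [DecidableEq α] (u : α → ℕ) {a : ℕ} (ha : a ≤ ∑ d, u d) : ∃ v : α → ℕ, (∀ d, v d ≤ u d) ∧ ∑ d, v d = a := by
  induction a with
  | zero => exact ⟨0, fun d => Nat.zero_le _, by simp⟩
  | succ a ih =>
    obtain ⟨v, hv, hs⟩ := ih (by omega)
    have hex : ∃ d, v d < u d := by
      by_contra hcon
      push Not at hcon
      have h1 : ∑ d, u d ≤ ∑ d, v d := Finset.sum_le_sum fun d _ => hcon d
      omega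
    obtain ⟨d, hd⟩ := hex
    refine ⟨Function.update v d (v d + 1), fun e => ?_, ?_⟩
    · by_cases h : e = d
      · subst h
        simpa using hd
      · simpa [Function.update_of_ne h] using hv e
    · have h1 : ∀ w : α → ℕ, ∑ e, w e = w d + ∑ e ∈ Finset.univ.erase d, w e := fun w =>
        (Finset.add_sum_erase _ _ (Finset.mem_univ d)).symm
      have h2 : ∑ e ∈ Finset.univ.erase d, Function.update v d (v d + 1) e = ∑ e ∈ Finset.univ.erase d, v e :=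
        Finset.sum_congr rfl fun e he => Function.update_of_ne (Finset.ne_of_mem_erase he) _ _
      rw [h1, h2]
      have h3 := h1 v
      simp only [Function.update_self]
      omega

/-- Half tuples for a fixed point free involution. -/
theorem exists_half_odd [DecidableEq α] (ι : α → α) (hι : ∀ a, ι (ι a) = a) (hfp : ∀ a, ι a ≠ a) (k : α → ℕ) (hk : ∀ d, k (ι d) = k d)
    {a : ℕ} (ha : 2 * a ≤ ∑ d, k d) :
    ∃ v : α → ℕ, (∀ d, v d + v (ι d) ≤ k d) ∧ ∑ d, v d = a := by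
  classical
  obtain ⟨T, hT⟩ := exists_transversal ι hι hfp
  have h1 := sum_eq_two_mul ι hι hT k hk
  have hu : a ≤ ∑ d : α, (if d ∈ T then k d else 0) := by
    rw [Finset.sum_ite_mem, Finset.univ_inter]
    omega
  obtain ⟨v, hv, hs⟩ := exists_sub _ hu
  refine ⟨v, fun d => ?_, hs⟩
  by_cases hd : d ∈ T
  · have h2 : ι d ∉ T := (hT d).1 hd
    have h3 := hv (ι d)
    rw [if_neg h2] at h3
    have h4 := hv d
    rw [if_pos hd] at h4
    omega
  · have h2 : ι d ∈ T := by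
      by_contra h
      exact hd ((hT d).2 h)
    have h3 := hv (ι d)
    rw [if_pos h2, hk] at h3
    have h4 := hv d
    rw [if_neg hd] at h4
    omega

end Tuples

section Main

variable {F : Type u} [Field F] [Fintype F] {p : ℕ} [Fact p.Prime] [CharP F p]
variable {ι' : Type} [Fintype ι'] [DecidableEq ι'] {q r i t : ℕ} {D : Finset F[X]}

/-- The multiplicity tuple of an isometry of prime order. -/
theorem exists_tuple (H : Data q r i t D) (hr : r.Prime) (hrp : r ≠ p) (Q : QuadraticForm F (ι' → F)) (hQ : PolarNondeg Q)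
    (x : ↥(Cfsg.isometryGroup F ⇑Q)) (hx : orderOf x = r) :
    ∃ k : D → ℕ, i * ∑ d, k d ≤ Fintype.card ι' ∧ k ≠ 0 ∧
      ((x : GL ι' F) : Matrix ι' ι' F).charpoly = polyOf D i (Fintype.card ι') k ∧ ∀ d, k (starD H d) = k d := by
  have hxo : orderOf (x : GL ι' F) = r := by rw [Subgroup.orderOf_coe]; exact hx
  obtain ⟨-, k, hk, hk0, hc⟩ := (orderOf_eq_iff rfl hr hrp H.hipos H.hD H.hDr (x : GL ι' F)).1 hxo
  refine ⟨k, hk, hk0, hc, ?_⟩
  exact inv_of_isometry H Q hQ (equivOfGL (x : GL ι' F)) (fun v => x.2 v v) k (by rw [charpoly_equivOfGL, hc])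

/-- The main construction: an invariant nondegenerate subspace with prescribed pieces. -/
theorem exists_inv_nondeg (H : Data q r i t D) (hF : Fintype.card F = q) (hr : r.Prime) (hr2 : r ≠ 2) (hrp : r ≠ p) (h2 : (2 : F) ≠ 0)
    (Q : QuadraticForm F (ι' → F)) (hQ : PolarNondeg Q) (x : ↥(Cfsg.isometryGroup F ⇑Q)) (hx : orderOf x = r)
    (k' k'' : D → ℕ) (hk' : ∀ d, k' (starD H d) = k' d) (hk'' : ∀ d, k'' (starD H d) = k'' d) (e : ℕ) (τ : Prop) (he : e = 0 → τ)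
    (hc : ((x : GL ι' F) : Matrix ι' ι' F).charpoly = polyOf D i (Fintype.card ι') (fun d => k' d + k'' d))
    (hdim : i * (∑ d, k' d + ∑ d, k'' d) + 2 * e ≤ Fintype.card ι')
    (hEmb : ∀ (W : Type u) [AddCommGroup W] [Module F W] [FiniteDimensional F W] (QW : QuadraticForm F W), PolarNondeg QW →
      finrank F W = i * (∑ d, k' d + ∑ d, k'' d) + 2 * e → ∃ ι₀ : W →ₗ[F] (ι' → F), ∀ w, Q (ι₀ w) = QW w) :
    ∃ U : Submodule F (ι' → F), finrank F U = i * ∑ d, k' d + 2 * e ∧ Cfsg.Geo.IsNondegenerateOn (polar (⇑Q)) U ∧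
      (∃ L : Prop, (¬ Even i → L) ∧ (Even i → (L ↔ Even (∑ d, k' d))) ∧ (Cfsg.Geo.IsPlusTypeOn (⇑Q) U ↔ (L ↔ τ))) ∧
      U.map (Matrix.toLin' ((x : GL ι' F) : Matrix ι' ι' F)) ≤ U := by
  classical
  haveI : Fact r.Prime := ⟨hr⟩
  obtain ⟨W₁, _, _, _, Q₁, A₁, h₁n, h₁i, h₁r, h₁c, h₁d⟩ := exists_W H hr2 hF k' hk'
  obtain ⟨W₂, _, _, _, Q₂, A₂, h₂n, h₂i, h₂r, h₂c, h₂d⟩ := exists_W H hr2 hF k'' hk''
  obtain ⟨P, _, _, _, QP, hPn, hPd, hPτ⟩ := exists_typed (F := F) e τ he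
  obtain ⟨m₁, hm₁⟩ := even_mul_sum H k' hk'
  let QW : QuadraticForm F ((W₁ × P) × W₂) := (Q₁.prod QP).prod Q₂
  have hQWa : ∀ (a : W₁) (b : P) (c : W₂), QW ((a, b), c) = Q₁ a + QP b + Q₂ c := fun _ _ _ => rfl
  have hQWn : PolarNondeg QW := polarNondeg_prod (polarNondeg_prod h₁n hPn) h₂n
  let A : ((W₁ × P) × W₂) ≃ₗ[F] ((W₁ × P) × W₂) := (A₁.prodCongr (LinearEquiv.refl F P)).prodCongr A₂
  have hAa : ∀ (a : W₁) (b : P) (c : W₂), A ((a, b), c) = ((A₁ a, b), A₂ c) := fun _ _ _ => rfl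
  have hAi : ∀ w, QW (A w) = QW w := by
    rintro ⟨⟨a, b⟩, c⟩
    rw [hAa, hQWa, hQWa, h₁i, h₂i]
  have hpow : ∀ (j : ℕ) (a : W₁) (b : P) (c : W₂), ((A : Module.End F ((W₁ × P) × W₂)) ^ j) ((a, b), c)
      = ((((A₁ : Module.End F W₁) ^ j) a, b), ((A₂ : Module.End F W₂) ^ j) c) := by
    intro j
    induction j with
    | zero => intro a b c; simp
    | succ j ih =>
      intro a b c
      rw [pow_succ, Module.End.mul_apply, pow_succ, pow_succ, Module.End.mul_apply, Module.End.mul_apply]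
      change ((A : Module.End F ((W₁ × P) × W₂)) ^ j) (A ((a, b), c)) = _
      rw [hAa, ih]
      rfl
  have hAr : (A : Module.End F ((W₁ × P) × W₂)) ^ r = 1 := by
    apply LinearMap.ext
    rintro ⟨⟨a, b⟩, c⟩
    rw [hpow, h₁r, h₂r]
    rfl
  have hWd : finrank F ((W₁ × P) × W₂) = i * (∑ d, k' d + ∑ d, k'' d) + 2 * e := by
    rw [Module.finrank_prod, Module.finrank_prod, h₁d, h₂d, hPd]
    ring
  obtain ⟨ι₀, hι₀⟩ := hEmb _ QW hQWn hWd
  have hcA : LinearMap.charpoly (A : ((W₁ × P) × W₂) →ₗ[F] ((W₁ × P) × W₂)) =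
      (∏ d : D, (d : F[X]) ^ k' d) * (X - 1) ^ (2 * e) * (∏ d : D, (d : F[X]) ^ k'' d) := by
    have h1 : (A : ((W₁ × P) × W₂) →ₗ[F] ((W₁ × P) × W₂)) =
        LinearMap.prodMap (LinearMap.prodMap (A₁ : W₁ →ₗ[F] W₁) (LinearMap.id : P →ₗ[F] P)) (A₂ : W₂ →ₗ[F] W₂) := rfl
    rw [h1, LinearMap.charpoly_prodMap, LinearMap.charpoly_prodMap, h₁c, h₂c, charpoly_id', hPd]
  have hcx : ((x : GL ι' F) : Matrix ι' ι' F).charpoly =
      LinearMap.charpoly (A : ((W₁ × P) × W₂) →ₗ[F] ((W₁ × P) × W₂)) *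
        (X - 1) ^ (Fintype.card ι' - finrank F ((W₁ × P) × W₂)) := by
    rw [hc, polyOf, hcA, hWd, Finset.sum_add_distrib]
    have h3 : Fintype.card ι' - i * (∑ d, k' d + ∑ d, k'' d) =
        2 * e + (Fintype.card ι' - (i * (∑ d, k' d + ∑ d, k'' d) + 2 * e)) := by omega
    rw [h3, pow_add]
    simp only [pow_add, Finset.prod_mul_distrib]
    ring
  obtain ⟨ι₁, hι₁, hιx⟩ := exists_equivariant H hr hr2 hrp Q hQ x hx QW hQWn ι₀ hι₀ A hAi hAr hcx
  let φ : (W₁ × P) →ₗ[F] (ι' → F) := ι₁ ∘ₗ LinearMap.inl F (W₁ × P) W₂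
  have hφa : ∀ w, φ w = ι₁ (w, 0) := fun w => rfl
  have hφQ : ∀ w, Q (φ w) = (Q₁.prod QP) w := by
    rintro ⟨a, b⟩
    rw [hφa, hι₁, hQWa]
    simp
  have hPn' := polarNondeg_prod h₁n hPn
  obtain ⟨t1, t2, t3⟩ := transfer Q hPn' φ hφQ
  obtain ⟨hl1, hl2⟩ := lag_model H hr2 hF k' hk' Q₁ h₁n A₁ h₁i h₁r h₁c h₁d
  refine ⟨LinearMap.range φ, ?_, t2, ⟨Lag Q₁, hl1, hl2, ?_⟩, ?_⟩
  · rw [t1, Module.finrank_prod, h₁d, hPd]
  · rw [t3, lag_prod h2 h₁n hPn (m₁ := m₁) (m₂ := e) (by rw [h₁d, hm₁]; ring) hPd, hPτ]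
  · rintro _ ⟨_, ⟨w, rfl⟩, rfl⟩
    obtain ⟨a, b⟩ := w
    refine ⟨(A₁ a, b), ?_⟩
    rw [hφa, hφa, Matrix.toLin'_apply, hιx, hAa]
    simp

end Main

end Cfsg.Agent.Lib.Classical.OSemi.Nondeg
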