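import Mathlib
import Cfsg.Agent.Lib.Classical.OSemi.Nondeg
import Cfsg.Agent.Lib.Classical.Elusive.SpCore
import Cfsg.Agent.Lib.Linalg.RCFType

/-!
# The structure of invariant subspaces of an isometry of odd prime order
-/

set_option autoImplicit false
set_option linter.unusedSectionVars false
set_option linter.unusedSimpArgs false
set_option linter.unusedVariables false
set_option linter.style.haveILetI false
set_option maxHeartbeats 1000000

open Polynomial Module QuadraticMap Matrix
open Cfsg Cfsg.Agent.Lib.Classical.Herm.CycTuples Cfsg.Agent.Lib.Classical.Witt.Hyp Cfsg.Agent.Lib.Linalg.OrthModels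
open Cfsg.Agent.Lib.Classical.Herm.OrthBlock Cfsg.Agent.Lib.Classical.Herm.OrthEmbed Cfsg.Agent.Lib.Linalg.Bridge
open Cfsg.Agent.Lib.Classical.Herm.OrthType Cfsg.Agent.Lib.Classical.Herm.OrthCount Cfsg.Agent.Lib.Classical.Witt.Index
open Cfsg.Agent.Lib.Classical.Herm.OrthFinal Cfsg.Agent.Lib.Classical.OSemi.Ext Cfsg.Agent.Lib.Classical.OSemi.Lag
open Cfsg.Agent.Lib.Classical.OSemi.Nondeg Cfsg.Agent.Lib.Classical.Elusive.Inv Cfsg.Agent.Lib.Classical.Elusive.SpCore
open Cfsg.Agent.Lib.Linalg.RCF Cfsg.Agent.Lib.Linalg.RCFType Cfsg.Agent.Lib.Classical.Witt.TS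

namespace Cfsg.Agent.Lib.Classical.OSemi.Decomp

universe u

section Poly

variable {F : Type*} [Field F] {V : Type*} [AddCommGroup V] [Module F V] [FiniteDimensional F V]

theorem aeval_restrict (T : Module.End F V) {U : Submodule F V} (h : ∀ x ∈ U, T x ∈ U) (f : F[X]) (u : U) :
    ((aeval (T.restrict h) f u : U) : V) = aeval T f (u : V) := by
  induction f using Polynomial.induction_on' generalizing u with
  | add p q hp hq =>
    simp only [map_add, LinearMap.add_apply, Submodule.coe_add, hp, hq]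
  | monomial n a =>
    rw [aeval_monomial, aeval_monomial]
    simp only [Module.End.mul_apply, Module.algebraMap_end_apply, Submodule.coe_smul]
    congr 1
    induction n generalizing u with
    | zero => simp
    | succ n ih =>
      rw [pow_succ, pow_succ, Module.End.mul_apply, Module.End.mul_apply, ih]
      rfl

theorem charpoly_of_killed (T : Module.End F V) {d : F[X]} (hm : d.Monic) (hi : Irreducible d) (hT : aeval T d = 0) :
    ∃ e, LinearMap.charpoly T = d ^ e := by
  classical
  have h1 := (aeval_eq_zero_iff T d).1 hT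
  have h2 : ∀ a ∈ typeOf T, a.1 ^ a.2 = d := by
    intro a ha
    obtain ⟨am, ai, ap⟩ := typeOf_adm T a ha
    have h3 := h1 a ha
    have h4 : a.1 ∣ d := (dvd_pow_self _ ap.ne').trans h3
    have h5 := eq_of_monic_of_associated am hm (ai.associated_of_dvd hi h4)
    rw [h5] at h3 ⊢
    have h6 := Polynomial.natDegree_le_of_dvd h3 hm.ne_zero
    rw [hm.natDegree_pow] at h6
    have h7 : 0 < d.natDegree := hi.natDegree_pos
    have h8 : a.2 = 1 := by
      have : a.2 * d.natDegree ≤ 1 * d.natDegree := by omega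
      have h9 := Nat.le_of_mul_le_mul_right this h7
      omega
    rw [h8, pow_one]
  refine ⟨Multiset.card (typeOf T), ?_⟩
  rw [charpoly_eq_prod_typeOf, Multiset.map_congr rfl h2, Multiset.map_const', Multiset.prod_replicate]

theorem not_dvd_charpoly (T : Module.End F V) {h d : F[X]} (hT : aeval T h = 0) (hi : Irreducible d) (hnd : ¬ d ∣ h) :
    ¬ d ∣ LinearMap.charpoly T := by
  classical
  have h1 := (aeval_eq_zero_iff T h).1 hT
  rw [charpoly_eq_prod_typeOf]
  intro hd
  obtain ⟨y, hy, hdy⟩ := hi.prime.exists_mem_multiset_dvd hd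
  obtain ⟨a, ha, rfl⟩ := Multiset.mem_map.1 hy
  exact hnd (hdy.trans (h1 a ha))

theorem charpoly_of_compl (T : Module.End F V) {K₁ K₂ : Submodule F V} (hc : IsCompl K₁ K₂)
    (h₁ : ∀ x ∈ K₁, T x ∈ K₁) (h₂ : ∀ x ∈ K₂, T x ∈ K₂) :
    LinearMap.charpoly T = LinearMap.charpoly (T.restrict h₁) * LinearMap.charpoly (T.restrict h₂) := by
  let Φ := Submodule.prodEquivOfIsCompl K₁ K₂ hc
  have h3 : T = Φ.conj (LinearMap.prodMap (T.restrict h₁) (T.restrict h₂)) := by
    apply LinearMap.ext
    intro v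
    obtain ⟨x, rfl⟩ := Φ.surjective v
    rw [LinearEquiv.conj_apply_apply, LinearEquiv.symm_apply_apply]
    obtain ⟨a, b⟩ := x
    simp [Φ, Submodule.coe_prodEquivOfIsCompl', map_add]
  conv_lhs => rw [h3]
  rw [LinearEquiv.charpoly_conj, LinearMap.charpoly_prodMap]

/-- The dimension of the kernel of an irreducible factor of the characteristic polynomial. -/
theorem finrank_ker_of_charpoly (T : Module.End F V) {r : ℕ} (hr : (r : F) ≠ 0) (hTr : T ^ r = 1) {d : F[X]} (hm : d.Monic)
    (hi : Irreducible d) (hdvd : d ∣ (X ^ r - 1 : F[X])) {u : ℕ} {R : F[X]} (hc : LinearMap.charpoly T = d ^ u * R) (hR : ¬ d ∣ R) :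
    finrank F (LinearMap.ker (aeval T d)) = u * d.natDegree := by
  classical
  obtain ⟨h, hh⟩ := hdvd
  have hsep : (X ^ r - 1 : F[X]).Separable := by
    have := separable_X_pow_sub_C (1 : F) hr one_ne_zero
    simpa using this
  rw [hh] at hsep
  have hcop : IsCoprime d h := hsep.isCoprime
  have hc₁ : IsCompl (LinearMap.ker (aeval T d)) (LinearMap.ker (aeval T h)) := by
    refine ⟨Polynomial.disjoint_ker_aeval_of_isCoprime T hcop, codisjoint_iff.2 ?_⟩
    rw [Polynomial.sup_ker_aeval_eq_ker_aeval_mul_of_coprime T hcop, ← hh]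
    rw [map_sub, map_pow, aeval_X, map_one, hTr, sub_self, LinearMap.ker_zero]
  have hinv : ∀ f : F[X], ∀ x ∈ LinearMap.ker (aeval T f), T x ∈ LinearMap.ker (aeval T f) :=
    fun f x hx => isInv_ker_aeval T f x hx
  have hk₁ : aeval (T.restrict (hinv d)) d = 0 := by
    apply LinearMap.ext
    intro x
    apply Subtype.ext
    rw [aeval_restrict]
    exact x.2
  have hk₂ : aeval (T.restrict (hinv h)) h = 0 := by
    apply LinearMap.ext
    intro x
    apply Subtype.ext
    rw [aeval_restrict]
    exact x.2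
  obtain ⟨e, he⟩ := charpoly_of_killed _ hm hi hk₁
  have hnd : ¬ d ∣ h := by
    intro hdh
    exact hi.not_isUnit (hcop.isUnit_of_dvd' dvd_rfl hdh)
  have hC := not_dvd_charpoly _ hk₂ hi hnd
  have hcp := charpoly_of_compl T hc₁ (hinv d) (hinv h)
  rw [he, hc] at hcp
  have hd0 : d ≠ 0 := hm.ne_zero
  have hue : u = e := by
    rcases Nat.lt_trichotomy u e with hlt | heq | hgt
    · exfalso
      obtain ⟨s, rfl⟩ : ∃ s, e = u + (s + 1) := ⟨e - u - 1, by omega⟩
      rw [pow_add, mul_assoc] at hcp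
      have := mul_left_cancel₀ (pow_ne_zero u hd0) hcp
      apply hR
      rw [this]
      exact dvd_mul_of_dvd_left (dvd_pow_self d (Nat.succ_ne_zero s)) _
    · exact heq
    · exfalso
      obtain ⟨s, rfl⟩ : ∃ s, u = e + (s + 1) := ⟨u - e - 1, by omega⟩
      rw [pow_add, mul_assoc] at hcp
      have := mul_left_cancel₀ (pow_ne_zero e hd0) hcp
      apply hC
      rw [← this]
      exact dvd_mul_of_dvd_left (dvd_pow_self d (Nat.succ_ne_zero s)) _
  have hdeg := LinearMap.charpoly_natDegree (T.restrict (hinv d))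
  rw [he, hm.natDegree_pow] at hdeg
  rw [hue, hdeg]

/-- Splitting an invariant subspace along a coprime factorisation. -/
theorem finrank_split_coprime {T : Module.End F V} {f g : F[X]} (hcop : IsCoprime f g) {W : Submodule F V} (hW : IsInv T W)
    (hk : ∀ w ∈ W, aeval T (f * g) w = 0) :
    finrank F W = finrank F ↥(W ⊓ LinearMap.ker (aeval T f)) + finrank F ↥(W ⊓ LinearMap.ker (aeval T g)) := by
  obtain ⟨a, b, hab⟩ := hcop
  have h1 : (W ⊓ LinearMap.ker (aeval T f)) ⊔ (W ⊓ LinearMap.ker (aeval T g)) = W := by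
    apply le_antisymm (sup_le inf_le_left inf_le_left)
    intro w hw
    have h2 := congrArg (fun h : F[X] => aeval T h w) hab
    simp only [map_add, map_mul, map_one, LinearMap.add_apply, Module.End.mul_apply, Module.End.one_apply] at h2
    rw [← h2]
    have hkw := hk w hw
    rw [map_mul, Module.End.mul_apply] at hkw
    have hkw' : aeval T g (aeval T f w) = 0 := by
      have h3 : aeval T g * aeval T f = aeval T f * aeval T g := by
        rw [← map_mul, ← map_mul, mul_comm]
      have h4 := congrArg (fun z : Module.End F V => z w) h3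
      simp only [Module.End.mul_apply] at h4
      rw [h4, hkw]
    rw [add_comm]
    refine Submodule.add_mem_sup (Submodule.mem_inf.2 ⟨hW.aeval b (hW.aeval g hw), ?_⟩) (Submodule.mem_inf.2 ⟨hW.aeval a (hW.aeval f hw), ?_⟩)
    · rw [LinearMap.mem_ker]
      have h3 : aeval T f * aeval T b = aeval T b * aeval T f := by
        rw [← map_mul, ← map_mul, mul_comm]
      have h4 := congrArg (fun z : Module.End F V => z (aeval T g w)) h3
      simp only [Module.End.mul_apply] at h4
      rw [h4, hkw, map_zero]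
    · rw [LinearMap.mem_ker]
      have h3 : aeval T g * aeval T a = aeval T a * aeval T g := by
        rw [← map_mul, ← map_mul, mul_comm]
      have h4 := congrArg (fun z : Module.End F V => z (aeval T f w)) h3
      simp only [Module.End.mul_apply] at h4
      rw [h4, hkw', map_zero]
  have h2 : (W ⊓ LinearMap.ker (aeval T f)) ⊓ (W ⊓ LinearMap.ker (aeval T g)) = ⊥ := by
    rw [eq_bot_iff]
    have hd := Polynomial.disjoint_ker_aeval_of_isCoprime T (⟨a, b, hab⟩ : IsCoprime f g)
    exact (inf_le_inf inf_le_right inf_le_right).trans hd.le_bot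
  have h3 := Submodule.finrank_sup_add_finrank_inf_eq (W ⊓ LinearMap.ker (aeval T f)) (W ⊓ LinearMap.ker (aeval T g))
  rw [h1, h2, finrank_bot, add_zero] at h3
  exact h3

/-- Splitting along a finite coprime factorisation. -/
theorem finrank_sum_factors {T : Module.End F V} {α : Type*} [DecidableEq α] (g : α → F[X]) (S : Finset α)
    (hcop : ∀ a ∈ S, ∀ b ∈ S, a ≠ b → IsCoprime (g a) (g b)) (W : Submodule F V) (hW : IsInv T W)
    (hk : ∀ w ∈ W, aeval T (∏ a ∈ S, g a) w = 0) :
    finrank F W = ∑ a ∈ S, finrank F ↥(W ⊓ LinearMap.ker (aeval T (g a))) := by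
  classical
  induction S using Finset.induction_on generalizing W with
  | empty =>
    simp only [Finset.prod_empty, map_one, Module.End.one_apply] at hk
    have : W = ⊥ := (Submodule.eq_bot_iff W).2 hk
    rw [this]
    simp
  | insert a S ha ih =>
    rw [Finset.sum_insert ha]
    rw [Finset.prod_insert ha] at hk
    have hc1 : IsCoprime (g a) (∏ b ∈ S, g b) := IsCoprime.prod_right fun b hb =>
      hcop a (Finset.mem_insert_self _ _) b (Finset.mem_insert_of_mem hb) (fun h => ha (h ▸ hb))
    have h1 := finrank_split_coprime hc1 hW hk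
    rw [h1]
    congr 1
    have h2 := ih (fun x hx y hy => hcop x (Finset.mem_insert_of_mem hx) y (Finset.mem_insert_of_mem hy))
      (W ⊓ LinearMap.ker (aeval T (∏ b ∈ S, g b))) (hW.inf (isInv_ker_aeval T _)) (fun w hw => hw.2)
    rw [h2]
    refine Finset.sum_congr rfl fun b hb => ?_
    have h3 : LinearMap.ker (aeval T (g b)) ≤ LinearMap.ker (aeval T (∏ b ∈ S, g b)) := by
      intro v hv
      rw [LinearMap.mem_ker] at hv ⊢
      obtain ⟨c, hc⟩ := Finset.dvd_prod_of_mem g hb
      rw [hc, mul_comm, map_mul, Module.End.mul_apply, hv, map_zero]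
    rw [inf_assoc, inf_eq_right.2 h3]

end Poly

section Form

variable {F : Type*} [Field F] {V : Type*} [AddCommGroup V] [Module F V] [FiniteDimensional F V]

theorem polar_comp_subtype (Q : QuadraticForm F V) (A : Submodule F V) (a b : A) :
    polar (Q.comp A.subtype) a b = polar Q (a : V) (b : V) := by
  simp [polar]

theorem nondeg_of_orth_sup {Q : QuadraticForm F V} (hQ : PolarNondeg Q) {A B : Submodule F V} (hs : A ⊔ B = ⊤)
    (horth : ∀ a ∈ A, ∀ b ∈ B, polar Q a b = 0) : PolarNondeg (Q.comp A.subtype) := by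
  intro a ha
  apply Subtype.ext
  apply hQ
  intro v
  have hv : v ∈ A ⊔ B := by rw [hs]; trivial
  obtain ⟨x, hx, y, hy, rfl⟩ := Submodule.mem_sup.1 hv
  rw [polar_add_right, horth _ a.2 _ hy, add_zero]
  have := ha ⟨x, hx⟩
  rwa [polar_comp_subtype] at this

theorem two_mul_le_of_ts {Q : QuadraticForm F V} {A W : Submodule F V} (hA : PolarNondeg (Q.comp A.subtype))
    (hW : ∀ w ∈ W, Q w = 0) : 2 * finrank F ↥(A ⊓ W) ≤ finrank F A := by
  have h1 : IsTS (Q.comp A.subtype) (W.comap A.subtype) := fun w hw => hW _ hw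
  have h2 := IsTS.two_mul_finrank_le hA h1
  rwa [finrank_comap_subtype] at h2

theorem perp_of_star (Q : QuadraticForm F V) (A : V ≃ₗ[F] V) (hA : ∀ v, Q (A v) = Q v) {f : F[X]} (c : F)
    {u : V} (hu : aeval (A : Module.End F V) f u = 0) (x : V) :
    polar Q u (aeval (A : Module.End F V) (C c * f.reverse) x) = 0 := by
  have h2 : (A.symm : Module.End F V) * (A : Module.End F V) = 1 := by
    apply LinearMap.ext
    intro v
    simp
  have h3 := aeval_inv_mul_pow' (F := F) h2 f
  rw [map_mul, aeval_C, ← h3]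
  simp only [Module.End.mul_apply, Module.algebraMap_end_apply]
  rw [polar_smul_right, ← polar_aeval Q A hA, hu]
  simp

end Form

section Main

variable {F : Type u} [Field F] [Fintype F] {p : ℕ} [Fact p.Prime] [CharP F p] {q r i t : ℕ} {D : Finset F[X]}

/-- A fixed point free isometry of prime order. -/
theorem free_model (H : Data q r i t D) (hr : r.Prime) (hrp : r ≠ p) {U : Type*} [AddCommGroup U] [Module F U] [FiniteDimensional F U]
    (QU : QuadraticForm F U) (hQU : PolarNondeg QU) (A : U ≃ₗ[F] U) (hA : ∀ v, QU (A v) = QU v)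
    (hAr : (A : Module.End F U) ^ r = 1) (hfree : ∀ v, A v = v → v = 0) :
    ∃ k : D → ℕ, (∀ d, k (starD H d) = k d) ∧ LinearMap.charpoly (A : U →ₗ[F] U) = (∏ d : D, (d : F[X]) ^ k d) ∧
      finrank F U = i * ∑ d, k d := by
  classical
  haveI : Fact r.Prime := ⟨hr⟩
  rcases Nat.eq_zero_or_pos (finrank F U) with h0 | hpos
  · refine ⟨0, fun _ => rfl, ?_, by simp [h0]⟩
    have h1 := LinearMap.charpoly_natDegree (A : U →ₗ[F] U)
    rw [h0] at h1
    have h2 := (LinearMap.charpoly_monic (A : U →ₗ[F] U)).natDegree_eq_zero.1 h1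
    rw [h2]
    simp
  obtain ⟨u, hu⟩ : ∃ u, u = finrank F U := ⟨_, rfl⟩
  let ψ : U ≃ₗ[F] (Fin u → F) := LinearEquiv.ofFinrankEq _ _ (by rw [Module.finrank_fin_fun, hu])
  let Q' : QuadraticForm F (Fin u → F) := QU.comp (ψ.symm : (Fin u → F) →ₗ[F] U)
  have hQ'a : ∀ v, Q' v = QU (ψ.symm v) := fun _ => rfl
  have hQ'n : PolarNondeg Q' := by
    intro a ha
    have h1 : ψ.symm a = 0 := hQU _ (fun y => by
      have h3 : polar Q' a (ψ y) = polar QU (ψ.symm a) y := by
        simp only [polar, hQ'a, map_add, LinearEquiv.symm_apply_apply]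
      rw [← h3]
      exact ha _)
    simpa using h1
  let g : (Fin u → F) ≃ₗ[F] (Fin u → F) := ψ.symm ≪≫ₗ A ≪≫ₗ ψ
  have hga : ∀ v, g v = ψ (A (ψ.symm v)) := fun _ => rfl
  have hgi : ∀ v, Q' (g v) = Q' v := by
    intro v
    rw [hQ'a, hQ'a, hga]
    simp [hA]
  have hgpow : ∀ (j : ℕ) (v : Fin u → F), ((g : Module.End F (Fin u → F)) ^ j) v = ψ (((A : Module.End F U) ^ j) (ψ.symm v)) := by
    intro j
    induction j with
    | zero => intro v; simp
    | succ j ih =>
      intro v
      rw [pow_succ, Module.End.mul_apply, ih, pow_succ, Module.End.mul_apply]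
      change ψ (((A : Module.End F U) ^ j) (ψ.symm (g v))) = _
      rw [hga]
      simp
  have hgr : (g : Module.End F (Fin u → F)) ^ r = 1 := by
    apply LinearMap.ext
    intro v
    rw [hgpow, hAr]
    simp
  have hY : glOfEquiv g ∈ Cfsg.isometryGroup F ⇑Q' := by
    intro a b
    change Q' (((glOfEquiv g : GL (Fin u) F) : Matrix (Fin u) (Fin u) F) *ᵥ a) = Q' a
    rw [glOfEquiv_mulVec]
    exact hgi a
  let G : ↥(Cfsg.isometryGroup F ⇑Q') := ⟨glOfEquiv g, hY⟩
  have hGv : ∀ v, ((G : GL (Fin u) F) : Matrix (Fin u) (Fin u) F) *ᵥ v = g v := fun v => glOfEquiv_mulVec g v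
  have hGr : G ^ r = 1 := by
    apply Subtype.ext
    apply Units.ext
    apply matrix_eq_of_mulVec_eq
    intro v
    have h2 := equivOfGL_pow' (glOfEquiv g) r v
    rw [equivOfGL_glOfEquiv, hgr] at h2
    exact h2.symm.trans (by simp)
  have hG1 : G ≠ 1 := by
    intro h1
    have h2 : ∀ v : U, A v = v := by
      intro v
      have h3 := hGv (ψ v)
      rw [h1] at h3
      have h4 : ((((1 : ↥(Cfsg.isometryGroup F ⇑Q')) : GL (Fin u) F) : Matrix (Fin u) (Fin u) F)) *ᵥ (ψ v) = ψ v := by
        change (1 : Matrix (Fin u) (Fin u) F) *ᵥ (ψ v) = ψ v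
        simp
      rw [h4, hga] at h3
      simpa using h3.symm
    have h5 : ∀ v : U, v = 0 := fun v => hfree v (h2 v)
    have h6 : Subsingleton U := ⟨fun a b => by rw [h5 a, h5 b]⟩
    have := Module.finrank_zero_of_subsingleton (R := F) (M := U)
    omega
  have hGo : orderOf G = r := orderOf_eq_prime hGr hG1
  obtain ⟨k, hkle, hk0, hc, hkinv⟩ := exists_tuple H hr hrp Q' hQ'n G hGo
  rw [Fintype.card_fin] at hc hkle
  have hcA : ((G : GL (Fin u) F) : Matrix (Fin u) (Fin u) F).charpoly = LinearMap.charpoly (A : U →ₗ[F] U) := by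
    change ((glOfEquiv g : GL (Fin u) F) : Matrix (Fin u) (Fin u) F).charpoly = _
    rw [charpoly_glOfEquiv]
    have h1 : (g : (Fin u → F) →ₗ[F] (Fin u → F)) = ψ.conj (A : U →ₗ[F] U) := by
      apply LinearMap.ext
      intro v
      rw [LinearEquiv.conj_apply_apply]
      rfl
    rw [h1, LinearEquiv.charpoly_conj]
  rw [hcA] at hc
  have hfull : i * ∑ d, k d = u := by
    by_contra hne
    have hlt : 0 < u - i * ∑ d, k d := by omega
    have h1 : Module.End.HasEigenvalue (A : U →ₗ[F] U) 1 := by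
      rw [Module.End.hasEigenvalue_iff_isRoot_charpoly, hc, polyOf]
      have h0 : eval 1 (X - 1 : F[X]) = 0 := by simp
      rw [IsRoot, eval_mul, eval_pow, h0, zero_pow hlt.ne', zero_mul]
    obtain ⟨v, hv⟩ := h1.exists_hasEigenvector
    have h2 : A v = v := by
      have := hv.apply_eq_smul
      simpa using this
    exact hv.2 (hfree v h2)
  refine ⟨k, hkinv, ?_, by rw [← hu, hfull]⟩
  rw [hc, polyOf_full H k hfull]

end Main

end Cfsg.Agent.Lib.Classical.OSemi.Decomp
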