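import Mathlib
import Cfsg.Agent.Lib.Classical.OSemi.Decomp

/-!
# Invariant subspaces of an isometry of odd prime order: the numerical constraints
-/

set_option autoImplicit false
set_option linter.unusedSectionVars false
set_option linter.unusedSimpArgs false
set_option linter.unusedVariables false
set_option linter.style.haveILetI false
set_option maxHeartbeats 1000000

open Polynomial Module QuadraticMap Matrix
open Cfsg Cfsg.Agent.Lib.Classical.Herm.CycTuples Cfsg.Agent.Lib.Classical.Witt.Hyp Cfsg.Agent.Lib.Linalg.OrthModels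
open Cfsg.Agent.Lib.Classical.Herm.OrthBlock Cfsg.Agent.Lib.Classical.Herm.OrthEmbed Cfsg.Agent.Lib.Linalg.Bridge
open Cfsg.Agent.Lib.Classical.Herm.OrthType Cfsg.Agent.Lib.Classical.Herm.OrthCount Cfsg.Agent.Lib.Classical.Witt.Index
open Cfsg.Agent.Lib.Classical.Herm.OrthFinal Cfsg.Agent.Lib.Classical.OSemi.Ext Cfsg.Agent.Lib.Classical.OSemi.Lag
open Cfsg.Agent.Lib.Classical.OSemi.Nondeg Cfsg.Agent.Lib.Classical.Elusive.Inv Cfsg.Agent.Lib.Classical.Elusive.SpCore
open Cfsg.Agent.Lib.Classical.OSemi.Decomp Cfsg.Agent.Lib.Classical.Elusive.PslNum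

namespace Cfsg.Agent.Lib.Classical.OSemi.Split

universe u

section Res

variable {F : Type*} [Field F] {V : Type*} [AddCommGroup V] [Module F V] [FiniteDimensional F V]

/-- The restriction of a finite order map to an invariant subspace. -/
theorem exists_res {T : Module.End F V} {r : ℕ} (hr : 0 < r) (hT : T ^ r = 1) {U : Submodule F V} (hU : IsInv T U) :
    ∃ A : U ≃ₗ[F] U, (∀ u : U, ((A u : U) : V) = T u) ∧ (A : Module.End F U) ^ r = 1 := by
  have hinj : Function.Injective (T.restrict hU) := by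
    intro a b hab
    have h1 : T a = T b := congrArg Subtype.val hab
    have h2 : (T ^ r) (a : V) = (T ^ r) (b : V) := by
      obtain ⟨s, hs⟩ : ∃ s, r = s + 1 := ⟨r - 1, by omega⟩
      rw [hs, pow_succ, Module.End.mul_apply, Module.End.mul_apply, h1]
    rw [hT] at h2
    exact Subtype.ext h2
  let A : U ≃ₗ[F] U := LinearEquiv.ofInjectiveEndo (T.restrict hU) hinj
  have hA : ∀ u : U, ((A u : U) : V) = T u := fun u => rfl
  refine ⟨A, hA, ?_⟩
  have hpow : ∀ (j : ℕ) (u : U), (((A : Module.End F U) ^ j) u : V) = (T ^ j) u := by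
    intro j
    induction j with
    | zero => intro u; simp
    | succ j ih =>
      intro u
      rw [pow_succ, Module.End.mul_apply, ih, pow_succ, Module.End.mul_apply]
      change (T ^ j) ((A u : U) : V) = _
      rw [hA]
  apply LinearMap.ext
  intro u
  apply Subtype.ext
  rw [hpow, hT]
  rfl

theorem sup_inf_Fix_Ker {y : Module.End F V} {r : ℕ} (hr : (r : F) ≠ 0) (hy : y ^ r = 1) {U : Submodule F V} (hU : IsInv y U) :
    (U ⊓ Fix y) ⊔ (U ⊓ Ker y r) = U := by
  apply Submodule.eq_of_le_of_finrank_eq (sup_le inf_le_left inf_le_left)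
  have h1 := finrank_split hr hy hU
  have h2 := Submodule.finrank_sup_add_finrank_inf_eq (U ⊓ Fix y) (U ⊓ Ker y r)
  have h3 : (U ⊓ Fix y) ⊓ (U ⊓ Ker y r) = ⊥ := by
    rw [eq_bot_iff, ← Fix_inf_Ker hr (y := y)]
    exact le_inf (inf_le_left.trans inf_le_right) (inf_le_right.trans inf_le_right)
  rw [h3, finrank_bot, add_zero] at h2
  omega

end Res

section Main

variable {F : Type u} [Field F] [Fintype F] {p : ℕ} [Fact p.Prime] [CharP F p] {q r i t : ℕ} {D : Finset F[X]}
variable {ι' : Type} [Fintype ι'] [DecidableEq ι']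

/-- The form preserved by the linear map. -/
theorem polar_toLin (Q : QuadraticForm F (ι' → F)) (x : ↥(Cfsg.isometryGroup F ⇑Q)) (u v : ι' → F) :
    polarBilin Q (Matrix.toLin' ((x : GL ι' F) : Matrix ι' ι' F) u) (Matrix.toLin' ((x : GL ι' F) : Matrix ι' ι' F) v) = polarBilin Q u v := by
  simp only [polarBilin_apply_apply, polar, Matrix.toLin'_apply]
  have h : ∀ w, Q (((x : GL ι' F) : Matrix ι' ι' F) *ᵥ w) = Q w := fun w => x.2 w w
  rw [← Matrix.mulVec_add, h, h, h]

theorem toLin_pow_eq_one (Q : QuadraticForm F (ι' → F)) (x : ↥(Cfsg.isometryGroup F ⇑Q)) {r : ℕ} (hx : x ^ r = 1) :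
    Matrix.toLin' ((x : GL ι' F) : Matrix ι' ι' F) ^ r = 1 := by
  have h1 : ((x : GL ι' F) : Matrix ι' ι' F) ^ r = 1 := by
    have h2 := congrArg (fun z : ↥(Cfsg.isometryGroup F ⇑Q) => ((z : GL ι' F) : Matrix ι' ι' F)) hx
    simpa using h2
  rw [← Matrix.toLin'_pow, h1, Matrix.toLin'_one]
  rfl

theorem cast_ne (hr : r.Prime) (hrp : r ≠ p) : (r : F) ≠ 0 := by
  rw [Ne, CharP.cast_eq_zero_iff F p]
  intro hd
  exact hrp ((Nat.prime_dvd_prime_iff_eq (Fact.out : p.Prime) hr).1 hd).symm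

/-- The nondegenerate case. -/
theorem nondeg_split (H : Data q r i t D) (hF : Fintype.card F = q) (hr : r.Prime) (hr2 : r ≠ 2) (hrp : r ≠ p)
    (Q : QuadraticForm F (ι' → F)) (x : ↥(Cfsg.isometryGroup F ⇑Q)) (hx : orderOf x = r)
    (W : Submodule F (ι' → F)) (hW : Cfsg.Geo.IsNondegenerateOn (polar (⇑Q)) W)
    (hinv : W.map (Matrix.toLin' ((x : GL ι' F) : Matrix ι' ι' F)) ≤ W) :
    ∃ k' : D → ℕ, (∀ d, k' (starD H d) = k' d) ∧
      finrank F W = finrank F ↥(W ⊓ Fix (Matrix.toLin' ((x : GL ι' F) : Matrix ι' ι' F))) + i * ∑ d, k' d ∧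
      (finrank F ↥(W ⊓ Fix (Matrix.toLin' ((x : GL ι' F) : Matrix ι' ι' F))) = 0 →
        (¬ Even i → Cfsg.Geo.IsPlusTypeOn (⇑Q) W) ∧ (Even i → (Cfsg.Geo.IsPlusTypeOn (⇑Q) W ↔ Even (∑ d, k' d)))) := by
  classical
  haveI : Fact r.Prime := ⟨hr⟩
  obtain ⟨T, hTdef⟩ : ∃ T, T = Matrix.toLin' ((x : GL ι' F) : Matrix ι' ι' F) := ⟨_, rfl⟩
  rw [← hTdef] at hinv ⊢
  have hTr : T ^ r = 1 := by
    rw [hTdef]
    exact toLin_pow_eq_one Q x (by rw [← hx]; exact pow_orderOf_eq_one x)
  have hr0 : (r : F) ≠ 0 := cast_ne hr hrp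
  have hTQ : ∀ v, Q (T v) = Q v := fun v => by
    rw [hTdef, Matrix.toLin'_apply]
    exact x.2 v v
  have hTB : ∀ u v, polarBilin Q (T u) (T v) = polarBilin Q u v := fun u v => by
    rw [hTdef]
    exact polar_toLin Q x u v
  have hWinv : IsInv T W := fun u hu => hinv ⟨u, hu, rfl⟩
  obtain ⟨U, hUdef⟩ : ∃ U, U = W ⊓ Ker T r := ⟨_, rfl⟩
  have hUinv : IsInv T U := by
    rw [hUdef]
    exact hWinv.inf (isInv_Ker T r)
  obtain ⟨A, hA, hAr⟩ := exists_res hr.pos hTr hUinv
  have hsup := sup_inf_Fix_Ker hr0 hTr hWinv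
  rw [← hUdef] at hsup
  have hQU : PolarNondeg (Q.comp U.subtype) := by
    intro u hu
    by_contra hne
    have hu0 : (u : ι' → F) ≠ 0 := fun h => hne (Subtype.ext h)
    have huW : (u : ι' → F) ∈ W := (hUdef.le u.2).1
    obtain ⟨-, z, hz, hzu⟩ := hW _ huW hu0
    rw [← hsup] at hz
    obtain ⟨z₁, hz₁, z₂, hz₂, rfl⟩ := Submodule.mem_sup.1 hz
    apply hzu
    rw [polar_add_right]
    have h1 : polar Q (u : ι' → F) z₁ = 0 := by
      rw [polar_comm]
      have huK : (u : ι' → F) ∈ Ker T r := (hUdef.le u.2).2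
      exact orth_Fix_Ker (B := polarBilin Q) hTB hr0 hz₁.2 huK
    have h2 := hu ⟨z₂, hz₂⟩
    rw [polar_comp_subtype] at h2
    rw [h1, h2, add_zero]
  have hAQ : ∀ v, (Q.comp U.subtype) (A v) = (Q.comp U.subtype) v := by
    intro v
    change Q ((A v : U) : ι' → F) = Q (v : ι' → F)
    rw [hA, hTQ]
  have hfree : ∀ v, A v = v → v = 0 := by
    intro v hv
    have h1 : T (v : ι' → F) = v := by
      rw [← hA, hv]
    have h2 : (v : ι' → F) ∈ Fix T ⊓ Ker T r := by
      exact Submodule.mem_inf.2 ⟨mem_Fix.2 h1, (hUdef.le v.2).2⟩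
    rw [Fix_inf_Ker hr0] at h2
    exact Subtype.ext ((Submodule.mem_bot F).1 h2)
  obtain ⟨k', hk', hc, hd⟩ := free_model H hr hrp (Q.comp U.subtype) hQU A hAQ hAr hfree
  obtain ⟨hl1, hl2⟩ := lag_model H hr2 hF k' hk' (Q.comp U.subtype) hQU A hAQ hAr hc hd
  refine ⟨k', hk', ?_, ?_⟩
  · rw [← hd, hUdef]
    exact finrank_split hr0 hTr hWinv
  · intro h0
    have h1 : W ⊓ Fix T = ⊥ := Submodule.finrank_eq_zero.1 h0
    rw [h1, bot_sup_eq] at hsup
    have h2 := transfer Q (φ := U.subtype) hQU (fun w => rfl)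
    rw [Submodule.range_subtype] at h2
    rw [← hsup, h2.2.2]
    exact ⟨hl1, hl2⟩

/-- The product of the factors. -/
theorem prod_D_eq_Phi (H : Data q r i t D) (hr : 0 < r) (ht : t * i = r - 1) : ∏ d ∈ D, d = Phi F r := by
  classical
  have hm : (∏ d ∈ D, d).Monic := monic_prod_of_monic _ _ fun d hd => (H.hD d hd).1
  have hPm : (Phi F r).Monic := Polynomial.monic_geom_sum_X hr.ne'
  have hPd : (Phi F r).natDegree = r - 1 := by
    have h1 := congrArg Polynomial.natDegree (Phi_mul F r)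
    rw [Monic.natDegree_mul hPm (monic_X_sub_C (1 : F) |> fun h => by simpa using h)] at h1
    have h2 : (X - 1 : F[X]).natDegree = 1 := by
      have := natDegree_X_sub_C (1 : F)
      simpa using this
    have h3 : (X ^ r - 1 : F[X]).natDegree = r := by
      have := natDegree_X_pow_sub_C (n := r) (r := (1 : F))
      simpa using this
    rw [h2, h3] at h1
    omega
  have hdeg : (∏ d ∈ D, d).natDegree = r - 1 := by
    rw [natDegree_prod_of_monic _ _ fun d hd => (H.hD d hd).1, Finset.sum_congr rfl fun d hd => (H.hD d hd).2.2.1,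
      Finset.sum_const, H.hcard, smul_eq_mul, ht]
  have hdvd : ∏ d ∈ D, d ∣ Phi F r := by
    refine Finset.prod_dvd_of_coprime ?_ ?_
    · intro a ha b hb hab
      exact isCoprime_of_monic_ne (H.hD a ha).1 (H.hD a ha).2.1 (H.hD b hb).1 (H.hD b hb).2.1 hab
    · intro d hd
      obtain ⟨h1, h2, -, h4⟩ := H.hD d hd
      have h5 := H.hdvd d hd
      rw [← Phi_mul] at h5
      rcases h2.prime.dvd_or_dvd h5 with h6 | h6
      · exact h6
      · exfalso
        have h7 : Irreducible (X - 1 : F[X]) := by simpa using irreducible_X_sub_C (1 : F)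
        have hm' : (X - 1 : F[X]).Monic := by simpa using monic_X_sub_C (1 : F)
        exact h4 (eq_of_monic_of_associated h1 hm' (h2.associated_of_dvd h7 h6))
  exact (eq_of_monic_of_dvd_of_natDegree_le hm hPm hdvd (by rw [hPd, hdeg])).symm

/-- The dimension of the fixed space. -/
theorem finrank_Fix_of_polyOf (H : Data q r i t D) (hr : r.Prime) (hrp : r ≠ p) (T : Module.End F (ι' → F)) (hT : T ^ r = 1) {n : ℕ} {k : D → ℕ}
    (hc : LinearMap.charpoly T = polyOf D i n k) : finrank F (Fix T) = n - i * ∑ d, k d := by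
  classical
  have hm' : (X - 1 : F[X]).Monic := by simpa using monic_X_sub_C (1 : F)
  have h7 : Irreducible (X - 1 : F[X]) := by simpa using irreducible_X_sub_C (1 : F)
  have hnd : ¬ (X - 1 : F[X]) ∣ ∏ d : D, (d : F[X]) ^ k d := by
    intro h
    have h1 := eval_eq_zero_of_dvd_of_eval_eq_zero h (by simp : (X - 1 : F[X]).eval 1 = 0)
    rw [eval_prod, Finset.prod_eq_zero_iff] at h1
    obtain ⟨d, -, hd⟩ := h1
    rw [eval_pow] at hd
    exact pow_ne_zero _ (eval_one_ne (H.hD d.1 d.2).1 (H.hD d.1 d.2).2.1 (H.hD d.1 d.2).2.2.2) hd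
  have hdvd : (X - 1 : F[X]) ∣ X ^ r - 1 := by
    rw [← Phi_mul]
    exact dvd_mul_left _ _
  have h1 := finrank_ker_of_charpoly T (cast_ne hr hrp) hT hm' h7 hdvd hc hnd
  have h2 : (X - 1 : F[X]).natDegree = 1 := by
    have := natDegree_X_sub_C (1 : F)
    simpa using this
  rw [h2, mul_one] at h1
  have h3 : Fix T = LinearMap.ker (aeval T (X - 1 : F[X])) := by
    simp [Cfsg.Agent.Lib.Classical.Elusive.Inv.Fix]
  rw [h3, h1]

/-- The dimension of the kernel of a factor. -/
theorem finrank_ker_of_polyOf (H : Data q r i t D) (hr : r.Prime) (hrp : r ≠ p) (T : Module.End F (ι' → F)) (hT : T ^ r = 1) {n : ℕ} {k : D → ℕ}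
    (hc : LinearMap.charpoly T = polyOf D i n k) (d : D) : finrank F (LinearMap.ker (aeval T (d : F[X]))) = k d * i := by
  classical
  obtain ⟨h1, h2, h3, h4⟩ := H.hD d.1 d.2
  have hfac : polyOf D i n k = (d : F[X]) ^ k d *
      ((X - 1) ^ (n - i * ∑ d, k d) * ∏ e ∈ Finset.univ.erase d, (e : F[X]) ^ k e) := by
    rw [polyOf, ← Finset.mul_prod_erase Finset.univ _ (Finset.mem_univ d)]
    ring
  have hnd : ¬ (d : F[X]) ∣ ((X - 1) ^ (n - i * ∑ d, k d) * ∏ e ∈ Finset.univ.erase d, (e : F[X]) ^ k e) := by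
    intro hdv
    rcases h2.prime.dvd_or_dvd hdv with h5 | h5
    · have h6 := h2.prime.dvd_of_dvd_pow h5
      have h7 : Irreducible (X - 1 : F[X]) := by simpa using irreducible_X_sub_C (1 : F)
      have hm' : (X - 1 : F[X]).Monic := by simpa using monic_X_sub_C (1 : F)
      exact h4 (eq_of_monic_of_associated h1 hm' (h2.associated_of_dvd h7 h6))
    · obtain ⟨e, he, h6⟩ := (h2.prime.dvd_finset_prod_iff _).1 h5
      have h7 := h2.prime.dvd_of_dvd_pow h6
      obtain ⟨e1, e2, -, -⟩ := H.hD e.1 e.2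
      have h8 := eq_of_monic_of_associated h1 e1 (h2.associated_of_dvd e2 h7)
      exact (Finset.ne_of_mem_erase he) (Subtype.ext h8).symm
  rw [hfac] at hc
  have h5 := finrank_ker_of_charpoly T (cast_ne hr hrp) hT h1 h2 (H.hdvd d.1 d.2) hc hnd
  rw [h5, h3]

/-- The totally singular case. -/
theorem ts_split (H : Data q r i t D) (ht : t * i = r - 1) (hF : Fintype.card F = q) (hr : r.Prime) (hr2 : r ≠ 2) (hrp : r ≠ p)
    (Q : QuadraticForm F (ι' → F)) (hQ : PolarNondeg Q) (x : ↥(Cfsg.isometryGroup F ⇑Q)) (hx : orderOf x = r) {k : D → ℕ}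
    (hc : ((x : GL ι' F) : Matrix ι' ι' F).charpoly = polyOf D i (Fintype.card ι') k)
    (W : Submodule F (ι' → F)) (hW : ∀ w ∈ W, Q w = 0)
    (hinv : W.map (Matrix.toLin' ((x : GL ι' F) : Matrix ι' ι' F)) ≤ W) :
    ∃ (f a : ℕ), finrank F W = f + i * a ∧ 2 * f ≤ Fintype.card ι' - i * ∑ d, k d ∧ (Even i → a ≤ ∑ d, k d / 2) := by
  classical
  haveI : Fact r.Prime := ⟨hr⟩
  obtain ⟨T, hTdef⟩ : ∃ T, T = Matrix.toLin' ((x : GL ι' F) : Matrix ι' ι' F) := ⟨_, rfl⟩
  rw [← hTdef] at hinv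
  have hTr : T ^ r = 1 := by
    rw [hTdef]
    exact toLin_pow_eq_one Q x (by rw [← hx]; exact pow_orderOf_eq_one x)
  have hr0 : (r : F) ≠ 0 := cast_ne hr hrp
  have hTB : ∀ u v, polarBilin Q (T u) (T v) = polarBilin Q u v := fun u v => by
    rw [hTdef]
    exact polar_toLin Q x u v
  have hWinv : IsInv T W := fun u hu => hinv ⟨u, hu, rfl⟩
  have hcT : LinearMap.charpoly T = polyOf D i (Fintype.card ι') k := by
    rw [hTdef, Matrix.charpoly_toLin', hc]
  have hfix := finrank_Fix_of_polyOf H hr hrp T hTr hcT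
  have hi0 : 0 < i := H.hipos
  have hfac : ∀ d : F[X], Irreducible d → d ∣ Phi F r → d.natDegree = i := by
    rw [H.hi]
    exact fac_Phi (p := p) hF hr hrp
  -- the fixed part
  have hFixnd : PolarNondeg (Q.comp (Fix T).subtype) :=
    nondeg_of_orth_sup hQ (sup_Fix_Ker hr0 hTr) (fun a ha b hb => orth_Fix_Ker (B := polarBilin Q) hTB hr0 ha hb)
  have h2f := two_mul_le_of_ts hFixnd hW
  rw [hfix, inf_comm] at h2f
  -- the kernel part
  have hsplit := finrank_split hr0 hTr hWinv
  have hPhi := prod_D_eq_Phi H hr.pos ht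
  have hker : ∃ a, finrank F ↥(W ⊓ Ker T r) = i * a ∧ (Even i → a ≤ ∑ d, k d / 2) := by
    have hsum := finrank_sum_factors (T := T) (fun d : D => (d : F[X])) Finset.univ
      (fun a _ b _ hab => isCoprime_of_monic_ne (H.hD a.1 a.2).1 (H.hD a.1 a.2).2.1 (H.hD b.1 b.2).1 (H.hD b.1 b.2).2.1
        (fun h => hab (Subtype.ext h)))
      (W ⊓ Ker T r) (hWinv.inf (isInv_Ker T r))
      (fun w hw => by
        have h0 : (∏ a : D, (a : F[X])) = ∏ d ∈ D, d := Finset.prod_coe_sort D (fun d => d)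
        rw [h0, hPhi]
        exact hw.2)
    have hpart : ∀ d : D, ∃ a, finrank F ↥((W ⊓ Ker T r) ⊓ LinearMap.ker (aeval T (d : F[X]))) = i * a ∧ (Even i → a ≤ k d / 2) := by
      intro d
      have hinvd : IsInv T ((W ⊓ Ker T r) ⊓ LinearMap.ker (aeval T (d : F[X]))) :=
        (hWinv.inf (isInv_Ker T r)).inf (isInv_ker_aeval T _)
      obtain ⟨a, ha⟩ := dvd_finrank hinvd (Phi_ne_zero hr0) hi0 hfac (fun v hv => hv.1.2)
      refine ⟨a, ha, fun hev => ?_⟩
      -- `d` is self reciprocal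
      have hstar : star (d : F[X]) = d := (H.hstar d.1 d.2).2 hev
      obtain ⟨h1, h2, h3, h4⟩ := H.hD d.1 d.2
      obtain ⟨h, hh⟩ := H.hdvd d.1 d.2
      have hsep : (X ^ r - 1 : F[X]).Separable := by
        have := separable_X_pow_sub_C (1 : F) hr0 one_ne_zero
        simpa using this
      rw [hh] at hsep
      have hcop : IsCoprime (d : F[X]) h := hsep.isCoprime
      let Aq := equivOfGL ((x : GL ι' F))
      have hAq : ((Aq : (ι' → F) ≃ₗ[F] (ι' → F)) : Module.End F (ι' → F)) = T := by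
        rw [hTdef]
        rfl
      have hAqQ : ∀ v, Q (Aq v) = Q v := fun v => x.2 v v
      have horth : ∀ u ∈ LinearMap.ker (aeval T (d : F[X])), ∀ v ∈ LinearMap.ker (aeval T h), polar Q u v = 0 := by
        intro u hu v hv
        obtain ⟨s, s', hs⟩ := hcop
        have h5 := congrArg (fun e : F[X] => aeval T e v) hs
        simp only [map_add, map_mul, map_one, LinearMap.add_apply, Module.End.mul_apply, Module.End.one_apply] at h5
        rw [LinearMap.mem_ker.1 hv, map_zero, add_zero] at h5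
        have h6 : aeval T s (aeval T (d : F[X]) v) = aeval T (d : F[X]) (aeval T s v) := by
          have h7 : aeval T s * aeval T (d : F[X]) = aeval T (d : F[X]) * aeval T s := by
            rw [← map_mul, ← map_mul, mul_comm]
          exact congrArg (fun z : Module.End F (ι' → F) => z v) h7
        rw [h6] at h5
        rw [← h5]
        have h8 : (d : F[X]) = C (d.1.coeff 0)⁻¹ * (d : F[X]).reverse := hstar.symm
        rw [h8]
        have hu' : aeval (Aq : Module.End F (ι' → F)) (d : F[X]) u = 0 := by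
          rw [hAq]
          exact hu
        have := perp_of_star Q Aq hAqQ (d.1.coeff 0)⁻¹ hu' (aeval T s v)
        rwa [hAq] at this
      have hsup : LinearMap.ker (aeval T (d : F[X])) ⊔ LinearMap.ker (aeval T h) = ⊤ := by
        rw [Polynomial.sup_ker_aeval_eq_ker_aeval_mul_of_coprime T hcop, ← hh]
        rw [map_sub, map_pow, aeval_X, map_one, hTr, sub_self, LinearMap.ker_zero]
      have hnd := nondeg_of_orth_sup hQ hsup horth
      have h9 := two_mul_le_of_ts hnd hW
      rw [finrank_ker_of_polyOf H hr hrp T hTr hcT d] at h9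
      have hle : LinearMap.ker (aeval T (d : F[X])) ≤ Ker T r := by
        intro v hv
        rw [mem_Ker]
        have h10 : (d : F[X]) ∣ Phi F r := by
          rw [← hPhi]
          exact Finset.dvd_prod_of_mem _ d.2
        obtain ⟨e, he⟩ := h10
        rw [he, mul_comm, map_mul, Module.End.mul_apply, LinearMap.mem_ker.1 hv, map_zero]
      have h11 : (W ⊓ Ker T r) ⊓ LinearMap.ker (aeval T (d : F[X])) = LinearMap.ker (aeval T (d : F[X])) ⊓ W := by
        rw [inf_assoc, inf_eq_right.2 hle, inf_comm]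
      rw [h11] at ha
      rw [ha] at h9
      have h12 : i * (2 * a) ≤ i * k d := by
        calc i * (2 * a) = 2 * (i * a) := by ring
          _ ≤ k d * i := h9
          _ = i * k d := by ring
      have h13 := Nat.le_of_mul_le_mul_left h12 hi0
      omega
    choose a ha hale using hpart
    refine ⟨∑ d, a d, ?_, fun hev => Finset.sum_le_sum fun d _ => hale d hev⟩
    rw [hsum, Finset.mul_sum]
    exact Finset.sum_congr rfl fun d _ => ha d
  obtain ⟨a, ha, hale⟩ := hker
  exact ⟨finrank F ↥(W ⊓ Fix T), a, by rw [hsplit, ha], h2f, hale⟩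

end Main

end Cfsg.Agent.Lib.Classical.OSemi.Split
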