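import Mathlib
import Cfsg.Agent.Lib.Classical.OSemi.Split
import Cfsg.Agent.Lib.Classical.OJordan.Model
import Cfsg.Agent.Lib.Classical.Orth.Adjust
import Cfsg.Agent.S0291

/-!
# Fixed spaces of `r`-subgroups of the orthogonal group; numbers of subspaces prime to `r`
-/

set_option autoImplicit false
set_option linter.unusedSectionVars false
set_option linter.unusedSimpArgs false
set_option linter.unusedVariables false
set_option linter.style.haveILetI false
set_option maxHeartbeats 1000000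

open Polynomial Module QuadraticMap Matrix
open Cfsg Cfsg.Agent.Lib.Classical.Herm.CycTuples Cfsg.Agent.Lib.Classical.Witt.Hyp Cfsg.Agent.Lib.Linalg.OrthModels
open Cfsg.Agent.Lib.Classical.Herm.OrthBlock Cfsg.Agent.Lib.Classical.Herm.OrthEmbed
open Cfsg.Agent.Lib.Classical.Herm.OrthType Cfsg.Agent.Lib.Classical.Herm.OrthCount Cfsg.Agent.Lib.Classical.Witt.Index
open Cfsg.Agent.Lib.Classical.Herm.OrthFinal Cfsg.Agent.Lib.Classical.OSemi.Lag
open Cfsg.Agent.Lib.Classical.OSemi.Decomp Cfsg.Agent.Lib.Classical.OSemi.Split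
open Cfsg.Agent.Lib.Classical.Orth.Basic Cfsg.Agent.Lib.Classical.Orth.Classes Cfsg.Agent.Lib.Classical.Orth.Adjust

namespace Cfsg.Agent.Lib.Classical.OSemi.SylowFix

universe u

section Embed

variable {F : Type u} [Field F] [Fintype F]

/-- Nondegenerate even dimensional spaces embed in nondegenerate odd dimensional spaces of larger dimension. -/
theorem exists_embed_in_odd (h2 : (2 : F) ≠ 0) {Y : Type*} [AddCommGroup Y] [Module F Y] [FiniteDimensional F Y]
    {QY : QuadraticForm F Y} (hY : PolarNondeg QY) {s : ℕ} (hYd : finrank F Y = 2 * s + 1)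
    {P : Type*} [AddCommGroup P] [Module F P] [FiniteDimensional F P] {QP : QuadraticForm F P} (hP : PolarNondeg QP)
    {w : ℕ} (hPd : finrank F P = 2 * w) (hws : w ≤ s) :
    ∃ ι₀ : P →ₗ[F] Y, ∀ v, QY (ι₀ v) = QP v := by
  classical
  rcases Nat.eq_zero_or_pos w with rfl | hw
  · have hPs : Subsingleton P := Module.finrank_zero_iff.1 (by omega)
    exact ⟨0, fun v => by
      rw [Subsingleton.elim v 0]
      simp⟩
  have hd' : finrank F (Unit ⊕ (Fin s ⊕ Fin s) → F) = 2 * s + 1 := by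
    rw [Module.finrank_fintype_fun_eq_card]
    simp [Fintype.card_sum]
    ring
  obtain ⟨ψ, c, hψ⟩ := Cfsg.Agent.Lib.Classical.OJordan.Model.exists_similitude hYd hd' QY (oddQ s F)
    (nondeg_of_polarNondeg _ hY) (nondeg_of_polarNondeg _ (polarNondeg_oddQ s h2))
  have hc : c ≠ 0 := by
    rintro rfl
    have h0 : ∀ v, QY v = 0 := fun v => by rw [hψ, zero_mul]
    have hs : Subsingleton Y := ⟨fun a b => by
      have h1 : ∀ a : Y, a = 0 := fun a => hY a fun y => by simp [polar, h0]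
      rw [h1 a, h1 b]⟩
    have := Module.finrank_zero_of_subsingleton (R := F) (M := Y)
    omega
  let QP' : QuadraticForm F P := c⁻¹ • QP
  have hQP' : ∀ v, QP' v = c⁻¹ * QP v := fun v => rfl
  have hP' : PolarNondeg QP' := by
    intro a ha
    apply hP
    intro y
    have h1 := ha y
    simp only [polar, hQP'] at h1
    have h3 : c⁻¹ * (QP (a + y) - QP a - QP y) = 0 := by linear_combination h1
    have h4 := (mul_eq_zero.1 h3).resolve_left (inv_ne_zero hc)
    exact h4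
  obtain ⟨ι₁, hι₁⟩ := exists_embed_odd QP' hP' hw hPd hws
  refine ⟨(ψ.symm : _ →ₗ[F] Y) ∘ₗ ι₁, fun v => ?_⟩
  simp only [LinearMap.comp_apply, LinearEquiv.coe_coe]
  rw [hψ, LinearEquiv.apply_symm_apply, hι₁, hQP']
  field_simp

/-- Spaces of the same type are isometric. -/
theorem exists_equiv_of_type {W W' : Type*} [AddCommGroup W] [Module F W] [FiniteDimensional F W]
    [AddCommGroup W'] [Module F W'] [FiniteDimensional F W'] {QW : QuadraticForm F W} {QW' : QuadraticForm F W'}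
    (hn : PolarNondeg QW) (hn' : PolarNondeg QW') {w : ℕ} (hw : 1 ≤ w) (hd : finrank F W = 2 * w) (hd' : finrank F W' = 2 * w)
    (hL : Lag QW ↔ Lag QW') : ∃ φ : W ≃ₗ[F] W', ∀ v, QW' (φ v) = QW v := by
  classical
  suffices hemb : ∃ ι₀ : W →ₗ[F] W', ∀ v, QW' (ι₀ v) = QW v by
    obtain ⟨ι₀, hι₀⟩ := hemb
    have hinj : Function.Injective ι₀ := by
      rw [injective_iff_map_eq_zero]
      intro a ha
      apply hn a
      intro y
      have h1 : polar QW a y = polar QW' (ι₀ a) (ι₀ y) := by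
        simp only [polar, ← map_add, hι₀]
      rw [h1, ha]
      simp
    refine ⟨LinearMap.linearEquivOfInjective ι₀ hinj (by rw [hd, hd']), fun v => ?_⟩
    rw [LinearMap.linearEquivOfInjective_apply]
    exact hι₀ v
  rcases exists_isometry_plus_or_minus hw hd' QW' (nondeg_of_polarNondeg _ hn') with ⟨g, hg⟩ | ⟨ζ, hζ, g, hg⟩
  · obtain ⟨ι₁, hι₁⟩ := exists_embed_plus QW hn hw hd le_rfl (fun _ =>
      (lag_iff_exists_plus hn hw hd).1 (hL.2 (lag_of_plus g hg)))
    refine ⟨(g.symm : _ →ₗ[F] W') ∘ₗ ι₁, fun v => ?_⟩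
    simp only [LinearMap.comp_apply, LinearEquiv.coe_coe]
    rw [← hι₁, ← hg, LinearEquiv.apply_symm_apply]
  · obtain ⟨s, rfl⟩ : ∃ s, w = s + 1 := ⟨w - 1, by omega⟩
    obtain ⟨g', hg'⟩ : ∃ g' : W' ≃ₗ[F] ((Fin s ⊕ Fin s) ⊕ Fin 2 → F), ∀ v, minusQ s F 1 ζ (g' v) = QW' v := ⟨g, hg⟩
    have hac := anisotropic_no_root hζ
    have hnL : ¬ Lag QW' := fun ⟨X, hX, hdX⟩ => by
      have h1 := finrank_le_of_ts hac g' hg' X hX
      omega
    obtain ⟨ι₁, hι₁⟩ := exists_embed_minus QW hn hw hd (m := s) le_rfl hac (fun _ hgg =>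
      hnL (hL.1 ((lag_iff_exists_plus hn hw hd).2 hgg)))
    refine ⟨(g'.symm : _ →ₗ[F] W') ∘ₗ ι₁, fun v => ?_⟩
    simp only [LinearMap.comp_apply, LinearEquiv.coe_coe]
    rw [← hι₁, ← hg', LinearEquiv.apply_symm_apply]

end Embed

section Sub

variable {ι' : Type} [Fintype ι'] [DecidableEq ι'] {F : Type u} [Field F] [Fintype F]
variable (Q : QuadraticForm F (ι' → F))

/-- The action on subspaces. -/
@[reducible] noncomputable def subAction : MulAction ↥(Cfsg.isometryGroup F ⇑Q) (Submodule F (ι' → F)) where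
  smul g U := gMap g U
  one_smul U := gMap_one U
  mul_smul g h U := gMap_mul g h U

/-- The number of subspaces in an orbit with a stabiliser containing a Sylow subgroup. -/
theorem not_dvd_card (hQ : (polarBilin Q).Nondegenerate) {r : ℕ} [Fact r.Prime] (P : Submodule F (ι' → F) → Prop)
    (hP1 : ∀ (g : ↥(Cfsg.isometryGroup F ⇑Q)) W, P W → P (gMap g W))
    (hP2 : ∀ W W', P W → P W' → ∃ φ : W ≃ₗ[F] W', ∀ x : W, Q (φ x : ι' → F) = Q (x : ι' → F))
    (S : Sylow r ↥(Cfsg.isometryGroup F ⇑Q)) (W₀ : Submodule F (ι' → F)) (hW₀ : P W₀)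
    (hfix : ∀ g ∈ (S : Subgroup ↥(Cfsg.isometryGroup F ⇑Q)), gMap g W₀ = W₀) :
    ¬ r ∣ Nat.card {W // P W} := by
  classical
  letI := subAction Q
  have hsmul : ∀ (g : ↥(Cfsg.isometryGroup F ⇑Q)) (U : Submodule F (ι' → F)), g • U = gMap g U := fun _ _ => rfl
  have h1 : (S : Subgroup ↥(Cfsg.isometryGroup F ⇑Q)) ≤ MulAction.stabilizer ↥(Cfsg.isometryGroup F ⇑Q) W₀ := by
    intro g hg
    rw [MulAction.mem_stabilizer_iff, hsmul]
    exact hfix g hg
  have h2 : (MulAction.stabilizer ↥(Cfsg.isometryGroup F ⇑Q) W₀).index ∣ (S : Subgroup ↥(Cfsg.isometryGroup F ⇑Q)).index :=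
    Subgroup.index_dvd_of_le h1
  have h3 : ¬ r ∣ (S : Subgroup ↥(Cfsg.isometryGroup F ⇑Q)).index := S.not_dvd_index
  have h4 : (MulAction.stabilizer ↥(Cfsg.isometryGroup F ⇑Q) W₀).index = Nat.card {W // P W} := by
    rw [MulAction.index_stabilizer]
    rw [← Nat.card_coe_set_eq]
    refine Nat.card_congr (Equiv.subtypeEquivRight fun W => ?_)
    constructor
    · rintro ⟨g, rfl⟩
      exact hP1 g W₀ hW₀
    · intro hW
      obtain ⟨φ, hφ⟩ := hP2 W₀ W hW₀ hW
      obtain ⟨g, hg, -⟩ := exists_iso_of_witt hQ W₀ W φ hφ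
      exact ⟨g, hg⟩
  rw [← h4]
  exact fun hd => h3 (hd.trans h2)

variable {Q}
variable {p : ℕ} [Fact p.Prime] [CharP F p]

/-- Congruence for an invariant set of vectors. -/
theorem card_modEq_fixed {r : ℕ} [Fact r.Prime] {S : Subgroup ↥(Cfsg.isometryGroup F ⇑Q)} (hS : IsPGroup r S)
    (X : Set (ι' → F)) (hX : ∀ g ∈ S, ∀ v ∈ X, act g v ∈ X) :
    Nat.card X ≡ Nat.card {v : ι' → F // v ∈ X ∧ ∀ g ∈ S, act g v = v} [MOD r] := by
  classical
  letI : MulAction ↥S X :=
    { smul := fun g v => ⟨act g.1 v.1, hX g.1 g.2 v.1 v.2⟩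
      one_smul := fun v => Subtype.ext (act_one v.1)
      mul_smul := fun g h v => Subtype.ext (act_mul g.1 h.1 v.1) }
  have hsm : ∀ (g : ↥S) (v : X), ((g • v : X) : ι' → F) = act g.1 v.1 := fun _ _ => rfl
  have h1 := hS.card_modEq_card_fixedPoints X
  have h2 : Nat.card (MulAction.fixedPoints ↥S X) = Nat.card {v : ι' → F // v ∈ X ∧ ∀ g ∈ S, act g v = v} := by
    refine Nat.card_congr
      { toFun := fun v => ⟨v.1.1, v.1.2, fun g hg => by
          have := v.2 ⟨g, hg⟩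
          exact congrArg Subtype.val this⟩
        invFun := fun v => ⟨⟨v.1, v.2.1⟩, fun g => Subtype.ext (v.2.2 g.1 g.2)⟩
        left_inv := fun v => rfl
        right_inv := fun v => rfl }
  rwa [h2] at h1

/-- The main theorem on fixed spaces. -/
theorem fix_facts {q : ℕ} (hF : Fintype.card F = q) (h2 : (2 : F) ≠ 0) (hQ : PolarNondeg Q) {r : ℕ} [Fact r.Prime] (hrp : r ≠ p)
    {S : Subgroup ↥(Cfsg.isometryGroup F ⇑Q)} (hS : IsPGroup r S) (hi1 : orderOf (q : ZMod r) ≠ 1) :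
    ∃ Y : Submodule F (ι' → F), (∀ v, v ∈ Y ↔ ∀ g ∈ S, act g v = v) ∧ PolarNondeg (Q.comp Y.subtype) ∧
      finrank F Y ≤ Fintype.card ι' ∧ orderOf (q : ZMod r) ∣ Fintype.card ι' - finrank F Y ∧ Even (Fintype.card ι' - finrank F Y) := by
  classical
  have hr : r.Prime := Fact.out
  let Y : Submodule F (ι' → F) :=
    { carrier := {v | ∀ g ∈ S, act g v = v}
      add_mem' := fun {a b} ha hb g hg => by rw [act_add, ha g hg, hb g hg]
      zero_mem' := fun g _ => act_zero g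
      smul_mem' := fun c x hx g hg => by rw [act_smul, hx g hg] }
  have hY : ∀ v, v ∈ Y ↔ ∀ g ∈ S, act g v = v := fun v => Iff.rfl
  let B : LinearMap.BilinForm F (ι' → F) := polarBilin Q
  have hBa : ∀ a b, B a b = polar (⇑Q) a b := fun _ _ => rfl
  have hBn : B.Nondegenerate := nondeg_of_polarNondeg Q hQ
  obtain ⟨U, hUdef⟩ : ∃ U, U = B.orthogonal Y := ⟨_, rfl⟩
  have hUmem : ∀ u, u ∈ U ↔ ∀ y ∈ Y, polar (⇑Q) y u = 0 := fun u => by
    rw [hUdef]
    exact Iff.rfl
  obtain ⟨a, ha⟩ := (IsPGroup.iff_card.1 hS)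
  have hr0 : (r : F) ≠ 0 := cast_ne hr hrp
  haveI : Fintype ↥S := Fintype.ofFinite _
  have hN0 : ((Nat.card ↥S : ℕ) : F) ≠ 0 := by
    rw [ha]
    push_cast
    exact pow_ne_zero _ hr0
  -- averaging
  have hYU : ∀ v, v ∈ Y → v ∈ U → v = 0 := by
    intro v hvY hvU
    apply hQ
    intro w
    have hfixw : (∑ g : ↥S, act g.1 w) ∈ Y := by
      intro h hh
      have h1 : act h (∑ g : ↥S, act g.1 w) = ∑ g : ↥S, act (⟨h, hh⟩ * g : ↥S).1 w := by
        simp only [act, Matrix.mulVec_sum]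
        refine Finset.sum_congr rfl fun g _ => ?_
        exact congrArg (fun z : ↥(Cfsg.isometryGroup F ⇑Q) => ((z : GL ι' F) : Matrix ι' ι' F) *ᵥ w) (rfl : h * g.1 = (⟨h, hh⟩ * g : ↥S).1) |>.symm ▸ by
          simp [Matrix.mulVec_mulVec]
      rw [h1]
      exact Fintype.sum_equiv (Equiv.mulLeft (⟨h, hh⟩ : ↥S)) _ _ (fun g => rfl)
    have h1 := (hUmem v).1 hvU _ hfixw
    have h3 : polar (⇑Q) (∑ g : ↥S, act g.1 w) v = ((Nat.card ↥S : ℕ) : F) * polar (⇑Q) w v := by
      have h4 : B (∑ g : ↥S, act g.1 w) v = ∑ g : ↥S, B (act g.1 w) v := by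
        rw [map_sum, LinearMap.sum_apply]
      have h5 : ∀ g : ↥S, B (act g.1 w) v = polar (⇑Q) w v := by
        intro g
        rw [hBa, polar_act_left, (hY v).1 hvY _ (S.inv_mem g.2)]
      rw [← hBa, h4, Finset.sum_congr rfl fun g _ => h5 g, Finset.sum_const, Nat.card_eq_fintype_card]
      simp
    rw [h1] at h3
    have h6 := (mul_eq_zero.1 h3.symm).resolve_left hN0
    rw [polar_comm]
    exact h6
  have hdim := LinearMap.BilinForm.finrank_orthogonal hBn Y
  rw [← hUdef, Module.finrank_fintype_fun_eq_card] at hdim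
  have hinf : Y ⊓ U = ⊥ := by
    rw [eq_bot_iff]
    intro v hv
    exact (Submodule.mem_bot F).2 (hYU v hv.1 hv.2)
  have hYle : finrank F Y ≤ Fintype.card ι' := by
    have := Submodule.finrank_le Y
    rwa [Module.finrank_fintype_fun_eq_card] at this
  have hsup : Y ⊔ U = ⊤ := by
    apply Submodule.eq_top_of_finrank_eq
    have h1 := Submodule.finrank_sup_add_finrank_inf_eq Y U
    rw [hinf, finrank_bot, add_zero] at h1
    rw [h1, hdim, Module.finrank_fintype_fun_eq_card]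
    omega
  have hYU0 : ∀ a ∈ Y, ∀ b ∈ U, polar (⇑Q) a b = 0 := fun a ha b hb => (hUmem b).1 hb a ha
  have hYn : PolarNondeg (Q.comp Y.subtype) := nondeg_of_orth_sup hQ hsup hYU0
  have hUn : PolarNondeg (Q.comp U.subtype) := nondeg_of_orth_sup hQ (by rw [sup_comm]; exact hsup)
    (fun a ha b hb => by rw [polar_comm]; exact hYU0 b hb a ha)
  -- invariance of the complement
  have hUinv : ∀ g ∈ S, ∀ u ∈ U, act g u ∈ U := by
    intro g hg u hu
    rw [hUmem]
    intro y hy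
    have h1 := polar_act g (act g⁻¹ y) u
    rw [act_act_inv] at h1
    rw [h1, (hY y).1 hy _ (S.inv_mem hg)]
    exact (hUmem u).1 hu y hy
  -- the congruences
  have hc1 := card_modEq_fixed hS (U : Set (ι' → F)) hUinv
  have hfix1 : Nat.card {v : ι' → F // v ∈ (U : Set (ι' → F)) ∧ ∀ g ∈ S, act g v = v} = 1 := by
    rw [Nat.card_eq_one_iff_unique]
    refine ⟨⟨?_⟩, ⟨⟨0, U.zero_mem, fun g _ => act_zero g⟩⟩⟩
    rintro ⟨x, hx1, hx2⟩ ⟨y, hy1, hy2⟩
    have e : x = y := by rw [hYU x hx2 hx1, hYU y hy2 hy1]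
    exact Subtype.ext e
  rw [hfix1] at hc1
  have hcardU : Nat.card (U : Set (ι' → F)) = q ^ finrank F U := by
    have h1 : Nat.card (U : Set (ι' → F)) = Nat.card U := rfl
    rw [h1, Nat.card_eq_fintype_card, Module.card_eq_pow_finrank (K := F) (V := U), hF]
  rw [hcardU] at hc1
  have hzq : ((q : ZMod r)) ^ finrank F U = 1 := by
    have h1 := (ZMod.natCast_eq_natCast_iff _ _ _).2 hc1
    push_cast at h1
    exact h1
  have hUd : finrank F U = Fintype.card ι' - finrank F Y := hdim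
  have hiU : orderOf (q : ZMod r) ∣ finrank F U := orderOf_dvd_of_pow_eq_one hzq
  refine ⟨Y, hY, hYn, hYle, by rw [← hUd]; exact hiU, ?_⟩
  rw [← hUd]
  by_contra hodd
  rw [Nat.not_even_iff_odd] at hodd
  obtain ⟨s, hs⟩ := hodd
  -- the singular vectors
  have hd' : finrank F (Unit ⊕ (Fin s ⊕ Fin s) → F) = 2 * s + 1 := by
    rw [Module.finrank_fintype_fun_eq_card]
    simp [Fintype.card_sum]
    ring
  obtain ⟨ψ, c, hψ⟩ := Cfsg.Agent.Lib.Classical.OJordan.Model.exists_similitude hs hd' (Q.comp U.subtype) (oddQ s F)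
    (nondeg_of_polarNondeg _ hUn) (nondeg_of_polarNondeg _ (polarNondeg_oddQ s h2))
  have hc0 : c ≠ 0 := by
    rintro rfl
    have h0 : ∀ v, (Q.comp U.subtype) v = 0 := fun v => by rw [hψ, zero_mul]
    have hss : Subsingleton U := ⟨fun a b => by
      have h1 : ∀ a : U, a = 0 := fun a => hUn a fun y => by simp [polar, h0]
      rw [h1 a, h1 b]⟩
    have := Module.finrank_zero_of_subsingleton (R := F) (M := U)
    omega
  have hqodd : Odd q := by
    rw [← hF, Nat.odd_iff]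
    refine FiniteField.odd_card_of_char_ne_two fun hc => h2 ?_
    have := ringChar.Nat.cast_ringChar (R := F)
    rw [hc] at this
    exact_mod_cast this
  have hsing : Nat.card {v : U // (Q.comp U.subtype) v = 0} = q ^ (2 * s) := by
    rw [← Cfsg.Agent.S0291.result hF hqodd s]
    refine Nat.card_congr (Equiv.subtypeEquiv ψ.toEquiv fun v => ?_)
    change (Q.comp U.subtype) v = 0 ↔ oddQ s F (ψ v) = 0
    rw [hψ]
    simp [hc0]
  have hc2 := card_modEq_fixed hS ({v | v ∈ U ∧ Q v = 0} : Set (ι' → F))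
    (fun g hg v hv => ⟨hUinv g hg v hv.1, by rw [Q_act]; exact hv.2⟩)
  have hfix2 : Nat.card {v : ι' → F // v ∈ ({v | v ∈ U ∧ Q v = 0} : Set (ι' → F)) ∧ ∀ g ∈ S, act g v = v} = 1 := by
    rw [Nat.card_eq_one_iff_unique]
    refine ⟨⟨?_⟩, ⟨⟨0, ⟨U.zero_mem, by simp⟩, fun g _ => act_zero g⟩⟩⟩
    rintro ⟨x, hx1, hx2⟩ ⟨y, hy1, hy2⟩
    have e : x = y := by rw [hYU x hx2 hx1.1, hYU y hy2 hy1.1]
    exact Subtype.ext e
  rw [hfix2] at hc2
  have hcard2 : Nat.card ({v | v ∈ U ∧ Q v = 0} : Set (ι' → F)) = q ^ (2 * s) := by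
    rw [← hsing]
    exact Nat.card_congr
      { toFun := fun v => ⟨⟨v.1, v.2.1⟩, v.2.2⟩
        invFun := fun v => ⟨v.1.1, v.1.2, v.2⟩
        left_inv := fun v => rfl
        right_inv := fun v => rfl }
  rw [hcard2] at hc2
  have hzq2 : ((q : ZMod r)) ^ (2 * s) = 1 := by
    have h1 := (ZMod.natCast_eq_natCast_iff _ _ _).2 hc2
    push_cast at h1
    exact h1
  rw [hs, pow_succ, hzq2, one_mul] at hzq
  apply hi1
  rw [hzq, orderOf_one]

end Sub

end Cfsg.Agent.Lib.Classical.OSemi.SylowFix
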