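import Mathlib
import Cfsg.Agent.Lib.Classical.OSemi.Split

/-!
# Invariant totally singular subspaces for an isometry of odd prime order
-/

set_option autoImplicit false
set_option linter.unusedSectionVars false
set_option linter.unusedSimpArgs false
set_option linter.unusedVariables false
set_option linter.style.haveILetI false
set_option maxHeartbeats 1000000

open Polynomial Module QuadraticMap Matrix
open Cfsg Cfsg.Agent.Lib.Classical.Herm.CycTuples Cfsg.Agent.Lib.Classical.Witt.Hyp Cfsg.Agent.Lib.Linalg.OrthModels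
open Cfsg.Agent.Lib.Classical.Herm.OrthBlock Cfsg.Agent.Lib.Classical.Herm.OrthEmbed Cfsg.Agent.Lib.Linalg.Bridge
open Cfsg.Agent.Lib.Classical.Herm.OrthType Cfsg.Agent.Lib.Classical.Herm.OrthCount Cfsg.Agent.Lib.Classical.Witt.Index
open Cfsg.Agent.Lib.Classical.Herm.OrthFinal Cfsg.Agent.Lib.Classical.OSemi.Ext Cfsg.Agent.Lib.Classical.OSemi.Lag
open Cfsg.Agent.Lib.Classical.OSemi.Nondeg Cfsg.Agent.Lib.Classical.Elusive.Inv
open Cfsg.Agent.Lib.Classical.OSemi.Decomp

namespace Cfsg.Agent.Lib.Classical.OSemi.TsModel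

universe u

section Real

variable {F : Type u} [Field F] [Fintype F]

/-- Realisations with an invariant Lagrangian. -/
def RealT (r : ℕ) (g : F[X]) (h : ℕ) : Prop :=
  ∃ (W : Type u) (_ : AddCommGroup W) (_ : Module F W) (_ : FiniteDimensional F W)
    (Q : QuadraticForm F W) (A : W ≃ₗ[F] W) (T : Submodule F W),
    PolarNondeg Q ∧ (∀ v, Q (A v) = Q v) ∧ (A : Module.End F W) ^ r = 1 ∧
    LinearMap.charpoly (A : W →ₗ[F] W) = g ∧ (∀ v ∈ T, Q v = 0) ∧ (∀ v ∈ T, A v ∈ T) ∧ finrank F T = h ∧ finrank F W = 2 * h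

theorem realT_one (r : ℕ) : RealT r (1 : F[X]) 0 := by
  refine ⟨PUnit, inferInstance, inferInstance, inferInstance, 0, LinearEquiv.refl _ _, ⊥,
    fun x _ => Subsingleton.elim _ _, fun _ => rfl, Subsingleton.elim _ _, ?_, fun _ _ => rfl, fun _ hv => hv, by simp, finrank_zero_of_subsingleton⟩
  have := LinearMap.charpoly_natDegree ((LinearEquiv.refl F PUnit.{u+1} : PUnit.{u+1} ≃ₗ[F] PUnit.{u+1}) : PUnit.{u+1} →ₗ[F] PUnit.{u+1})
  have h2 := LinearMap.charpoly_monic ((LinearEquiv.refl F PUnit.{u+1} : PUnit.{u+1} ≃ₗ[F] PUnit.{u+1}) : PUnit.{u+1} →ₗ[F] PUnit.{u+1})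
  have h3 : finrank F PUnit.{u+1} = 0 := finrank_zero_of_subsingleton
  rw [h3] at this
  exact h2.natDegree_eq_zero.mp this

theorem realT_mul {r : ℕ} {g g' : F[X]} {h h' : ℕ} (H : RealT r g h) (H' : RealT r g' h') : RealT r (g * g') (h + h') := by
  classical
  obtain ⟨V, _, _, _, Q, A, T, hn, hi, hk, hc, hs, hinv, hd, hdV⟩ := H
  obtain ⟨V', _, _, _, Q', A', T', hn', hi', hk', hc', hs', hinv', hd', hdV'⟩ := H'
  let AA : (V × V') ≃ₗ[F] (V × V') := A.prodCongr A'
  have hAA : ∀ x, AA x = (A x.1, A' x.2) := fun x => rfl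
  have hpow : ∀ (j : ℕ) (x : V × V'), ((AA : Module.End F (V × V')) ^ j) x
      = (((A : Module.End F V) ^ j) x.1, ((A' : Module.End F V') ^ j) x.2) := by
    intro j
    induction j with
    | zero => intro x; simp
    | succ j ih =>
      intro x
      rw [pow_succ, Module.End.mul_apply, ih, pow_succ, pow_succ, Module.End.mul_apply,
        Module.End.mul_apply]
      rfl
  have hQQ : ∀ x, (Q.prod Q') x = Q x.1 + Q' x.2 := fun x => rfl
  let L : (T × T') →ₗ[F] (V × V') := LinearMap.prodMap T.subtype T'.subtype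
  have hLinj : Function.Injective L := by
    rintro ⟨a, b⟩ ⟨c, d⟩ h
    have h1 := congrArg Prod.fst h
    have h2 := congrArg Prod.snd h
    exact Prod.ext (Subtype.ext h1) (Subtype.ext h2)
  refine ⟨V × V', inferInstance, inferInstance, inferInstance, Q.prod Q', AA, LinearMap.range L,
    polarNondeg_prod hn hn', ?_, ?_, ?_, ?_, ?_, ?_, ?_⟩
  · intro x
    rw [hQQ, hQQ, hAA, hi, hi']
  · apply LinearMap.ext
    intro x
    rw [hpow, hk, hk']
    rfl
  · have : ((AA : (V × V') ≃ₗ[F] (V × V')) : (V × V') →ₗ[F] (V × V'))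
        = LinearMap.prodMap (A : V →ₗ[F] V) (A' : V' →ₗ[F] V') := rfl
    rw [this, LinearMap.charpoly_prodMap, hc, hc']
  · rintro _ ⟨⟨a, b⟩, rfl⟩
    change (Q.prod Q') ((a : V), (b : V')) = 0
    rw [hQQ]
    simp [hs _ a.2, hs' _ b.2]
  · rintro _ ⟨⟨a, b⟩, rfl⟩
    refine ⟨(⟨A a, hinv _ a.2⟩, ⟨A' b, hinv' _ b.2⟩), rfl⟩
  · rw [LinearMap.finrank_range_of_inj hLinj, Module.finrank_prod, hd, hd']
  · rw [Module.finrank_prod, hdV, hdV']
    ring

theorem realT_pow {r : ℕ} {g : F[X]} {h : ℕ} (H : RealT r g h) (k : ℕ) : RealT r (g ^ k) (k * h) := by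
  induction k with
  | zero => simpa using realT_one r
  | succ k ih =>
    rw [pow_succ, add_mul, one_mul]
    exact realT_mul ih H

theorem realT_prod {r : ℕ} {ι : Type*} (s : Finset ι) (f : ι → F[X]) (h : ι → ℕ) (H : ∀ i ∈ s, RealT r (f i) (h i)) :
    RealT r (∏ i ∈ s, f i) (∑ i ∈ s, h i) := by
  classical
  induction s using Finset.induction_on with
  | empty => simpa using realT_one r
  | insert a s ha ih =>
    rw [Finset.prod_insert ha, Finset.sum_insert ha]
    exact realT_mul (H a (Finset.mem_insert_self _ _)) (ih fun i hi => H i (Finset.mem_insert_of_mem hi))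

end Real

section Blocks

variable {F : Type u} [Field F] [Fintype F]

theorem realT_pair {r : ℕ} [Fact r.Prime] {d : F[X]} (hm : d.Monic) (hi : Irreducible d) (hdvd : d ∣ (X ^ r - 1 : F[X]))
    (hne : d ≠ X - 1) : RealT r (d * star d) d.natDegree := by
  classical
  haveI : Fact (Irreducible d) := ⟨hi⟩
  have h0 : d.coeff 0 ≠ 0 := coeff_zero_ne_of_dvd (Fact.out : r.Prime).pos hdvd
  have hζ := orderOf_root hm hdvd hne
  have hd := aeval_root d
  haveI hfd : FiniteDimensional F (AdjoinRoot d) := (AdjoinRoot.powerBasis' hm).finite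
  have hfr : finrank F (AdjoinRoot d) = d.natDegree := by
    rw [(AdjoinRoot.powerBasis' hm).finrank, AdjoinRoot.powerBasis'_dim]
  obtain ⟨ζ, hζdef⟩ : ∃ ζ, ζ = AdjoinRoot.root d := ⟨_, rfl⟩
  rw [← hζdef] at hζ hd
  have hζr : ζ ^ r = 1 := by
    rw [← hζ]
    exact pow_orderOf_eq_one ζ
  have hζ0 : ζ ≠ 0 := by
    intro h
    rw [h, zero_pow (Fact.out : r.Prime).ne_zero] at hζr
    exact zero_ne_one hζr
  obtain ⟨ℓ, hℓ⟩ := exists_dual_one (F := F) (L := AdjoinRoot d)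
  let B : LinearMap.BilinForm F (AdjoinRoot d × AdjoinRoot d) :=
    LinearMap.mk₂ F (fun x y => ℓ (x.1 * y.2 + y.1 * x.2))
      (fun a b c => by
        rw [← map_add]
        congr 1
        simp only [Prod.fst_add, Prod.snd_add]
        ring)
      (fun c a b => by
        rw [← map_smul]
        congr 1
        simp only [Prod.smul_fst, Prod.smul_snd, smul_mul_assoc, mul_smul_comm, smul_add])
      (fun a b c => by
        rw [← map_add]
        congr 1
        simp only [Prod.fst_add, Prod.snd_add]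
        ring)
      (fun c a b => by
        rw [← map_smul]
        congr 1
        simp only [Prod.smul_fst, Prod.smul_snd, smul_mul_assoc, mul_smul_comm, smul_add])
  have hB : ∀ x y, B x y = ℓ (x.1 * y.2 + y.1 * x.2) := fun _ _ => rfl
  let Q : QuadraticForm F (AdjoinRoot d × AdjoinRoot d) :=
    mkQ (fun x => ℓ (x.1 * x.2)) B
      (fun c x => by
        simp only [Prod.smul_fst, Prod.smul_snd]
        rw [smul_mul_smul_comm, map_smul, smul_eq_mul])
      (fun x y => by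
        rw [← map_add, hB, ← map_add]
        congr 1
        simp only [Prod.fst_add, Prod.snd_add]
        ring)
  have hQ : ∀ x, Q x = ℓ (x.1 * x.2) := fun _ => rfl
  have hpolar : ∀ x y, polar Q x y = ℓ (x.1 * y.2 + y.1 * x.2) := by
    intro x y
    simp only [polar, hQ, ← map_sub]
    congr 1
    simp only [Prod.fst_add, Prod.snd_add]
    ring
  let A : (AdjoinRoot d × AdjoinRoot d) ≃ₗ[F] (AdjoinRoot d × AdjoinRoot d) :=
    (mulE ζ hζ0).prodCongr (mulE ζ⁻¹ (inv_ne_zero hζ0))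
  have hA : ∀ x, A x = (ζ * x.1, ζ⁻¹ * x.2) := fun _ => rfl
  have hpow : ∀ (j : ℕ) (x : AdjoinRoot d × AdjoinRoot d), ((A : Module.End F (AdjoinRoot d × AdjoinRoot d)) ^ j) x
      = (ζ ^ j * x.1, (ζ⁻¹) ^ j * x.2) := by
    intro j
    induction j with
    | zero => intro x; simp
    | succ j ih =>
      intro x
      rw [pow_succ, Module.End.mul_apply, ih]
      change (ζ ^ j * (ζ * x.1), (ζ⁻¹) ^ j * (ζ⁻¹ * x.2)) = _
      ext <;> simp only [pow_succ] <;> ring
  refine ⟨AdjoinRoot d × AdjoinRoot d, inferInstance, inferInstance, inferInstance, Q, A, LinearMap.range (LinearMap.inl F (AdjoinRoot d) (AdjoinRoot d)), ?_, ?_, ?_, ?_, ?_, ?_, ?_, ?_⟩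
  · rintro ⟨a, b⟩ h
    have ha : a = 0 := by
      by_contra hne0
      have := h (0, a⁻¹)
      rw [hpolar] at this
      simp only [zero_mul, add_zero, mul_inv_cancel₀ hne0] at this
      exact hℓ this
    have hb : b = 0 := by
      by_contra hne0
      have := h (b⁻¹, 0)
      rw [hpolar] at this
      simp only [mul_zero, zero_add, inv_mul_cancel₀ hne0] at this
      exact hℓ this
    rw [ha, hb]
    rfl
  · intro x
    rw [hQ, hQ, hA]
    congr 1
    simp only
    field_simp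
  · apply LinearMap.ext
    intro x
    rw [hpow, inv_pow, hζr, inv_one]
    simp
  · have h1 : ((A : (AdjoinRoot d × AdjoinRoot d) ≃ₗ[F] (AdjoinRoot d × AdjoinRoot d)) : (AdjoinRoot d × AdjoinRoot d) →ₗ[F] (AdjoinRoot d × AdjoinRoot d))
        = LinearMap.prodMap (LinearMap.mulLeft F ζ) (LinearMap.mulLeft F ζ⁻¹) := rfl
    rw [h1, LinearMap.charpoly_prodMap, charpoly_mulLeft hm hi hfr hd,
      charpoly_mulLeft (star_monic h0) (irreducible_star hm h0 hi) (by rw [natDegree_star h0]; exact hfr) (aeval_inv_star hζ0 hd)]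
  · rintro _ ⟨a, rfl⟩
    rw [hQ]
    simp
  · rintro _ ⟨a, rfl⟩
    refine ⟨ζ * a, ?_⟩
    rw [hA]
    simp
  · rw [LinearMap.finrank_range_of_inj LinearMap.inl_injective, hfr]
  · rw [Module.finrank_prod, hfr]
    ring


end Blocks

section Main

variable {F : Type u} [Field F] [Fintype F] {p : ℕ} [Fact p.Prime] [CharP F p]
variable {ι' : Type} [Fintype ι'] [DecidableEq ι'] {q r i t : ℕ} {D : Finset F[X]}

/-- The tuple of a hyperbolic space over factors. -/
theorem realT_tuple (H : Data q r i t D) [Fact r.Prime] (v : D → ℕ) :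
    RealT r (∏ d : D, ((d : F[X]) * star (d : F[X])) ^ v d) (i * ∑ d, v d) := by
  have h1 := realT_prod (r := r) (Finset.univ : Finset D) (fun d => ((d : F[X]) * star (d : F[X])) ^ v d) (fun d => v d * i)
    (fun d _ => by
      obtain ⟨h1, h2, h3, h4⟩ := H.hD d.1 d.2
      have := realT_pow (realT_pair h1 h2 (H.hdvd d.1 d.2) h4 (r := r)) (v d)
      rwa [h3] at this)
  have h2 : ∑ d : D, v d * i = i * ∑ d, v d := by
    rw [Finset.mul_sum]
    exact Finset.sum_congr rfl fun d _ => mul_comm _ _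
  rwa [h2] at h1

/-- The main construction: an invariant totally singular subspace. -/
theorem exists_inv_ts (H : Data q r i t D) (hF : Fintype.card F = q) (hr : r.Prime) (hr2 : r ≠ 2) (hrp : r ≠ p)
    (Q : QuadraticForm F (ι' → F)) (hQ : PolarNondeg Q) (x : ↥(Cfsg.isometryGroup F ⇑Q)) (hx : orderOf x = r)
    (v k'' : D → ℕ) (hk'' : ∀ d, k'' (starD H d) = k'' d) (e : ℕ)
    (hc : ((x : GL ι' F) : Matrix ι' ι' F).charpoly = polyOf D i (Fintype.card ι') (fun d => v d + v (starD H d) + k'' d))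
    (hdim : i * (2 * ∑ d, v d + ∑ d, k'' d) + 2 * e ≤ Fintype.card ι')
    (hEmb : ∀ (W : Type u) [AddCommGroup W] [Module F W] [FiniteDimensional F W] (QW : QuadraticForm F W), PolarNondeg QW →
      finrank F W = i * (2 * ∑ d, v d + ∑ d, k'' d) + 2 * e → ∃ ι₀ : W →ₗ[F] (ι' → F), ∀ w, Q (ι₀ w) = QW w) :
    ∃ U : Submodule F (ι' → F), finrank F U = i * ∑ d, v d + e ∧ (∀ u ∈ U, Q u = 0) ∧
      U.map (Matrix.toLin' ((x : GL ι' F) : Matrix ι' ι' F)) ≤ U := by
  classical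
  haveI : Fact r.Prime := ⟨hr⟩
  obtain ⟨W₁, _, _, _, Q₁, A₁, T₁, h₁n, h₁i, h₁r, h₁c, h₁s, h₁inv, h₁d, h₁D⟩ := realT_tuple H v
  obtain ⟨W₂, _, _, _, Q₂, A₂, h₂n, h₂i, h₂r, h₂c, h₂d⟩ := exists_W H hr2 hF k'' hk''
  obtain ⟨P, _, _, _, QP, hPn, hPd, hPτ⟩ := exists_typed (F := F) e True (fun _ => trivial)
  obtain ⟨X₀, hX₀, hX₀d⟩ := hPτ.2 trivial
  let QW : QuadraticForm F ((W₁ × P) × W₂) := (Q₁.prod QP).prod Q₂
  have hQWa : ∀ (a : W₁) (b : P) (c : W₂), QW ((a, b), c) = Q₁ a + QP b + Q₂ c := fun _ _ _ => rfl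
  have hQWn : PolarNondeg QW := polarNondeg_prod (polarNondeg_prod h₁n hPn) h₂n
  let A : ((W₁ × P) × W₂) ≃ₗ[F] ((W₁ × P) × W₂) := (A₁.prodCongr (LinearEquiv.refl F P)).prodCongr A₂
  have hAa : ∀ (a : W₁) (b : P) (c : W₂), A ((a, b), c) = ((A₁ a, b), A₂ c) := fun _ _ _ => rfl
  have hAi : ∀ w, QW (A w) = QW w := by
    rintro ⟨⟨a, b⟩, c⟩
    rw [hAa, hQWa, hQWa, h₁i, h₂i]
  have hpow : ∀ (j : ℕ) (a : W₁) (b : P) (c : W₂), ((A : Module.End F ((W₁ × P) × W₂)) ^ j) ((a, b), c)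
      = ((((A₁ : Module.End F W₁) ^ j) a, b), ((A₂ : Module.End F W₂) ^ j) c) := by
    intro j
    induction j with
    | zero => intro a b c; simp
    | succ j ih =>
      intro a b c
      rw [pow_succ, Module.End.mul_apply, pow_succ, pow_succ, Module.End.mul_apply, Module.End.mul_apply]
      change ((A : Module.End F ((W₁ × P) × W₂)) ^ j) (A ((a, b), c)) = _
      rw [hAa, ih]
      rfl
  have hAr : (A : Module.End F ((W₁ × P) × W₂)) ^ r = 1 := by
    apply LinearMap.ext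
    rintro ⟨⟨a, b⟩, c⟩
    rw [hpow, h₁r, h₂r]
    rfl
  have hWd : finrank F ((W₁ × P) × W₂) = i * (2 * ∑ d, v d + ∑ d, k'' d) + 2 * e := by
    rw [Module.finrank_prod, Module.finrank_prod, h₁D, h₂d, hPd]
    ring
  obtain ⟨ι₀, hι₀⟩ := hEmb _ QW hQWn hWd
  have hstarprod : ∏ d : D, (d : F[X]) ^ v (starD H d) = ∏ d : D, star (d : F[X]) ^ v d := by
    have hinv : Function.Involutive (starD H) := starD_starD H
    rw [← Equiv.prod_comp hinv.toPerm (fun d : D => (d : F[X]) ^ v (starD H d))]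
    refine Finset.prod_congr rfl fun d _ => ?_
    change ((starD H d : D) : F[X]) ^ v (starD H (starD H d)) = _
    rw [starD_starD]
    rfl
  have hcA : LinearMap.charpoly (A : ((W₁ × P) × W₂) →ₗ[F] ((W₁ × P) × W₂)) =
      (∏ d : D, ((d : F[X]) * star (d : F[X])) ^ v d) * (X - 1) ^ (2 * e) * (∏ d : D, (d : F[X]) ^ k'' d) := by
    have h1 : (A : ((W₁ × P) × W₂) →ₗ[F] ((W₁ × P) × W₂)) =
        LinearMap.prodMap (LinearMap.prodMap (A₁ : W₁ →ₗ[F] W₁) (LinearMap.id : P →ₗ[F] P)) (A₂ : W₂ →ₗ[F] W₂) := rfl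
    rw [h1, LinearMap.charpoly_prodMap, LinearMap.charpoly_prodMap, h₁c, h₂c, charpoly_id', hPd]
  have hcx : ((x : GL ι' F) : Matrix ι' ι' F).charpoly =
      LinearMap.charpoly (A : ((W₁ × P) × W₂) →ₗ[F] ((W₁ × P) × W₂)) *
        (X - 1) ^ (Fintype.card ι' - finrank F ((W₁ × P) × W₂)) := by
    have hsum : ∑ d : D, (v d + v (starD H d) + k'' d) = 2 * ∑ d, v d + ∑ d, k'' d := by
      have hinv : Function.Involutive (starD H) := starD_starD H
      rw [Finset.sum_add_distrib, Finset.sum_add_distrib, two_mul]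
      congr 2
      exact Equiv.sum_comp hinv.toPerm v
    rw [hc, polyOf, hcA, hWd, hsum]
    have h3 : Fintype.card ι' - i * (2 * ∑ d, v d + ∑ d, k'' d) =
        2 * e + (Fintype.card ι' - (i * (2 * ∑ d, v d + ∑ d, k'' d) + 2 * e)) := by omega
    rw [h3, pow_add]
    simp only [pow_add, mul_pow, Finset.prod_mul_distrib, hstarprod]
    ring
  obtain ⟨ι₁, hι₁, hιx⟩ := exists_equivariant H hr hr2 hrp Q hQ x hx QW hQWn ι₀ hι₀ A hAi hAr hcx
  let L : (T₁ × X₀) →ₗ[F] (ι' → F) := ι₁ ∘ₗ LinearMap.inl F (W₁ × P) W₂ ∘ₗ LinearMap.prodMap T₁.subtype X₀.subtype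
  have hLa : ∀ w : T₁ × X₀, L w = ι₁ (((w.1 : W₁), (w.2 : P)), 0) := fun w => rfl
  have hinjι₁ := injective_of_isometric hQWn ι₁ hι₁
  have hLinj : Function.Injective L := by
    rintro ⟨a, b⟩ ⟨c, d⟩ h
    have h1 := hinjι₁ h
    have h2 := congrArg Prod.fst h1
    have h3 := congrArg Prod.fst h2
    have h4 := congrArg Prod.snd h2
    exact Prod.ext (Subtype.ext h3) (Subtype.ext h4)
  refine ⟨LinearMap.range L, ?_, ?_, ?_⟩
  · rw [LinearMap.finrank_range_of_inj hLinj, Module.finrank_prod, h₁d]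
    rw [hPd] at hX₀d
    congr 1
    omega
  · rintro _ ⟨w, rfl⟩
    rw [hLa, hι₁, hQWa, h₁s _ w.1.2, hX₀ _ w.2.2]
    simp
  · rintro _ ⟨_, ⟨w, rfl⟩, rfl⟩
    refine ⟨(⟨A₁ (w.1 : W₁), h₁inv _ w.1.2⟩, w.2), ?_⟩
    rw [hLa, hLa, Matrix.toLin'_apply, hιx, hAa]
    simp

end Main

end Cfsg.Agent.Lib.Classical.OSemi.TsModel
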