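import Mathlib
import Cfsg.Agent.Lib.Classical.OSemi.SylowFix
import Cfsg.Agent.Lib.Classical.OSemi.TsModel
import Cfsg.Agent.Lib.Classical.Spectra.Bridge

/-!
# The odd dimensional form: existence and forward/backward statements for odd `r ≠ p`
-/

set_option autoImplicit false
set_option linter.unusedSectionVars false
set_option linter.unusedSimpArgs false
set_option linter.unusedVariables false
set_option linter.style.haveILetI false
set_option maxHeartbeats 1000000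

open Polynomial Module QuadraticMap Matrix
open Cfsg Cfsg.Agent.Lib.Classical.Herm.CycTuples Cfsg.Agent.Lib.Classical.Witt.Hyp Cfsg.Agent.Lib.Linalg.OrthModels
open Cfsg.Agent.Lib.Classical.Herm.OrthBlock Cfsg.Agent.Lib.Classical.Herm.OrthEmbed Cfsg.Agent.Lib.Linalg.Bridge
open Cfsg.Agent.Lib.Classical.Herm.OrthType Cfsg.Agent.Lib.Classical.Herm.OrthCount Cfsg.Agent.Lib.Classical.Witt.Index
open Cfsg.Agent.Lib.Classical.Herm.OrthFinal Cfsg.Agent.Lib.Classical.OSemi.Lag Cfsg.Agent.Lib.Classical.OSemi.Nondeg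
open Cfsg.Agent.Lib.Classical.OSemi.Decomp Cfsg.Agent.Lib.Classical.OSemi.Split Cfsg.Agent.Lib.Classical.OSemi.SylowFix
open Cfsg.Agent.Lib.Classical.OSemi.TsModel Cfsg.Agent.Lib.Classical.Elusive.Inv
open Cfsg.Agent.Lib.Classical.Orth.Basic Cfsg.Agent.Lib.Classical.Orth.Classes Cfsg.Agent.Lib.Classical.Orth.Adjust

namespace Cfsg.Agent.Lib.Classical.OSemi.OddForm

universe u

section Setup

variable {F : Type u} [Field F] [Fintype F] {p : ℕ} [Fact p.Prime] [CharP F p]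

theorem q_ne_zero {q r : ℕ} [Fact r.Prime] (hF : Fintype.card F = q) (hrp : r ≠ p) : (q : ZMod r) ≠ 0 := by
  have hr : r.Prime := Fact.out
  have hp : p.Prime := Fact.out
  obtain ⟨n, -, hn⟩ := FiniteField.card F p
  rw [← hF, hn]
  push_cast
  apply pow_ne_zero
  intro h
  rw [ZMod.natCast_eq_zero_iff] at h
  exact hrp ((Nat.prime_dvd_prime_iff_eq hr hp).1 h)

/-- The data of the factors of `X ^ r - 1`. -/
theorem exists_setup {q r i : ℕ} [Fact r.Prime] (hF : Fintype.card F = q) (hr2 : r ≠ 2) (hrp : r ≠ p) (hi : i = orderOf (q : ZMod r)) :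
    ∃ (t : ℕ) (D : Finset F[X]), Nonempty (Data q r i t D) ∧ t * i = r - 1 ∧ 0 < t ∧ 0 < i := by
  have hr : r.Prime := Fact.out
  have hq0 := q_ne_zero (r := r) hF hrp
  have hdvd : i ∣ r - 1 := by
    rw [hi]
    exact orderOf_dvd_of_pow_eq_one (ZMod.pow_card_sub_one_eq_one hq0)
  obtain ⟨t, ht⟩ := hdvd
  have hr3 : 3 ≤ r := by
    have := hr.two_le
    omega
  have hipos : 0 < i := by
    by_contra h
    have : i = 0 := by omega
    rw [this] at ht
    omega
  have htpos : 0 < t := by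
    by_contra h
    have : t = 0 := by omega
    rw [this] at ht
    omega
  obtain ⟨D, hD⟩ := exists_data (p := p) hF hr hr2 hrp hi (t := t) (by rw [ht]; ring)
  exact ⟨t, D, ⟨hD⟩, by rw [ht]; ring, htpos, hipos⟩

end Setup

theorem iff_aux {L L₀ τ : Prop} (h : L ↔ L₀) : (L ↔ (L₀ ↔ τ)) ↔ τ := by
  tauto

section Odd

variable {F : Type u} [Field F] [Fintype F] {p : ℕ} [Fact p.Prime] [CharP F p] {q r i t : ℕ} {D : Finset F[X]}

/-- Embeddings in the odd form. -/
theorem emb_odd (d : ℕ) {W : Type*} [AddCommGroup W] [Module F W] [FiniteDimensional F W] (QW : QuadraticForm F W) (hQW : PolarNondeg QW)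
    {N : ℕ} (hdim : finrank F W = N) (hN : N ≤ 2 * d) (hev : Even N) :
    ∃ ι₀ : W →ₗ[F] (Unit ⊕ (Fin d ⊕ Fin d) → F), ∀ w, oddQ d F (ι₀ w) = QW w := by
  obtain ⟨w, hw⟩ := hev
  rcases Nat.eq_zero_or_pos w with rfl | hw1
  · have hPs : Subsingleton W := (Module.finrank_zero_iff (R := F)).1 (by omega)
    exact ⟨0, fun v => by
      rw [Subsingleton.elim v 0]
      simp⟩
  exact exists_embed_odd QW hQW hw1 (by omega) (by omega)

theorem card_odd_index (d : ℕ) : Fintype.card (Unit ⊕ (Fin d ⊕ Fin d)) = 2 * d + 1 := by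
  simp [Fintype.card_sum]
  ring

/-- Elements with a given tuple. -/
theorem exists_x_of_tuple (H : Data q r i t D) (hF : Fintype.card F = q) (hr : r.Prime) (hr2 : r ≠ 2) (hrp : r ≠ p) (h2 : (2 : F) ≠ 0) (d : ℕ)
    (k : D → ℕ) (hk : ∀ d, k (starD H d) = k d) (hk0 : k ≠ 0) (hle : i * ∑ d, k d ≤ 2 * d) :
    ∃ x : ↥(Cfsg.isometryGroup F ⇑(oddQ d F)), x ∈ Cfsg.Omega F ⇑(oddQ d F) ∧ orderOf x = r ∧
      ((x : GL (Unit ⊕ (Fin d ⊕ Fin d)) F) : Matrix (Unit ⊕ (Fin d ⊕ Fin d)) (Unit ⊕ (Fin d ⊕ Fin d)) F).charpoly = polyOf D i (Fintype.card (Unit ⊕ (Fin d ⊕ Fin d))) k := by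
  classical
  haveI : Fact r.Prime := ⟨hr⟩
  obtain ⟨W, _, _, _, QW, A, hn, hi, hAr, hc, hd⟩ := exists_W H hr2 hF k hk
  have hev := even_mul_sum H k hk
  obtain ⟨ι₀, hι₀⟩ := emb_odd d QW hn hd hle hev
  obtain ⟨g, hg, hgr, hgc⟩ := exists_g_of_iota H (oddQ d F) QW hn ι₀ hι₀ A hi hAr hc
    (n := Fintype.card (Unit ⊕ (Fin d ⊕ Fin d))) (by rw [Module.finrank_fintype_fun_eq_card]) hd
  have hY : glOfEquiv g ∈ Cfsg.isometryGroup F ⇑(oddQ d F) := by
    intro u v
    change oddQ d F (((glOfEquiv g : GL _ F) : Matrix (Unit ⊕ (Fin d ⊕ Fin d)) (Unit ⊕ (Fin d ⊕ Fin d)) F) *ᵥ u) = oddQ d F u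
    rw [glOfEquiv_mulVec]
    exact hg u
  let G : ↥(Cfsg.isometryGroup F ⇑(oddQ d F)) := ⟨glOfEquiv g, hY⟩
  have hGr : G ^ r = 1 := by
    apply Subtype.ext
    apply Units.ext
    apply matrix_eq_of_mulVec_eq
    intro v
    have h2 := equivOfGL_pow' (glOfEquiv g) r v
    rw [equivOfGL_glOfEquiv, hgr] at h2
    exact h2.symm.trans (by simp)
  have hcG : ((G : GL (Unit ⊕ (Fin d ⊕ Fin d)) F) : Matrix (Unit ⊕ (Fin d ⊕ Fin d)) (Unit ⊕ (Fin d ⊕ Fin d)) F).charpoly = polyOf D i (Fintype.card (Unit ⊕ (Fin d ⊕ Fin d))) k := by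
    change ((glOfEquiv g : GL _ F) : Matrix (Unit ⊕ (Fin d ⊕ Fin d)) (Unit ⊕ (Fin d ⊕ Fin d)) F).charpoly = _
    rw [charpoly_glOfEquiv, hgc]
  have hcard := card_odd_index d
  have hcop : r.Coprime p := (Nat.coprime_primes hr (Fact.out : p.Prime)).2 hrp
  have hGo : orderOf G = r := by
    have h3 : orderOf (G : GL (Unit ⊕ (Fin d ⊕ Fin d)) F) = r := by
      rw [orderOf_eq_iff rfl hr hrp H.hipos H.hD H.hDr]
      refine ⟨?_, k, by omega, hk0, hcG⟩
      rw [Subgroup.orderOf_coe]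
      exact Nat.Coprime.coprime_dvd_left (orderOf_dvd_of_pow_eq_one hGr) hcop
    rwa [Subgroup.orderOf_coe] at h3
  refine ⟨G, ?_, hGo, hcG⟩
  exact Cfsg.Agent.Lib.Classical.Spectra.Bridge.mem_omega_of_odd (oddQ d F) (nondeg_of_polarNondeg _ (polarNondeg_oddQ d h2)) h2 (hr.odd_of_ne_two hr2) hGr

/-- Picking a sub-tuple. -/
theorem exists_pick (H : Data q r i t D) {c : ℕ} (hc : c = if Even i then i else 2 * i) (k : D → ℕ) (hk : ∀ d, k (starD H d) = k d)
    {b : ℕ} (hb : i * ∑ d, k d = c * b) {a : ℕ} (hab : a ≤ b) :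
    ∃ k' k'' : D → ℕ, (∀ d, k' (starD H d) = k' d) ∧ (∀ d, k'' (starD H d) = k'' d) ∧ (∀ d, k' d + k'' d = k d) ∧
      i * ∑ d, k' d = c * a ∧ (Even i → ∑ d, k' d = a) := by
  classical
  have hi0 := H.hipos
  by_cases hev : Even i
  · rw [if_pos hev] at hc
    subst hc
    have hbs : ∑ d, k d = b := Nat.eq_of_mul_eq_mul_left hi0 hb
    obtain ⟨v, hv, hvs⟩ := exists_sub k (a := a) (by omega)
    have hst : ∀ (f : D → ℕ) d, f (starD H d) = f d := fun f d => by rw [starD_eq_self_iff H hev d]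
    refine ⟨v, fun d => k d - v d, hst _, fun d => by rw [starD_eq_self_iff H hev d], fun d => ?_, by rw [hvs], fun _ => hvs⟩
    have := hv d
    show v d + (k d - v d) = k d
    omega
  · rw [if_neg hev] at hc
    subst hc
    have hbs : ∑ d, k d = 2 * b := by
      have h1 : i * ∑ d, k d = i * (2 * b) := by rw [hb]; ring
      exact Nat.eq_of_mul_eq_mul_left hi0 h1
    have hfp : ∀ a, starD H a ≠ a := fun a ha => hev ((H.hstar a.1 a.2).1 (congrArg Subtype.val ha))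
    obtain ⟨v, hv, hvs⟩ := exists_half_odd (starD H) (starD_starD H) hfp k hk (a := a) (by omega)
    have hsum : ∑ d, v (starD H d) = ∑ d, v d := by
      have hinv : Function.Involutive (starD H) := starD_starD H
      exact Equiv.sum_comp hinv.toPerm v
    refine ⟨fun d => v d + v (starD H d), fun d => k d - (v d + v (starD H d)), fun d => ?_, fun d => ?_, fun d => ?_, ?_, fun h => absurd h hev⟩
    · show v (starD H d) + v (starD H (starD H d)) = v d + v (starD H d)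
      rw [starD_starD, add_comm]
    · show k (starD H d) - (v (starD H d) + v (starD H (starD H d))) = k d - (v d + v (starD H d))
      rw [starD_starD, hk, add_comm (v (starD H d))]
    · have := hv d
      show v d + v (starD H d) + (k d - (v d + v (starD H d))) = k d
      omega
    · show i * ∑ d, (v d + v (starD H d)) = 2 * i * a
      rw [Finset.sum_add_distrib, hsum, hvs]
      ring

variable [Fact r.Prime]

/-- The invariant subspace given the numbers. -/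
theorem inv_of_pick (H : Data q r i t D) (hF : Fintype.card F = q) (hr2 : r ≠ 2) (hrp : r ≠ p) (h2 : (2 : F) ≠ 0) (d : ℕ)
    {c : ℕ} (hc : c = if Even i then i else 2 * i) (x : ↥(Cfsg.isometryGroup F ⇑(oddQ d F))) (hx : orderOf x = r)
    (k : D → ℕ) (hk : ∀ d, k (starD H d) = k d)
    (hcx : ((x : GL (Unit ⊕ (Fin d ⊕ Fin d)) F) : Matrix (Unit ⊕ (Fin d ⊕ Fin d)) (Unit ⊕ (Fin d ⊕ Fin d)) F).charpoly = polyOf D i (Fintype.card (Unit ⊕ (Fin d ⊕ Fin d))) k)
    {a b e m : ℕ} (hb : i * ∑ d, k d = c * b) (hab : a ≤ b) (hm : c * a + 2 * e = m) (hdim : c * b + 2 * e ≤ 2 * d) (τ' : Prop)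
    (hτ : e = 0 → (τ' ↔ (¬ Even i ∨ Even a))) :
    ∃ U : Submodule F (Unit ⊕ (Fin d ⊕ Fin d) → F), finrank F U = m ∧ Cfsg.Geo.IsNondegenerateOn (polar ⇑(oddQ d F)) U ∧
      (Cfsg.Geo.IsPlusTypeOn ⇑(oddQ d F) U ↔ τ') ∧
      U.map (Matrix.toLin' ((x : GL (Unit ⊕ (Fin d ⊕ Fin d)) F) : Matrix (Unit ⊕ (Fin d ⊕ Fin d)) (Unit ⊕ (Fin d ⊕ Fin d)) F)) ≤ U := by
  classical
  have hr : r.Prime := Fact.out
  obtain ⟨k', k'', h1, h3, h4, h5, h6⟩ := exists_pick H hc k hk hb hab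
  have hfun : (fun d => k' d + k'' d) = k := funext h4
  have hsum : ∑ d, k' d + ∑ d, k'' d = ∑ d, k d := by
    rw [← Finset.sum_add_distrib, Finset.sum_congr rfl fun d _ => h4 d]
  have hcard := card_odd_index d
  obtain ⟨U, hU1, hU2, ⟨L, hL1, hL2, hL3⟩, hU3⟩ := exists_inv_nondeg H hF hr hr2 hrp h2 (oddQ d F) (polarNondeg_oddQ d h2) x hx k' k'' h1 h3 e
    ((¬ Even i ∨ Even a) ↔ τ') (fun he0 => (hτ he0).symm)
    (by rw [hfun]; exact hcx)
    (by rw [hsum, hb, hcard]; omega)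
    (by
      intro W _ _ _ QW hQW hd
      rw [hsum, hb] at hd
      have hev : Even (c * b + 2 * e) := by
        have hk2 := even_mul_sum H k hk
        rw [hb] at hk2
        exact hk2.add (even_two_mul e)
      exact emb_odd d QW hQW hd hdim hev)
  refine ⟨U, by rw [hU1, h5, hm], hU2, ?_, hU3⟩
  refine hL3.trans (iff_aux ?_)
  by_cases hev : Even i
  · have hL4 := hL2 hev
    rw [h6 hev] at hL4
    exact hL4.trans ⟨Or.inr, fun h => h.resolve_left (not_not.2 hev)⟩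
  · exact ⟨fun _ => Or.inl hev, fun _ => hL1 hev⟩

/-- The backward direction. -/
theorem semis_backward (H : Data q r i t D) (hF : Fintype.card F = q) (hr2 : r ≠ 2) (hrp : r ≠ p) (h2 : (2 : F) ≠ 0) (d : ℕ)
    {c : ℕ} (hc : c = if Even i then i else 2 * i) {m : ℕ} (hme : Even m) (hm2 : m ≤ 2 * d) (τ' : Prop)
    (h1 : 0 < m % c → m % c < (2 * d + 1) % c) (h3 : m % c = 0 → (τ' ↔ (¬ Even i ∨ Even (m / c))))
    (x : ↥(Cfsg.isometryGroup F ⇑(oddQ d F))) (hx : orderOf x = r) :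
    ∃ U : Submodule F (Unit ⊕ (Fin d ⊕ Fin d) → F), finrank F U = m ∧ Cfsg.Geo.IsNondegenerateOn (polar ⇑(oddQ d F)) U ∧
      (Cfsg.Geo.IsPlusTypeOn ⇑(oddQ d F) U ↔ τ') ∧
      U.map (Matrix.toLin' ((x : GL (Unit ⊕ (Fin d ⊕ Fin d)) F) : Matrix (Unit ⊕ (Fin d ⊕ Fin d)) (Unit ⊕ (Fin d ⊕ Fin d)) F)) ≤ U := by
  classical
  have hr : r.Prime := Fact.out
  have hi0 := H.hipos
  have hcpos : 0 < c := by
    rw [hc]
    split_ifs <;> omega
  have hceven : Even c := by
    rw [hc]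
    split_ifs with h
    · exact h
    · exact even_two_mul _
  obtain ⟨k, hkle, hk0, hcx, hk⟩ := exists_tuple H hr hrp (oddQ d F) (polarNondeg_oddQ d h2) x hx
  have hcard := card_odd_index d
  rw [hcard] at hkle
  obtain ⟨b, hb⟩ : ∃ b, i * ∑ d, k d = c * b := by
    by_cases hev : Even i
    · rw [hc, if_pos hev]
      exact ⟨_, rfl⟩
    · have hfp : ∀ a, starD H a ≠ a := fun a ha => hev ((H.hstar a.1 a.2).1 (congrArg Subtype.val ha))
      obtain ⟨T, hT⟩ := exists_transversal (starD H) (starD_starD H) hfp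
      rw [hc, if_neg hev, sum_eq_two_mul (starD H) (starD_starD H) hT k hk]
      exact ⟨∑ d ∈ T, k d, by ring⟩
  obtain ⟨c', hc'⟩ := hceven
  obtain ⟨m', hm'⟩ := hme
  have hdm := Nat.div_add_mod m c
  have hdn := Nat.div_add_mod (2 * d + 1) c
  have hlt := Nat.mod_lt m hcpos
  have hlt' := Nat.mod_lt (2 * d + 1) hcpos
  have hnb : b ≤ (2 * d + 1) / c := by
    rw [Nat.le_div_iff_mul_le hcpos, mul_comm]
    omega
  have hnb' : c * b ≤ c * ((2 * d + 1) / c) := Nat.mul_le_mul_left c hnb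
  by_cases hbL : b ≤ m / c
  · -- take all the blocks
    have hle : c * b ≤ c * (m / c) := Nat.mul_le_mul_left c hbL
    obtain ⟨e, he⟩ : ∃ e, m = c * b + 2 * e := by
      obtain ⟨z, hz⟩ : Even (m - c * b) := by
        rw [Nat.even_sub (by omega)]
        have h5 : Even m := ⟨m', hm'⟩
        have h6 : Even (c * b) := ⟨c' * b, by rw [hc']; ring⟩
        simp [h5, h6]
      exact ⟨z, by omega⟩
    refine inv_of_pick H hF hr2 hrp h2 d hc x hx k hk hcx (a := b) (b := b) (e := e) hb le_rfl he.symm (by omega) τ' (fun he0 => ?_)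
    subst he0
    have h5 : m = c * b := by omega
    have h6 : m % c = 0 := by rw [h5]; simp
    have h7 : m / c = b := by rw [h5]; exact Nat.mul_div_cancel_left b hcpos
    rw [← h7]
    exact h3 h6
  · -- take the residue
    have hlL : m / c ≤ b := by omega
    have hlL' : c * (m / c) ≤ c * b := Nat.mul_le_mul_left c hlL
    obtain ⟨e, he⟩ : ∃ e, m % c = 2 * e := by
      have h5 : Even (m % c) := by
        rw [hc', Nat.even_iff]
        have : (m' + m') = m := hm'.symm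
        have h6 : (m % (c' + c')) % 2 = m % 2 := by
          exact Nat.mod_mod_of_dvd m ⟨c', by ring⟩
        rw [h6]
        omega
      obtain ⟨z, hz⟩ := h5
      exact ⟨z, by omega⟩
    refine inv_of_pick H hF hr2 hrp h2 d hc x hx k hk hcx (a := m / c) (b := b) (e := e) hb hlL (by omega) ?_ τ' (fun he0 => ?_)
    · rcases Nat.eq_zero_or_pos (m % c) with h0 | hp
      · have h5 : Even (c * b) := ⟨c' * b, by rw [hc']; ring⟩
        obtain ⟨z, hz⟩ := h5
        omega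
      · have h5 := h1 hp
        omega
    · exact h3 (by omega)

/-- The forward direction. -/
theorem semis_forward (H : Data q r i t D) (ht : 0 < t) (hF : Fintype.card F = q) (hr2 : r ≠ 2) (hrp : r ≠ p) (h2 : (2 : F) ≠ 0) (d : ℕ)
    {c : ℕ} (hc : c = if Even i then i else 2 * i) {m : ℕ} (hme : Even m) (τ' : Prop)
    (hK : 0 < (2 * d + 1) / c)
    (hH : ∀ x : ↥(Cfsg.isometryGroup F ⇑(oddQ d F)), x ∈ Cfsg.Omega F ⇑(oddQ d F) → orderOf x = r →
      ∃ U : Submodule F (Unit ⊕ (Fin d ⊕ Fin d) → F), finrank F U = m ∧ Cfsg.Geo.IsNondegenerateOn (polar ⇑(oddQ d F)) U ∧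
      (Cfsg.Geo.IsPlusTypeOn ⇑(oddQ d F) U ↔ τ') ∧
      U.map (Matrix.toLin' ((x : GL (Unit ⊕ (Fin d ⊕ Fin d)) F) : Matrix (Unit ⊕ (Fin d ⊕ Fin d)) (Unit ⊕ (Fin d ⊕ Fin d)) F)) ≤ U) :
    m % c < (2 * d + 1) % c ∧ (m % c = 0 → (τ' ↔ (¬ Even i ∨ Even (m / c)))) := by
  classical
  have hr : r.Prime := Fact.out
  have hi0 := H.hipos
  have hcpos : 0 < c := by
    rw [hc]
    split_ifs <;> omega
  have hceven : Even c := by
    rw [hc]
    split_ifs with h
    · exact h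
    · exact even_two_mul _
  obtain ⟨c', hc'⟩ := hceven
  obtain ⟨K, hKdef⟩ : ∃ K, K = (2 * d + 1) / c := ⟨_, rfl⟩
  rw [← hKdef] at hK
  have hcard := card_odd_index d
  have hdn := Nat.div_add_mod (2 * d + 1) c
  rw [← hKdef] at hdn
  have hlt' := Nat.mod_lt (2 * d + 1) hcpos
  have hcK : c * K ≤ 2 * d := by
    have h5 : Even (c * K) := ⟨c' * K, by rw [hc']; ring⟩
    obtain ⟨z, hz⟩ := h5
    omega
  have hD : D.Nonempty := by
    rw [← Finset.card_pos, H.hcard]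
    exact ht
  obtain ⟨d₀, hd₀⟩ := hD
  obtain ⟨k₀, hk₀, hk₀0, hk₀s⟩ : ∃ k₀ : D → ℕ, (∀ d, k₀ (starD H d) = k₀ d) ∧ k₀ ≠ 0 ∧ i * ∑ d, k₀ d = c * K := by
    by_cases hev : Even i
    · refine ⟨fun d => if d = ⟨d₀, hd₀⟩ then K else 0, fun d => ?_, ?_, ?_⟩
      · rw [starD_eq_self_iff H hev d]
      · intro h
        have := congrFun h ⟨d₀, hd₀⟩
        simp at this
        omega
      · rw [Finset.sum_ite_eq' Finset.univ (⟨d₀, hd₀⟩ : D), if_pos (Finset.mem_univ _), hc, if_pos hev]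
    · obtain ⟨e₀, he₀⟩ : ∃ e₀ : D, e₀ = ⟨d₀, hd₀⟩ := ⟨_, rfl⟩
      have hfp : starD H e₀ ≠ e₀ := fun ha => hev ((H.hstar e₀.1 e₀.2).1 (congrArg Subtype.val ha))
      refine ⟨fun d => (if d = e₀ then K else 0) + (if d = starD H e₀ then K else 0), fun d => ?_, ?_, ?_⟩
      · have h5 : starD H d = e₀ ↔ d = starD H e₀ := by
          constructor
          · intro h
            rw [← h, starD_starD]
          · intro h
            rw [h, starD_starD]
        have h6 : starD H d = starD H e₀ ↔ d = e₀ := by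
          constructor
          · intro h
            have := congrArg (starD H) h
            rwa [starD_starD, starD_starD] at this
          · intro h
            rw [h]
        simp only [h5, h6]
        ring
      · intro h
        have := congrFun h e₀
        simp only [if_true, Pi.zero_apply] at this
        omega
      · rw [Finset.sum_add_distrib, Finset.sum_ite_eq' Finset.univ e₀, Finset.sum_ite_eq' Finset.univ (starD H e₀),
          if_pos (Finset.mem_univ _), if_pos (Finset.mem_univ _), hc, if_neg hev]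
        ring
  obtain ⟨x₀, hx₀Ω, hx₀o, hx₀c⟩ := exists_x_of_tuple H hF hr hr2 hrp h2 d k₀ hk₀ hk₀0 (by omega)
  obtain ⟨W, hWm, hWn, hWt, hWi⟩ := hH x₀ hx₀Ω hx₀o
  obtain ⟨k', hk', hfr, hf0⟩ := nondeg_split H hF hr hr2 hrp (oddQ d F) x₀ hx₀o W hWn hWi
  obtain ⟨T, hTdef⟩ : ∃ T, T = Matrix.toLin' ((x₀ : GL (Unit ⊕ (Fin d ⊕ Fin d)) F) : Matrix (Unit ⊕ (Fin d ⊕ Fin d)) (Unit ⊕ (Fin d ⊕ Fin d)) F) := ⟨_, rfl⟩
  rw [← hTdef] at hfr hf0
  have hTr : T ^ r = 1 := by
    rw [hTdef]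
    exact toLin_pow_eq_one _ x₀ (by rw [← hx₀o]; exact pow_orderOf_eq_one x₀)
  have hcT : LinearMap.charpoly T = polyOf D i (Fintype.card (Unit ⊕ (Fin d ⊕ Fin d))) k₀ := by
    rw [hTdef, Matrix.charpoly_toLin', hx₀c]
  have hfix := finrank_Fix_of_polyOf H hr hrp T hTr hcT
  rw [hcard, hk₀s] at hfix
  obtain ⟨f, hfdef⟩ : ∃ f, f = finrank F ↥(W ⊓ Fix T) := ⟨_, rfl⟩
  rw [← hfdef] at hfr hf0
  have hfle : f ≤ (2 * d + 1) % c := by
    have h5 : finrank F ↥(W ⊓ Fix T) ≤ finrank F (Fix T) := Submodule.finrank_mono inf_le_right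
    omega
  obtain ⟨a, ha, hasum⟩ : ∃ a, i * ∑ d, k' d = c * a ∧ (Even i → ∑ d, k' d = a) := by
    by_cases hev : Even i
    · rw [hc, if_pos hev]
      exact ⟨_, rfl, fun _ => rfl⟩
    · have hfp : ∀ a, starD H a ≠ a := fun a ha => hev ((H.hstar a.1 a.2).1 (congrArg Subtype.val ha))
      obtain ⟨T', hT'⟩ := exists_transversal (starD H) (starD_starD H) hfp
      rw [hc, if_neg hev, sum_eq_two_mul (starD H) (starD_starD H) hT' k' hk']
      exact ⟨∑ d ∈ T', k' d, by ring, fun h => absurd h hev⟩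
  rw [hWm, ha] at hfr
  obtain ⟨m', hm'⟩ := hme
  have hfodd : f ≠ (2 * d + 1) % c := by
    intro h
    have h5 : Even (c * a) := ⟨c' * a, by rw [hc']; ring⟩
    have h6 : Even (c * K) := ⟨c' * K, by rw [hc']; ring⟩
    obtain ⟨z, hz⟩ := h5
    obtain ⟨z', hz'⟩ := h6
    omega
  have hflt : f < (2 * d + 1) % c := by omega
  have hmc : m % c = f := by
    rw [hfr, Nat.add_mul_mod_self_left, Nat.mod_eq_of_lt (by omega)]
  have hmd : m / c = a := by
    rw [hfr, Nat.add_mul_div_left _ _ hcpos, Nat.div_eq_of_lt (by omega), zero_add]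
  refine ⟨by omega, fun h0 => ?_⟩
  have h5 : f = 0 := by omega
  obtain ⟨h6, h7⟩ := hf0 h5
  rw [hmd]
  by_cases hev : Even i
  · have h8 := h7 hev
    rw [hasum hev] at h8
    exact (hWt.symm.trans h8).trans ⟨Or.inr, fun h => h.resolve_left (not_not.2 hev)⟩
  · exact ⟨fun _ => Or.inl hev, fun _ => hWt.1 (h6 hev)⟩

end Odd

end Cfsg.Agent.Lib.Classical.OSemi.OddForm
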