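import Mathlib
import Cfsg.Agent.Lib.Classical.OSemi.OddForm

/-!
# Numbers of subspaces prime to `r`
-/

set_option autoImplicit false
set_option linter.unusedSectionVars false
set_option linter.unusedSimpArgs false
set_option linter.unusedVariables false
set_option linter.style.haveILetI false
set_option maxHeartbeats 1000000

open Polynomial Module QuadraticMap Matrix
open Cfsg Cfsg.Agent.Lib.Classical.Herm.CycTuples Cfsg.Agent.Lib.Classical.Witt.Hyp Cfsg.Agent.Lib.Linalg.OrthModels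
open Cfsg.Agent.Lib.Classical.Herm.OrthEmbed
open Cfsg.Agent.Lib.Classical.OSemi.Lag Cfsg.Agent.Lib.Classical.OSemi.Nondeg
open Cfsg.Agent.Lib.Classical.OSemi.Decomp Cfsg.Agent.Lib.Classical.OSemi.Split Cfsg.Agent.Lib.Classical.OSemi.SylowFix
open Cfsg.Agent.Lib.Classical.OSemi.OddForm
open Cfsg.Agent.Lib.Classical.Witt.TS
open Cfsg.Agent.Lib.Classical.Orth.Basic Cfsg.Agent.Lib.Classical.Orth.Classes Cfsg.Agent.Lib.Classical.Orth.Adjust

namespace Cfsg.Agent.Lib.Classical.OSemi.Coprime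

universe u

section General

variable {ι' : Type} [Fintype ι'] [DecidableEq ι'] {F : Type u} [Field F] [Fintype F]
variable {Q : QuadraticForm F (ι' → F)}

theorem polarNondeg_of_on {W : Submodule F (ι' → F)} (hW : Cfsg.Geo.IsNondegenerateOn (polar (⇑Q)) W) :
    PolarNondeg (Q.comp W.subtype) := by
  intro a ha
  by_contra hne
  have ha0 : (a : ι' → F) ≠ 0 := fun h => hne (Subtype.ext h)
  obtain ⟨-, x, hx, hax⟩ := hW _ a.2 ha0
  apply hax
  have := ha ⟨x, hx⟩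
  rwa [polar_comp_subtype] at this

theorem lag_iff_plus {W : Submodule F (ι' → F)} (hn : PolarNondeg (Q.comp W.subtype)) :
    Cfsg.Geo.IsPlusTypeOn (⇑Q) W ↔ Lag (Q.comp W.subtype) := by
  have h2 := transfer Q (φ := W.subtype) hn (fun w => rfl)
  rw [Submodule.range_subtype] at h2
  exact h2.2.2

theorem nondeg_gMap (g : ↥(Cfsg.isometryGroup F ⇑Q)) {W : Submodule F (ι' → F)}
    (hW : Cfsg.Geo.IsNondegenerateOn (polar (⇑Q)) W) : Cfsg.Geo.IsNondegenerateOn (polar (⇑Q)) (gMap g W) := by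
  intro w hw hw0
  obtain ⟨y, hy, rfl⟩ := mem_gMap.1 hw
  have hy0 : y ≠ 0 := fun h => hw0 (by rw [h, act_zero])
  obtain ⟨⟨x, hx, h1⟩, ⟨x', hx', h3⟩⟩ := hW y hy hy0
  refine ⟨⟨act g x, mem_gMap.2 ⟨x, hx, rfl⟩, by rw [polar_act]; exact h1⟩, ⟨act g x', mem_gMap.2 ⟨x', hx', rfl⟩, by rw [polar_act]; exact h3⟩⟩

theorem plus_gMap (g : ↥(Cfsg.isometryGroup F ⇑Q)) {W : Submodule F (ι' → F)}
    (h : Cfsg.Geo.IsPlusTypeOn (⇑Q) W) : Cfsg.Geo.IsPlusTypeOn (⇑Q) (gMap g W) := by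
  obtain ⟨U, hU, hUs, hUd⟩ := h
  refine ⟨gMap g U, Submodule.map_mono hU, fun x hx => ?_, by rw [finrank_gMap, finrank_gMap, hUd]⟩
  obtain ⟨y, hy, rfl⟩ := mem_gMap.1 hx
  rw [Q_act]
  exact hUs y hy

theorem plus_gMap_iff (g : ↥(Cfsg.isometryGroup F ⇑Q)) {W : Submodule F (ι' → F)} :
    Cfsg.Geo.IsPlusTypeOn (⇑Q) (gMap g W) ↔ Cfsg.Geo.IsPlusTypeOn (⇑Q) W := by
  refine ⟨fun h => ?_, plus_gMap g⟩
  have h1 := plus_gMap g⁻¹ h
  rwa [← gMap_mul, inv_mul_cancel, gMap_one] at h1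

theorem isometric_of_type {w : ℕ} (hw : 1 ≤ w) {W W' : Submodule F (ι' → F)} (hd : finrank F W = 2 * w) (hd' : finrank F W' = 2 * w)
    (hn : Cfsg.Geo.IsNondegenerateOn (polar (⇑Q)) W) (hn' : Cfsg.Geo.IsNondegenerateOn (polar (⇑Q)) W')
    (ht : Cfsg.Geo.IsPlusTypeOn (⇑Q) W ↔ Cfsg.Geo.IsPlusTypeOn (⇑Q) W') :
    ∃ φ : W ≃ₗ[F] W', ∀ x : W, Q (φ x : ι' → F) = Q (x : ι' → F) := by
  have h1 := polarNondeg_of_on hn
  have h3 := polarNondeg_of_on hn'
  obtain ⟨φ, hφ⟩ := exists_equiv_of_type h1 h3 hw hd hd' (by rw [← lag_iff_plus h1, ← lag_iff_plus h3]; exact ht)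
  exact ⟨φ, hφ⟩

theorem exists_sub_finrank (W : Submodule F (ι' → F)) {j : ℕ} (hj : j ≤ finrank F W) : ∃ U ≤ W, finrank F U = j := by
  induction j with
  | zero => exact ⟨⊥, bot_le, by simp⟩
  | succ j ih =>
    obtain ⟨U, hU, hUd⟩ := ih (by omega)
    have hne : ¬ W ≤ U := fun h => by
      have := Submodule.finrank_mono h
      omega
    obtain ⟨v, hv, hvU⟩ := SetLike.not_le_iff_exists.1 hne
    refine ⟨U ⊔ Submodule.span F {v}, sup_le hU (by simpa using hv), ?_⟩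
    rw [finrank_sup_span_add U hvU, hUd]

end General

section Fixed

variable {ι' : Type} [Fintype ι'] [DecidableEq ι'] {F : Type u} [Field F] [Fintype F] {p : ℕ} [Fact p.Prime] [CharP F p]
variable {Q : QuadraticForm F (ι' → F)}

/-- A `p`-group acting on an invariant section has a nonzero fixed vector. -/
theorem exists_fixed_mod {S : Subgroup ↥(Cfsg.isometryGroup F ⇑Q)} (hS : IsPGroup p S) {E₀ E : Submodule F (ι' → F)}
    (hE₀ : ∀ g ∈ S, ∀ v ∈ E₀, act g v ∈ E₀) (hE : ∀ g ∈ S, ∀ v ∈ E, act g v ∈ E) (h : E₀ ≤ E) (hne : E₀ ≠ E) :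
    ∃ v ∈ E, v ∉ E₀ ∧ ∀ g ∈ S, act g v - v ∈ E₀ := by
  classical
  have hp : p.Prime := Fact.out
  let M := (ι' → F) ⧸ E₀
  let mk : (ι' → F) →ₗ[F] M := E₀.mkQ
  let m : ↥S → M →ₗ[F] M := fun g => E₀.mapQ E₀ (Matrix.mulVecLin ((g.1 : GL ι' F) : Matrix ι' ι' F)) (fun v hv => hE₀ g.1 g.2 v hv)
  have hm : ∀ (g : ↥S) (v : ι' → F), m g (mk v) = mk (act g.1 v) := fun g v => rfl
  have hsurj : Function.Surjective mk := Submodule.mkQ_surjective _
  let X : Submodule F M := E.map mk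
  have hX : ∀ (g : ↥S) (y : M), y ∈ X → m g y ∈ X := by
    rintro g _ ⟨v, hv, rfl⟩
    rw [hm]
    exact ⟨act g.1 v, hE g.1 g.2 v hv, rfl⟩
  letI : MulAction ↥S X :=
    { smul := fun g y => ⟨m g y.1, hX g y.1 y.2⟩
      one_smul := fun y => by
        apply Subtype.ext
        obtain ⟨v, hv⟩ := hsurj y.1
        change m 1 y.1 = y.1
        rw [← hv, hm]
        congr 1
        exact act_one v
      mul_smul := fun g g' y => by
        apply Subtype.ext
        obtain ⟨v, hv⟩ := hsurj y.1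
        change m (g * g') y.1 = m g (m g' y.1)
        rw [← hv, hm, hm, hm]
        congr 1
        exact act_mul g.1 g'.1 v }
  have hsm : ∀ (g : ↥S) (y : X), ((g • y : X) : M) = m g y.1 := fun _ _ => rfl
  have h1 := hS.card_modEq_card_fixedPoints X
  have hX0 : X ≠ ⊥ := by
    intro hb
    apply hne
    apply le_antisymm h
    intro v hv
    have h2 : mk v ∈ X := ⟨v, hv, rfl⟩
    rw [hb, Submodule.mem_bot] at h2
    exact (Submodule.Quotient.mk_eq_zero E₀).1 h2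
  haveI : Finite M := inferInstance
  haveI : Fintype X := Fintype.ofFinite _
  have hcard : p ∣ Nat.card X := by
    rw [Nat.card_eq_fintype_card, Module.card_eq_pow_finrank (K := F) (V := X)]
    have hfr : finrank F X ≠ 0 := by
      intro h0
      exact hX0 (Submodule.finrank_eq_zero.1 h0)
    obtain ⟨n, -, hn⟩ := FiniteField.card F p
    rw [hn]
    exact dvd_pow (dvd_pow_self p n.ne_zero) hfr
  have h2 : ∃ y ∈ MulAction.fixedPoints ↥S X, y ≠ 0 := by
    by_contra hcon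
    push Not at hcon
    have h3 : Nat.card (MulAction.fixedPoints ↥S X) = 1 := by
      rw [Nat.card_eq_one_iff_unique]
      refine ⟨⟨?_⟩, ⟨⟨0, ?_⟩⟩⟩
      · rintro ⟨a, ha⟩ ⟨b, hb⟩
        have e : a = b := by rw [hcon a ha, hcon b hb]
        exact Subtype.ext e
      · intro g
        apply Subtype.ext
        rw [hsm]
        simp
    rw [h3] at h1
    have h4 : 0 ≡ 1 [MOD p] := (Nat.modEq_zero_iff_dvd.2 hcard).symm.trans h1
    have h5 : p ∣ 1 := (Nat.modEq_iff_dvd' (by omega)).1 h4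
    exact hp.one_lt.ne' (Nat.dvd_one.1 h5)
  obtain ⟨⟨y, hy⟩, hfix, hy0⟩ := h2
  obtain ⟨v, hv, rfl⟩ := hy
  refine ⟨v, hv, fun hv0 => ?_, fun g hg => ?_⟩
  · apply hy0
    apply Subtype.ext
    exact (Submodule.Quotient.mk_eq_zero E₀).2 hv0
  · have h3 := hfix ⟨g, hg⟩
    have h4 := congrArg Subtype.val h3
    rw [hsm] at h4
    change m ⟨g, hg⟩ (mk v) = mk v at h4
    rw [hm] at h4
    exact (Submodule.Quotient.eq E₀).1 h4

/-- The inductive step for chains of invariant totally singular subspaces. -/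
theorem exists_ts_step (h2 : (2 : F) ≠ 0) (hQ : PolarNondeg Q) {S : Subgroup ↥(Cfsg.isometryGroup F ⇑Q)} (hS : IsPGroup p S)
    {U : Submodule F (ι' → F)} (hU : IsTS Q U) (hUS : ∀ g ∈ S, ∀ u ∈ U, act g u ∈ U)
    (hex : ∃ v, v ∉ U ∧ Q v = 0 ∧ ∀ u ∈ U, polar (⇑Q) u v = 0) :
    ∃ U' : Submodule F (ι' → F), finrank F U' = finrank F U + 1 ∧ IsTS Q U' ∧ ∀ g ∈ S, ∀ u ∈ U', act g u ∈ U' := by
  classical
  let B : LinearMap.BilinForm F (ι' → F) := polarBilin Q
  have hBa : ∀ a b, B a b = polar (⇑Q) a b := fun _ _ => rfl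
  have hBn : B.Nondegenerate := nondeg_of_polarNondeg Q hQ
  let A : Submodule F (ι' → F) :=
    { carrier := {v | (∀ u ∈ U, polar (⇑Q) u v = 0) ∧ ∀ g ∈ S, act g v - v ∈ U}
      add_mem' := fun {a b} ha hb => ⟨fun u hu => by
          have h1 : B u (a + b) = B u a + B u b := map_add _ _ _
          rw [hBa, hBa, hBa] at h1
          rw [h1, ha.1 u hu, hb.1 u hu, add_zero], fun g hg => by
          have h1 : act g (a + b) - (a + b) = (act g a - a) + (act g b - b) := by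
            rw [act_add]
            abel
          rw [h1]
          exact U.add_mem (ha.2 g hg) (hb.2 g hg)⟩
      zero_mem' := ⟨fun u _ => by simp, fun g _ => by rw [act_zero, sub_zero]; exact U.zero_mem⟩
      smul_mem' := fun c x hx => ⟨fun u hu => by
          have h1 : B u (c • x) = c • B u x := map_smul _ _ _
          rw [hBa, hBa] at h1
          rw [h1, hx.1 u hu, smul_zero], fun g hg => by
          have h1 : act g (c • x) - c • x = c • (act g x - x) := by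
            rw [act_smul, smul_sub]
          rw [h1]
          exact U.smul_mem _ (hx.2 g hg)⟩ }
  have hA : ∀ v, v ∈ A ↔ (∀ u ∈ U, polar (⇑Q) u v = 0) ∧ ∀ g ∈ S, act g v - v ∈ U := fun _ => Iff.rfl
  have hUA : U ≤ A := by
    intro v hv
    exact ⟨fun u hu => hU.polar_eq_zero hu hv, fun g hg => U.sub_mem (hUS g hg v hv) hv⟩
  have hAS : ∀ g ∈ S, ∀ v ∈ A, act g v ∈ A := by
    intro g hg v hv
    refine ⟨fun u hu => ?_, fun g' hg' => ?_⟩
    · have h1 := polar_act g (act g⁻¹ u) v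
      rw [act_act_inv] at h1
      rw [h1]
      exact hv.1 _ (hUS _ (S.inv_mem hg) u hu)
    · have h1 : act g' (act g v) - act g v = (act (g' * g) v - v) - (act g v - v) := by
        rw [act_mul]
        abel
      rw [h1]
      exact U.sub_mem (hv.2 _ (S.mul_mem hg' hg)) (hv.2 g hg)
  suffices hsing : ∃ v ∈ A, v ∉ U ∧ Q v = 0 by
    obtain ⟨v, hvA, hvU, hQv⟩ := hsing
    refine ⟨U ⊔ Submodule.span F {v}, finrank_sup_span_add U hvU, hU.sup_span hQv hvA.1, fun g hg w hw => ?_⟩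
    obtain ⟨u, hu, z, hz, rfl⟩ := Submodule.mem_sup.1 hw
    obtain ⟨c, rfl⟩ := Submodule.mem_span_singleton.1 hz
    rw [act_add, act_smul]
    refine Submodule.add_mem _ (Submodule.mem_sup_left (hUS g hg u hu)) ?_
    have h1 : act g v = (act g v - v) + v := by abel
    rw [h1, smul_add]
    exact Submodule.add_mem _ (Submodule.mem_sup_left (U.smul_mem _ (hvA.2 g hg)))
      (Submodule.mem_sup_right (Submodule.smul_mem _ _ (Submodule.mem_span_singleton_self v)))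
  by_contra hcon
  push Not at hcon
  -- the orthogonal of `A`
  obtain ⟨A', hA'def⟩ : ∃ A', A' = B.orthogonal A := ⟨_, rfl⟩
  have hA'mem : ∀ u, u ∈ A' ↔ ∀ y ∈ A, polar (⇑Q) y u = 0 := fun u => by
    rw [hA'def]
    exact Iff.rfl
  have hUA' : U ≤ A' := by
    intro u hu
    rw [hA'mem]
    intro y hy
    rw [polar_comm]
    exact hy.1 u hu
  have hA'S : ∀ g ∈ S, ∀ v ∈ A', act g v ∈ A' := by
    intro g hg v hv
    rw [hA'mem]
    intro y hy
    have h1 := polar_act g (act g⁻¹ y) v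
    rw [act_act_inv] at h1
    rw [h1]
    exact (hA'mem v).1 hv _ (hAS _ (S.inv_mem hg) y hy)
  by_cases hUeq : U = A'
  · -- every vector of `U^⊥` lies in `A`
    obtain ⟨v, hvU, hQv, hv⟩ := hex
    have hdA := LinearMap.BilinForm.finrank_orthogonal hBn A
    rw [← hA'def, ← hUeq, Module.finrank_fintype_fun_eq_card] at hdA
    obtain ⟨E, hEdef⟩ : ∃ E, E = B.orthogonal U := ⟨_, rfl⟩
    have hdE := LinearMap.BilinForm.finrank_orthogonal hBn U
    rw [← hEdef, Module.finrank_fintype_fun_eq_card] at hdE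
    have hAE : A ≤ E := by
      intro y hy
      rw [hEdef]
      exact fun u hu => hy.1 u hu
    have hAfin : finrank F A ≤ Fintype.card ι' := by
      have := Submodule.finrank_le A
      rwa [Module.finrank_fintype_fun_eq_card] at this
    have hUfin : finrank F U ≤ Fintype.card ι' := by
      have := Submodule.finrank_le U
      rwa [Module.finrank_fintype_fun_eq_card] at this
    have hAeq : A = E := Submodule.eq_of_le_of_finrank_eq hAE (by omega)
    have hvE : v ∈ E := by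
      rw [hEdef]
      exact fun u hu => hv u hu
    rw [← hAeq] at hvE
    exact hcon v hvE hvU hQv
  · obtain ⟨v, hv, hvU, hfix⟩ := exists_fixed_mod hS (fun g hg u hu => hUS g hg u hu) hA'S hUA' hUeq
    have hvA : v ∈ A := by
      refine ⟨fun u hu => ?_, hfix⟩
      have h1 := (hA'mem v).1 hv u (hUA hu)
      exact h1
    have h3 := (hA'mem v).1 hv v hvA
    rw [Cfsg.Agent.Lib.Classical.Witt.Hyp.polar_self] at h3
    have h4 := (mul_eq_zero.1 h3).resolve_left h2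
    exact hcon v hvA hvU h4

/-- The singular vectors over a totally singular subspace. -/
theorem exists_singular_perp (hQ : PolarNondeg Q) {W : Submodule F (ι' → F)} (hW : IsTS Q W) {U : Submodule F (ι' → F)} (hU : IsTS Q U)
    (hlt : finrank F U < finrank F W) : ∃ v, v ∉ U ∧ Q v = 0 ∧ ∀ u ∈ U, polar (⇑Q) u v = 0 := by
  classical
  obtain ⟨U₀, hU₀, hU₀d⟩ := exists_sub_finrank W (j := finrank F U) hlt.le
  let φ : U ≃ₗ[F] U₀ := LinearEquiv.ofFinrankEq _ _ hU₀d.symm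
  obtain ⟨g, hg, hgφ⟩ := exists_iso_of_witt (nondeg_of_polarNondeg Q hQ) U U₀ φ (fun x => by
    rw [hU _ x.2, hW _ (hU₀ (φ x).2)])
  let W' := gMap g⁻¹ W
  have hW' : IsTS Q W' := isTS_gMap _ hW
  have hUW' : U ≤ W' := by
    intro u hu
    refine mem_gMap.2 ⟨act g u, ?_, act_inv_act g u⟩
    exact hU₀ (by
      rw [← hg]
      exact mem_gMap.2 ⟨u, hu, rfl⟩)
  have hne : ¬ W' ≤ U := fun h => by
    have h1 := Submodule.finrank_mono h
    rw [finrank_gMap] at h1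
    omega
  obtain ⟨v, hv, hvU⟩ := SetLike.not_le_iff_exists.1 hne
  exact ⟨v, hvU, hW' v hv, fun u hu => hW'.polar_eq_zero (hUW' hu) hv⟩

/-- Chains of invariant totally singular subspaces. -/
theorem exists_ts_invariant (h2 : (2 : F) ≠ 0) (hQ : PolarNondeg Q) {S : Subgroup ↥(Cfsg.isometryGroup F ⇑Q)} (hS : IsPGroup p S)
    {W : Submodule F (ι' → F)} (hW : IsTS Q W) {j : ℕ} (hj : j ≤ finrank F W) :
    ∃ U : Submodule F (ι' → F), finrank F U = j ∧ IsTS Q U ∧ ∀ g ∈ S, ∀ u ∈ U, act g u ∈ U := by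
  induction j with
  | zero =>
    refine ⟨⊥, by simp, fun w hw => ?_, fun g _ u hu => ?_⟩
    · rw [(Submodule.mem_bot F).1 hw]
      simp
    · rw [(Submodule.mem_bot F).1 hu, act_zero]
      exact Submodule.zero_mem _
  | succ j ih =>
    obtain ⟨U, hUd, hUt, hUS⟩ := ih (by omega)
    obtain ⟨U', h3, h4, h5⟩ := exists_ts_step h2 hQ hS hUt hUS (exists_singular_perp hQ hW hUt (by omega))
    exact ⟨U', by rw [h3, hUd], h4, h5⟩

end Fixed

section Odd

variable {F : Type u} [Field F] [Fintype F] {p : ℕ} [Fact p.Prime] [CharP F p] {q r i : ℕ} [Fact r.Prime]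

/-- The fixed space of a Sylow subgroup in the odd dimensional form. -/
theorem exists_fix_odd (hF : Fintype.card F = q) (hrp : r ≠ p) (h2 : (2 : F) ≠ 0) (hi : i = orderOf (q : ZMod r)) (hi1 : i ≠ 1) (d : ℕ)
    {c : ℕ} (hc : c = if Even i then i else 2 * i) (hcpos : 0 < c) (S : Sylow r ↥(Cfsg.isometryGroup F ⇑(oddQ d F))) :
    ∃ (Y : Submodule F (Unit ⊕ (Fin d ⊕ Fin d) → F)) (s : ℕ), (∀ g ∈ (S : Subgroup ↥(Cfsg.isometryGroup F ⇑(oddQ d F))), ∀ v ∈ Y, act g v = v) ∧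
      PolarNondeg ((oddQ d F).comp Y.subtype) ∧ finrank F Y = 2 * s + 1 ∧ (2 * d + 1) % c ≤ 2 * s + 1 := by
  have hQ := polarNondeg_oddQ (F := F) d h2
  have hcard := card_odd_index d
  obtain ⟨Y, hY, hYn, hYle, h3, h4⟩ := fix_facts (p := p) (Q := oddQ d F) hF h2 hQ hrp S.isPGroup' (by rw [← hi]; exact hi1)
  rw [hcard] at hYle h3 h4
  rw [← hi] at h3
  have hcd : c ∣ 2 * d + 1 - finrank F Y := by
    by_cases hev : Even i
    · rw [hc, if_pos hev]
      exact h3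
    · rw [hc, if_neg hev]
      have hcop : Nat.Coprime 2 i := (Nat.coprime_two_left).2 (Nat.not_even_iff_odd.1 hev)
      exact hcop.mul_dvd_of_dvd_of_dvd h4.two_dvd h3
  obtain ⟨e, he⟩ := hcd
  obtain ⟨z, hz⟩ := h4
  obtain ⟨s, hs⟩ : ∃ s, finrank F Y = 2 * s + 1 := ⟨(finrank F Y - 1) / 2, by omega⟩
  refine ⟨Y, s, fun g hg v hv => (hY v).1 hv g hg, hYn, hs, ?_⟩
  have hdn := Nat.div_add_mod (2 * d + 1) c
  have hlt := Nat.mod_lt (2 * d + 1) hcpos
  have hek : e ≤ (2 * d + 1) / c := by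
    rw [Nat.le_div_iff_mul_le hcpos, mul_comm]
    omega
  have h5 : c * e ≤ c * ((2 * d + 1) / c) := Nat.mul_le_mul_left c hek
  omega

/-- The number of nondegenerate subspaces of small dimension. -/
theorem not_dvd_nondeg (hF : Fintype.card F = q) (hrp : r ≠ p) (h2 : (2 : F) ≠ 0) (hi : i = orderOf (q : ZMod r)) (hi1 : i ≠ 1) (d : ℕ)
    {c : ℕ} (hc : c = if Even i then i else 2 * i) (hcpos : 0 < c) {m : ℕ} (hm2 : 2 ≤ m) (hme : Even m) (hmk : m < (2 * d + 1) % c) (τ' : Prop) :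
    ¬ r ∣ Nat.card {W : Submodule F (Unit ⊕ (Fin d ⊕ Fin d) → F) // finrank F W = m ∧ Cfsg.Geo.IsNondegenerateOn (polar ⇑(oddQ d F)) W ∧
      (Cfsg.Geo.IsPlusTypeOn ⇑(oddQ d F) W ↔ τ')} := by
  classical
  have hQ := polarNondeg_oddQ (F := F) d h2
  let S : Sylow r ↥(Cfsg.isometryGroup F ⇑(oddQ d F)) := default
  obtain ⟨Y, s, hYfix, hYn, hYd, hYk⟩ := exists_fix_odd (p := p) hF hrp h2 hi hi1 d hc hcpos S
  obtain ⟨w, hw⟩ := hme
  obtain ⟨P, _, _, _, QP, hPn, hPd, hPτ⟩ := exists_typed (F := F) w τ' (fun h => by omega)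
  obtain ⟨ι₀, hι₀⟩ := exists_embed_in_odd h2 hYn hYd hPn hPd (by omega)
  let φ : P →ₗ[F] (Unit ⊕ (Fin d ⊕ Fin d) → F) := Y.subtype ∘ₗ ι₀
  have hφ : ∀ v, oddQ d F (φ v) = QP v := fun v => hι₀ v
  obtain ⟨t1, t2, t3⟩ := transfer (oddQ d F) hPn φ hφ
  refine not_dvd_card (oddQ d F) (nondeg_of_polarNondeg _ hQ) _ ?_ ?_ S (LinearMap.range φ) ⟨by rw [t1, hPd]; omega, t2, by rw [t3, hPτ]⟩ ?_
  · rintro g W ⟨h1, h3, h4⟩
    exact ⟨by rw [finrank_gMap, h1], nondeg_gMap g h3, by rw [plus_gMap_iff]; exact h4⟩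
  · rintro W W' ⟨h1, h3, h4⟩ ⟨h5, h6, h7⟩
    exact isometric_of_type (w := w) (by omega) (by omega) (by omega) h3 h6 (h4.trans h7.symm)
  · intro g hg
    apply gMap_eq_of_le
    rintro _ ⟨v, rfl⟩
    have h5 : φ v = ((ι₀ v : Y) : Unit ⊕ (Fin d ⊕ Fin d) → F) := rfl
    rw [h5, hYfix g hg _ (ι₀ v).2]
    exact ⟨v, rfl⟩

/-- The number of totally singular subspaces of small dimension. -/
theorem not_dvd_ts (hF : Fintype.card F = q) (hrp : r ≠ p) (h2 : (2 : F) ≠ 0) (hi : i = orderOf (q : ZMod r)) (hi1 : i ≠ 1) (d : ℕ)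
    {c : ℕ} (hc : c = if Even i then i else 2 * i) (hcpos : 0 < c) {m : ℕ} (hmk : 2 * m < (2 * d + 1) % c) :
    ¬ r ∣ Nat.card {W : Submodule F (Unit ⊕ (Fin d ⊕ Fin d) → F) // finrank F W = m ∧ ∀ w ∈ W, oddQ d F w = 0} := by
  classical
  have hQ := polarNondeg_oddQ (F := F) d h2
  let S : Sylow r ↥(Cfsg.isometryGroup F ⇑(oddQ d F)) := default
  obtain ⟨Y, s, hYfix, hYn, hYd, hYk⟩ := exists_fix_odd (p := p) hF hrp h2 hi hi1 d hc hcpos S
  have hdP : finrank F (Fin m ⊕ Fin m → F) = 2 * m := by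
    rw [Module.finrank_fintype_fun_eq_card]
    simp [Fintype.card_sum]
    ring
  obtain ⟨ι₀, hι₀⟩ := exists_embed_in_odd h2 hYn hYd (polarNondeg_plusQ (F := F) m) hdP (by omega)
  let φ : (Fin m ⊕ Fin m → F) →ₗ[F] (Unit ⊕ (Fin d ⊕ Fin d) → F) := Y.subtype ∘ₗ ι₀
  have hφ : ∀ v, oddQ d F (φ v) = plusQ m F v := fun v => hι₀ v
  have hinj := injective_of_isometric (polarNondeg_plusQ (F := F) m) φ hφ
  obtain ⟨X, hX, hXd⟩ := lag_plusQ (F := F) m
  rw [hdP] at hXd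
  refine not_dvd_card (oddQ d F) (nondeg_of_polarNondeg _ hQ) _ ?_ ?_ S (X.map φ) ⟨?_, ?_⟩ ?_
  · rintro g W ⟨h1, h3⟩
    exact ⟨by rw [finrank_gMap, h1], isTS_gMap g h3⟩
  · rintro W W' ⟨h1, h3⟩ ⟨h5, h6⟩
    exact ⟨LinearEquiv.ofFinrankEq _ _ (by rw [h1, h5]), fun x => by rw [h3 _ x.2, h6 _ (Subtype.coe_prop _)]⟩
  · rw [← (Submodule.equivMapOfInjective φ hinj X).finrank_eq]
    omega
  · rintro _ ⟨x, hx, rfl⟩
    rw [hφ, hX x hx]
  · intro g hg
    apply gMap_eq_of_le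
    rintro _ ⟨v, hv, rfl⟩
    refine ⟨v, hv, ?_⟩
    exact (hYfix g hg _ (ι₀ v).2).symm

/-- The number of totally singular subspaces is prime to `p`. -/
theorem not_dvd_ts_char (h2 : (2 : F) ≠ 0) (d : ℕ) {m : ℕ} (hmd : m ≤ d) :
    ¬ p ∣ Nat.card {W : Submodule F (Unit ⊕ (Fin d ⊕ Fin d) → F) // finrank F W = m ∧ ∀ w ∈ W, oddQ d F w = 0} := by
  classical
  have hQ := polarNondeg_oddQ (F := F) d h2
  let S : Sylow p ↥(Cfsg.isometryGroup F ⇑(oddQ d F)) := default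
  have hdP : finrank F (Fin d ⊕ Fin d → F) = 2 * d := by
    rw [Module.finrank_fintype_fun_eq_card]
    simp [Fintype.card_sum]
    ring
  obtain ⟨ι₀, hι₀⟩ := emb_odd d (plusQ d F) (polarNondeg_plusQ d) hdP le_rfl (even_two_mul d)
  have hinj := injective_of_isometric (polarNondeg_plusQ (F := F) d) ι₀ hι₀
  obtain ⟨X, hX, hXd⟩ := lag_plusQ (F := F) d
  rw [hdP] at hXd
  have hW : IsTS (oddQ d F) (X.map ι₀) := by
    rintro _ ⟨x, hx, rfl⟩
    rw [hι₀, hX x hx]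
  have hWd : finrank F (X.map ι₀) = d := by
    rw [← (Submodule.equivMapOfInjective ι₀ hinj X).finrank_eq]
    omega
  obtain ⟨U, hUd, hUt, hUS⟩ := exists_ts_invariant (p := p) h2 hQ S.isPGroup' hW (j := m) (by omega)
  refine not_dvd_card (oddQ d F) (nondeg_of_polarNondeg _ hQ) _ ?_ ?_ S U ⟨hUd, hUt⟩ ?_
  · rintro g W ⟨h1, h3⟩
    exact ⟨by rw [finrank_gMap, h1], isTS_gMap g h3⟩
  · rintro W W' ⟨h1, h3⟩ ⟨h5, h6⟩
    exact ⟨LinearEquiv.ofFinrankEq _ _ (by rw [h1, h5]), fun x => by rw [h3 _ x.2, h6 _ (Subtype.coe_prop _)]⟩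
  · intro g hg
    exact gMap_eq_of_le (fun x hx => hUS g hg x hx)

end Odd

end Cfsg.Agent.Lib.Classical.OSemi.Coprime
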