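import Mathlib
import Cfsg.Agent.Lib.Classical.OSemi.Coprime
import Cfsg.Agent.Lib.Classical.OJordan.Final

/-!
# Involutions: invariant nondegenerate subspaces of either type
-/

set_option autoImplicit false
set_option linter.unusedSectionVars false
set_option linter.unusedSimpArgs false
set_option linter.unusedVariables false
set_option linter.style.haveILetI false
set_option maxHeartbeats 1000000

open Polynomial Module QuadraticMap Matrix
open Cfsg Cfsg.Agent.Lib.Classical.Witt.Hyp Cfsg.Agent.Lib.Linalg.OrthModels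
open Cfsg.Agent.Lib.Classical.OSemi.Lag
open Cfsg.Agent.Lib.Classical.OSemi.Decomp
open Cfsg.Agent.Lib.Classical.Orth.Basic Cfsg.Agent.Lib.Classical.Orth.Classes Cfsg.Agent.Lib.Classical.Orth.Adjust

namespace Cfsg.Agent.Lib.Classical.OSemi.Invol

universe u

section Rep

variable {F : Type u} [Field F] [Fintype F] {V : Type*} [AddCommGroup V] [Module F V] [FiniteDimensional F V]

/-- A nondegenerate form in at least two variables represents every scalar. -/
theorem exists_represent (h2 : (2 : F) ≠ 0) (Q : QuadraticForm F V) (hQ : PolarNondeg Q) (hdim : 2 ≤ finrank F V) (a₀ : F) :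
    ∃ v, Q v = a₀ := by
  classical
  haveI : Invertible (2 : F) := invertibleOfNonzero h2
  have hsep : (associated (R := F) Q).SeparatingLeft := by
    intro x hx
    apply hQ
    intro y
    have := hx y
    rw [associated_apply] at this
    show polar Q x y = 0
    have h3 : Q (x + y) - Q x - Q y = 0 := by
      have h4 : (⅟2 : F) * (Q (x + y) - Q x - Q y) = 0 := this
      have h5 : (⅟2 : F) ≠ 0 := by
        intro h6
        have h7 := mul_invOf_self (2 : F)
        rw [h6, mul_zero] at h7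
        exact zero_ne_one h7
      exact (mul_eq_zero.1 h4).resolve_left h5
    exact h3
  obtain ⟨w, ⟨e⟩⟩ := Q.equivalent_weightedSumSquares_units_of_nondegenerate' hsep
  let i₀ : Fin (finrank F V) := ⟨0, by omega⟩
  let i₁ : Fin (finrank F V) := ⟨1, by omega⟩
  have hne : i₀ ≠ i₁ := by
    intro h
    have := congrArg Fin.val h
    simp [i₀, i₁] at this
  have hcard : Fintype.card F % 2 = 1 := by
    have hc2 : ringChar F ≠ 2 := by
      intro hc
      apply h2
      have := ringChar.Nat.cast_ringChar (R := F)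
      rw [hc] at this
      exact_mod_cast this
    exact FiniteField.odd_card_of_char_ne_two hc2
  have hw0 : ((w i₀ : Fˣ) : F) ≠ 0 := Units.ne_zero _
  have hw1 : ((w i₁ : Fˣ) : F) ≠ 0 := Units.ne_zero _
  obtain ⟨a, b, hab⟩ := FiniteField.exists_root_sum_quadratic (R := F)
    (f := C ((w i₀ : Fˣ) : F) * X ^ 2 - C a₀) (g := C ((w i₁ : Fˣ) : F) * X ^ 2)
    (by compute_degree!) (by compute_degree!) hcard
  simp only [eval_sub, eval_mul, eval_C, eval_pow, eval_X] at hab
  let z : Fin (finrank F V) → F := fun j => if j = i₀ then a else if j = i₁ then b else 0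
  refine ⟨e.symm z, ?_⟩
  rw [← e.map_app (e.symm z)]
  have h3 : e (e.symm z) = z := e.apply_symm_apply z
  rw [h3, weightedSumSquares_apply]
  rw [Finset.sum_eq_add (a := i₀) (b := i₁) hne ?_ (by simp) (by simp)]
  · have hz0 : z i₀ = a := by simp [z]
    have hz1 : z i₁ = b := by simp [z, hne.symm]
    rw [hz0, hz1]
    simp only [Units.smul_def, smul_eq_mul]
    linear_combination hab
  · intro c _ hc
    have hzc : z c = 0 := by simp [z, hc.1, hc.2]
    simp [hzc]

/-- The scalar adjusting the type of a form of odd dimension. -/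
theorem exists_scalar (h2 : (2 : F) ≠ 0) (QR : QuadraticForm F V) (hQR : PolarNondeg QR) {w : ℕ} (hw : finrank F V + 1 = 2 * w)
    (τ' : Prop) : ∃ a₀ : F, a₀ ≠ 0 ∧ (Lag (QR.prod (a₀ • (QuadraticMap.sq (R := F)))) ↔ τ') := by
  classical
  let bR := Module.finBasis F V
  let bt : Basis Unit F F := Module.Basis.singleton Unit F
  let b := bR.prod bt
  let G := Matrix.of fun i j => polar QR (bR i) (bR j)
  have hG : G.det ≠ 0 := gram_det_ne_zero hQR bR
  have hsq : ∀ (a₀ x : F), (a₀ • (QuadraticMap.sq (R := F))) x = a₀ * (x * x) := fun a₀ x => by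
    simp [QuadraticMap.sq]
  have hpol : ∀ a₀ : F, a₀ ≠ 0 → PolarNondeg (a₀ • (QuadraticMap.sq (R := F))) := by
    intro a₀ ha₀ x hx
    have h1 := hx 1
    simp only [polar, hsq] at h1
    have h3 : 2 * a₀ * x = 0 := by linear_combination h1
    exact (mul_eq_zero.1 h3).resolve_left (mul_ne_zero h2 ha₀)
  have hdisc : ∀ a₀ : F, a₀ ≠ 0 → (Lag (QR.prod (a₀ • (QuadraticMap.sq (R := F)))) ↔
      IsSquare ((-1 : F) ^ w * (G.det * (2 * a₀)))) := by
    intro a₀ ha₀
    have hd : finrank F (V × F) = 2 * w := by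
      rw [Module.finrank_prod, Module.finrank_self, hw]
    have hQQ : ∀ x, (QR.prod (a₀ • (QuadraticMap.sq (R := F)))) x = QR x.1 + (a₀ • (QuadraticMap.sq (R := F))) x.2 := fun x => rfl
    have hGG : (Matrix.of fun i j => polar (QR.prod (a₀ • (QuadraticMap.sq (R := F)))) (b i) (b j)) =
        Matrix.fromBlocks G 0 0 (Matrix.of fun _ _ => 2 * a₀) := by
      ext i j
      rcases i with i | i <;> rcases j with j | j
      · simp [b, polar, hQQ, Module.Basis.prod_apply, G, hsq]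
      · simp [b, polar, hQQ, Module.Basis.prod_apply, G, hsq]
      · simp [b, polar, hQQ, Module.Basis.prod_apply, G, hsq]
      · simp [b, bt, polar, hQQ, Module.Basis.prod_apply, G, hsq]
        ring
    rw [lag_iff_disc h2 (polarNondeg_prod hQR (hpol a₀ ha₀)) hd b, hGG, Matrix.det_fromBlocks_zero₁₂]
    simp
  obtain ⟨δ, hδ⟩ : ∃ δ, δ = (-1 : F) ^ w * (G.det * 2) := ⟨_, rfl⟩
  have hδ0 : δ ≠ 0 := by
    rw [hδ]
    exact mul_ne_zero (pow_ne_zero _ (by simp [neg_eq_zero])) (mul_ne_zero hG h2)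
  by_cases hτ : τ'
  · refine ⟨δ⁻¹, inv_ne_zero hδ0, ?_⟩
    rw [hdisc _ (inv_ne_zero hδ0)]
    have h3 : (-1 : F) ^ w * (G.det * (2 * δ⁻¹)) = 1 := by
      have : (-1 : F) ^ w * (G.det * (2 * δ⁻¹)) = δ * δ⁻¹ := by
        rw [hδ]
        ring
      rw [this, mul_inv_cancel₀ hδ0]
    rw [h3]
    exact ⟨fun _ => hτ, fun _ => IsSquare.one⟩
  · have hc2 : ringChar F ≠ 2 := by
      intro hc
      apply h2
      have := ringChar.Nat.cast_ringChar (R := F)
      rw [hc] at this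
      exact_mod_cast this
    obtain ⟨ν, hν⟩ := FiniteField.exists_nonsquare hc2
    have hν0 : ν ≠ 0 := fun h => hν (by rw [h]; exact IsSquare.zero)
    have ha : δ⁻¹ * ν ≠ 0 := mul_ne_zero (inv_ne_zero hδ0) hν0
    refine ⟨δ⁻¹ * ν, ha, ?_⟩
    rw [hdisc _ ha]
    have h3 : (-1 : F) ^ w * (G.det * (2 * (δ⁻¹ * ν))) = ν := by
      have : (-1 : F) ^ w * (G.det * (2 * (δ⁻¹ * ν))) = (δ * δ⁻¹) * ν := by
        rw [hδ]
        ring
      rw [this, mul_inv_cancel₀ hδ0, one_mul]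
    rw [h3]
    exact ⟨fun h => absurd h hν, fun h => absurd h hτ⟩

end Rep

section Split

variable {F : Type u} [Field F] [Fintype F] {ι' : Type} [Fintype ι'] [DecidableEq ι']

/-- Nondegenerate subspaces of every type, split along an orthogonal decomposition. -/
theorem exists_nondeg_of_orth (h2 : (2 : F) ≠ 0) (Q : QuadraticForm F (ι' → F)) (hQ : PolarNondeg Q) {A B : Submodule F (ι' → F)}
    (hs : A ⊔ B = ⊤) (horth : ∀ a ∈ A, ∀ b ∈ B, polar Q a b = 0) (hdA : 2 ≤ finrank F A) {m : ℕ} (hm2 : 2 ≤ m) (hme : Even m)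
    (hmn : m + 1 ≤ finrank F A + finrank F B) (τ' : Prop) :
    ∃ W : Submodule F (ι' → F), finrank F W = m ∧ Cfsg.Geo.IsNondegenerateOn (polar (⇑Q)) W ∧ (Cfsg.Geo.IsPlusTypeOn (⇑Q) W ↔ τ') ∧
      ∀ w ∈ W, ∃ a ∈ A, ∃ b ∈ B, a ∈ W ∧ b ∈ W ∧ w = a + b := by
  classical
  obtain ⟨s₁, hs₁⟩ : ∃ s₁, s₁ = min (finrank F A - 2) (m - 1) := ⟨_, rfl⟩
  obtain ⟨s₂, hs₂⟩ : ∃ s₂, s₂ = m - 1 - s₁ := ⟨_, rfl⟩
  have hs12 : s₁ + s₂ + 1 = m := by omega
  have hs1A : s₁ + 2 ≤ finrank F A := by omega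
  have hs2B : s₂ ≤ finrank F B := by omega
  obtain ⟨c₁, hc₁⟩ : ∃ c₁, finrank F A = s₁ + c₁ := ⟨finrank F A - s₁, by omega⟩
  obtain ⟨c₂, hc₂⟩ : ∃ c₂, finrank F B = s₂ + c₂ := ⟨finrank F B - s₂, by omega⟩
  have hAn : PolarNondeg (Q.comp A.subtype) := nondeg_of_orth_sup hQ hs horth
  have hBn : PolarNondeg (Q.comp B.subtype) := nondeg_of_orth_sup hQ (by rw [sup_comm]; exact hs)
    (fun b hb a ha => by rw [polar_comm]; exact horth a ha b hb)
  obtain ⟨Q₁, Q₂, h1, h3, ψ, hψ⟩ := Cfsg.Agent.Lib.Classical.OJordan.Model.exists_split h2 (Q.comp A.subtype)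
    (nondeg_of_polarNondeg _ hAn) hc₁
  obtain ⟨Q₃, Q₄, h4, h5, ψ', hψ'⟩ := Cfsg.Agent.Lib.Classical.OJordan.Model.exists_split h2 (Q.comp B.subtype)
    (nondeg_of_polarNondeg _ hBn) hc₂
  have hQ1 := polarNondeg_of_nondeg _ h1
  have hQ2 := polarNondeg_of_nondeg _ h3
  have hQ3 := polarNondeg_of_nondeg _ h4
  have hR : PolarNondeg (Q₁.prod Q₃) := polarNondeg_prod hQ1 hQ3
  obtain ⟨w, hw⟩ := hme
  have hdR : finrank F ((Fin s₁ → F) × (Fin s₂ → F)) + 1 = 2 * w := by
    rw [Module.finrank_prod, Module.finrank_fin_fun, Module.finrank_fin_fun]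
    omega
  obtain ⟨a₀, ha₀, hτ⟩ := exists_scalar h2 (Q₁.prod Q₃) hR hdR τ'
  obtain ⟨u₂, hu₂⟩ := exists_represent h2 Q₂ hQ2 (by rw [Module.finrank_fin_fun]; omega) a₀
  let fA : ((Fin s₁ → F) × (Fin s₂ → F)) × F →ₗ[F] (Fin s₁ → F) × (Fin c₁ → F) :=
    LinearMap.prod (LinearMap.fst _ _ _ ∘ₗ LinearMap.fst _ _ _) ((LinearMap.toSpanSingleton F _ u₂) ∘ₗ LinearMap.snd _ _ _)
  let fB : ((Fin s₁ → F) × (Fin s₂ → F)) × F →ₗ[F] (Fin s₂ → F) × (Fin c₂ → F) :=
    LinearMap.inl F _ _ ∘ₗ LinearMap.snd _ _ _ ∘ₗ LinearMap.fst _ _ _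
  let φ : ((Fin s₁ → F) × (Fin s₂ → F)) × F →ₗ[F] (ι' → F) :=
    A.subtype ∘ₗ ψ.symm.toLinearMap ∘ₗ fA + B.subtype ∘ₗ ψ'.symm.toLinearMap ∘ₗ fB
  have hφ : ∀ v, φ v = ((ψ.symm (v.1.1, v.2 • u₂) : A) : ι' → F) + ((ψ'.symm (v.1.2, 0) : B) : ι' → F) := fun v => rfl
  have hQA : ∀ v, Q ((ψ.symm v : A) : ι' → F) = Q₁ v.1 + Q₂ v.2 := by
    intro v
    have h6 := hψ (ψ.symm v)
    rw [LinearEquiv.apply_symm_apply, one_mul] at h6
    exact h6
  have hQB : ∀ v, Q ((ψ'.symm v : B) : ι' → F) = Q₃ v.1 + Q₄ v.2 := by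
    intro v
    have h6 := hψ' (ψ'.symm v)
    rw [LinearEquiv.apply_symm_apply, one_mul] at h6
    exact h6
  have hiso : ∀ v, Q (φ v) = ((Q₁.prod Q₃).prod (a₀ • (QuadraticMap.sq (R := F)))) v := by
    intro v
    rw [hφ, Q_add, horth _ (Subtype.coe_prop _) _ (Subtype.coe_prop _), hQA, hQB]
    have h6 : Q₂ (v.2 • u₂) = v.2 * v.2 * a₀ := by
      rw [QuadraticMap.map_smul, hu₂]
      simp [mul_assoc]
    rw [h6, QuadraticMap.map_zero]
    change _ = (Q₁ v.1.1 + Q₃ v.1.2) + a₀ * (v.2 * v.2)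
    ring
  have hpolsq : PolarNondeg (a₀ • (QuadraticMap.sq (R := F))) := by
    intro x hx
    have h1 := hx 1
    have hsq : ∀ (x : F), (a₀ • (QuadraticMap.sq (R := F))) x = a₀ * (x * x) := fun x => by
      simp [QuadraticMap.sq]
    simp only [polar, hsq] at h1
    have h3 : 2 * a₀ * x = 0 := by linear_combination h1
    exact (mul_eq_zero.1 h3).resolve_left (mul_ne_zero h2 ha₀)
  obtain ⟨t1, t2, t3⟩ := transfer Q (polarNondeg_prod hR hpolsq) φ hiso
  refine ⟨LinearMap.range φ, ?_, t2, t3.trans hτ, ?_⟩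
  · rw [t1, Module.finrank_prod, Module.finrank_prod, Module.finrank_fin_fun, Module.finrank_fin_fun, Module.finrank_self]
    omega
  · rintro _ ⟨v, rfl⟩
    refine ⟨_, Subtype.coe_prop (ψ.symm (v.1.1, v.2 • u₂)), _, Subtype.coe_prop (ψ'.symm (v.1.2, 0)), ⟨((v.1.1, 0), v.2), ?_⟩,
      ⟨((0, v.1.2), 0), ?_⟩, hφ v⟩
    · rw [hφ]
      have h6 : (ψ'.symm ((0 : Fin s₂ → F), (0 : Fin c₂ → F))) = 0 := map_zero ψ'.symm
      simp [h6]
    · rw [hφ]
      have h6 : (ψ.symm ((0 : Fin s₁ → F), (0 : Fin c₁ → F))) = 0 := map_zero ψ.symm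
      simp [h6]

/-- An involution fixes nondegenerate subspaces of every even dimension and every type. -/
theorem invol_nondeg (h2 : (2 : F) ≠ 0) (Q : QuadraticForm F (ι' → F)) (hQ : PolarNondeg Q) (x : ↥(Cfsg.isometryGroup F ⇑Q)) (hx : x ^ 2 = 1)
    (hn : 3 ≤ Fintype.card ι') {m : ℕ} (hm2 : 2 ≤ m) (hme : Even m) (hmn : m + 1 ≤ Fintype.card ι') (τ' : Prop) :
    ∃ W : Submodule F (ι' → F), (finrank F W = m ∧ Cfsg.Geo.IsNondegenerateOn (polar (⇑Q)) W ∧ (Cfsg.Geo.IsPlusTypeOn (⇑Q) W ↔ τ')) ∧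
      ∀ w ∈ W, act x w ∈ W := by
  classical
  have hxx : ∀ v, act x (act x v) = v := by
    intro v
    rw [← act_mul, ← pow_two, hx, act_one]
  let A : Submodule F (ι' → F) :=
    { carrier := {v | act x v = v}
      add_mem' := fun {a b} ha hb => by
        show act x (a + b) = a + b
        rw [act_add, ha, hb]
      zero_mem' := act_zero x
      smul_mem' := fun c v hv => by
        show act x (c • v) = c • v
        rw [act_smul, hv] }
  let B : Submodule F (ι' → F) :=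
    { carrier := {v | act x v = -v}
      add_mem' := fun {a b} ha hb => by
        show act x (a + b) = -(a + b)
        rw [act_add, ha, hb, neg_add]
      zero_mem' := by
        show act x 0 = -0
        rw [act_zero, neg_zero]
      smul_mem' := fun c v hv => by
        show act x (c • v) = -(c • v)
        rw [act_smul, hv, smul_neg] }
  have hA : ∀ v, v ∈ A ↔ act x v = v := fun _ => Iff.rfl
  have hB : ∀ v, v ∈ B ↔ act x v = -v := fun _ => Iff.rfl
  have hs : A ⊔ B = ⊤ := by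
    rw [eq_top_iff]
    intro v _
    have h3 : v = (2 : F)⁻¹ • (v + act x v) + (2 : F)⁻¹ • (v - act x v) := by
      rw [← smul_add]
      have : v + act x v + (v - act x v) = (2 : F) • v := by
        rw [two_smul]
        abel
      rw [this, smul_smul, inv_mul_cancel₀ h2, one_smul]
    rw [h3]
    refine Submodule.add_mem _ (Submodule.mem_sup_left ?_) (Submodule.mem_sup_right ?_)
    · rw [hA, act_smul, act_add, hxx, add_comm]
    · rw [hB, act_smul, act_sub, hxx, ← smul_neg, neg_sub]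
  have horth : ∀ a ∈ A, ∀ b ∈ B, polar Q a b = 0 := by
    intro a ha b hb
    have h3 := polar_act x a b
    rw [(hA a).1 ha, (hB b).1 hb, polar_neg_right] at h3
    have h5 : (2 : F) * polar Q a b = 0 := by
      have h6 : polar Q a b = - polar Q a b := by
        simpa using h3.symm
      linear_combination h6
    exact (mul_eq_zero.1 h5).resolve_left h2
  have hinf : A ⊓ B = ⊥ := by
    rw [eq_bot_iff]
    intro v hv
    have h3 : v = -v := by
      have h4 := (hA v).1 hv.1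
      have h5 := (hB v).1 hv.2
      rw [h4] at h5
      exact h5
    have h5 : (2 : F) • v = 0 := by
      rw [two_smul]
      nth_rewrite 1 [h3]
      simp
    exact (Submodule.mem_bot F).2 ((smul_eq_zero.1 h5).resolve_left h2)
  have hdim : finrank F A + finrank F B = Fintype.card ι' := by
    have h3 := Submodule.finrank_sup_add_finrank_inf_eq A B
    rw [hs, hinf, finrank_top, Module.finrank_fintype_fun_eq_card, finrank_bot, add_zero] at h3
    exact h3.symm
  by_cases hdA : 2 ≤ finrank F A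
  · obtain ⟨W, h3, h4, h5, h6⟩ := exists_nondeg_of_orth h2 Q hQ hs horth hdA hm2 hme (by omega) τ'
    refine ⟨W, ⟨h3, h4, h5⟩, fun w hw => ?_⟩
    obtain ⟨a, ha, b, hb, haW, hbW, rfl⟩ := h6 w hw
    rw [act_add, (hA a).1 ha, (hB b).1 hb]
    exact W.add_mem haW (W.neg_mem hbW)
  · have hs' : B ⊔ A = ⊤ := by rw [sup_comm]; exact hs
    obtain ⟨W, h3, h4, h5, h6⟩ := exists_nondeg_of_orth h2 Q hQ hs'
      (fun b hb a ha => by rw [polar_comm]; exact horth a ha b hb) (by omega) hm2 hme (by omega) τ'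
    refine ⟨W, ⟨h3, h4, h5⟩, fun w hw => ?_⟩
    obtain ⟨b, hb, a, ha, hbW, haW, rfl⟩ := h6 w hw
    rw [act_add, (hA a).1 ha, (hB b).1 hb]
    exact W.add_mem (W.neg_mem hbW) haW

end Split

end Cfsg.Agent.Lib.Classical.OSemi.Invol
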