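import Mathlib
import Cfsg.Agent.Lib.Classical.OSemi.Coprime
import Cfsg.Agent.Lib.Classical.Elusive.NonSing

/-!
# Lagrangians in every characteristic
-/

set_option autoImplicit false
set_option linter.unusedSectionVars false
set_option linter.unusedSimpArgs false
set_option linter.unusedVariables false
set_option linter.style.haveILetI false
set_option maxHeartbeats 1000000

open Polynomial Module QuadraticMap Matrix
open Cfsg Cfsg.Agent.Lib.Classical.Herm.CycTuples Cfsg.Agent.Lib.Classical.Witt.Hyp Cfsg.Agent.Lib.Linalg.OrthModels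
open Cfsg.Agent.Lib.Classical.Herm.OrthEmbed Cfsg.Agent.Lib.Classical.Herm.OrthFinal Cfsg.Agent.Lib.Classical.Witt.Index
open Cfsg.Agent.Lib.Classical.Herm.OrthCount Cfsg.Agent.Lib.Linalg.Bridge
open Cfsg.Agent.Lib.Classical.OSemi.Lag Cfsg.Agent.Lib.Classical.OSemi.Decomp Cfsg.Agent.Lib.Classical.OSemi.SylowFix
open Cfsg.Agent.Lib.Classical.OSemi.OddForm Cfsg.Agent.Lib.Classical.OSemi.Split
open Cfsg.Agent.Lib.Classical.Witt.TS
open Cfsg.Agent.Lib.Classical.Orth.Basic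

namespace Cfsg.Agent.Lib.Classical.OSemi.LagFree

universe u

section Abstract

variable {F : Type u} [Field F] {W₁ W₂ : Type*} [AddCommGroup W₁] [Module F W₁] [AddCommGroup W₂] [Module F W₂]

theorem lag_congr {Q₁ : QuadraticForm F W₁} {Q₂ : QuadraticForm F W₂} (φ : W₁ ≃ₗ[F] W₂) (hφ : ∀ v, Q₂ (φ v) = Q₁ v)
    (h : Lag Q₁) : Lag Q₂ := by
  obtain ⟨X, hX, hd⟩ := h
  refine ⟨X.map (φ : W₁ →ₗ[F] W₂), ?_, ?_⟩
  · rintro _ ⟨x, hx, rfl⟩
    show Q₂ (φ x) = 0
    rw [hφ, hX x hx]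
  · rw [LinearEquiv.finrank_map_eq, hd, φ.finrank_eq]

theorem lag_congr_iff {Q₁ : QuadraticForm F W₁} {Q₂ : QuadraticForm F W₂} (φ : W₁ ≃ₗ[F] W₂) (hφ : ∀ v, Q₂ (φ v) = Q₁ v) :
    Lag Q₁ ↔ Lag Q₂ :=
  ⟨lag_congr φ hφ, lag_congr φ.symm (fun v => by
    rw [← hφ (φ.symm v), LinearEquiv.apply_symm_apply])⟩

variable [FiniteDimensional F W₁] [FiniteDimensional F W₂]

/-- The sum of two Lagrangians. -/
theorem lag_prod_of_lag {Q₁ : QuadraticForm F W₁} {Q₂ : QuadraticForm F W₂} (h₁ : Lag Q₁) (h₂ : Lag Q₂) : Lag (Q₁.prod Q₂) := by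
  obtain ⟨X₁, hX₁, hd₁⟩ := h₁
  obtain ⟨X₂, hX₂, hd₂⟩ := h₂
  let L : X₁ × X₂ →ₗ[F] W₁ × W₂ := LinearMap.prodMap X₁.subtype X₂.subtype
  have hL : Function.Injective L := by
    rintro ⟨a, b⟩ ⟨c, e⟩ h
    have h1 := congrArg Prod.fst h
    have h2 := congrArg Prod.snd h
    exact Prod.ext (Subtype.ext h1) (Subtype.ext h2)
  refine ⟨LinearMap.range L, ?_, ?_⟩
  · rintro _ ⟨⟨a, b⟩, rfl⟩
    show Q₁ (a : W₁) + Q₂ (b : W₂) = 0
    rw [hX₁ _ a.2, hX₂ _ b.2, add_zero]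
  · rw [LinearMap.finrank_range_of_inj hL, Module.finrank_prod, Module.finrank_prod, ← hd₁, ← hd₂]
    ring

/-- Cancelling a Lagrangian. -/
theorem lag_of_prod_left [Fintype F] {Q₁ : QuadraticForm F W₁} {Q₂ : QuadraticForm F W₂} (h₁ : PolarNondeg Q₁) (h₂ : PolarNondeg Q₂)
    (hL₁ : Lag Q₁) (hL : Lag (Q₁.prod Q₂)) : Lag Q₂ := by
  classical
  obtain ⟨L₁, hL₁s, hL₁d⟩ := hL₁
  obtain ⟨X, hX, hXd⟩ := hL
  rw [Module.finrank_prod] at hXd
  have hn : PolarNondeg (Q₁.prod Q₂) := polarNondeg_prod h₁ h₂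
  have hXts : IsTS (Q₁.prod Q₂) X := hX
  have hQQ : ∀ x, (Q₁.prod Q₂) x = Q₁ x.1 + Q₂ x.2 := fun x => rfl
  have hts₁ : IsTS Q₁ L₁ := hL₁s
  -- the two auxiliary subspaces
  let M : Submodule F (W₁ × W₂) := L₁.comap (LinearMap.fst F W₁ W₂)
  let L : Submodule F (W₁ × W₂) := M ⊓ LinearMap.ker (LinearMap.snd F W₁ W₂)
  have hM : ∀ v, v ∈ M ↔ v.1 ∈ L₁ := fun _ => Iff.rfl
  have hLm : ∀ v, v ∈ L ↔ v.1 ∈ L₁ ∧ v.2 = 0 := fun v => by
    show (v ∈ M ∧ v ∈ LinearMap.ker (LinearMap.snd F W₁ W₂)) ↔ _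
    rw [hM, LinearMap.mem_ker]
    rfl
  have hMd : finrank F M = finrank F L₁ + finrank F W₂ := by
    let φ : (L₁ × W₂) →ₗ[F] (W₁ × W₂) := LinearMap.prodMap L₁.subtype LinearMap.id
    have hφ : Function.Injective φ := by
      rintro ⟨a, b⟩ ⟨c, e⟩ h
      have h1 := congrArg Prod.fst h
      have h2 := congrArg Prod.snd h
      exact Prod.ext (Subtype.ext h1) h2
    have h1 : LinearMap.range φ = M := by
      ext v
      constructor
      · rintro ⟨⟨a, b⟩, rfl⟩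
        exact a.2
      · intro hv
        exact ⟨(⟨v.1, hv⟩, v.2), rfl⟩
    rw [← h1, LinearMap.finrank_range_of_inj hφ, Module.finrank_prod]
  -- the projection
  let Y : Submodule F (W₁ × W₂) := X ⊓ M
  let π : Y →ₗ[F] W₂ := LinearMap.snd F W₁ W₂ ∘ₗ Y.subtype
  have hrk := LinearMap.finrank_range_add_finrank_ker π
  have hker : finrank F (LinearMap.ker π) = finrank F ↥(X ⊓ L) := by
    let ψ : LinearMap.ker π →ₗ[F] (W₁ × W₂) := Y.subtype ∘ₗ (LinearMap.ker π).subtype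
    have hψ : Function.Injective ψ := by
      intro a b h
      exact Subtype.ext (Subtype.ext h)
    have h1 : LinearMap.range ψ = X ⊓ L := by
      ext v
      constructor
      · rintro ⟨a, rfl⟩
        have ha : ((a : Y) : W₁ × W₂).2 = 0 := a.2
        exact ⟨(a : Y).2.1, (hLm _).2 ⟨(a : Y).2.2, ha⟩⟩
      · rintro ⟨h1, h2⟩
        obtain ⟨h3, h4⟩ := (hLm v).1 h2
        exact ⟨⟨⟨v, h1, h3⟩, h4⟩, rfl⟩
    rw [← h1, LinearMap.finrank_range_of_inj hψ]
  have hZts : ∀ z ∈ LinearMap.range π, Q₂ z = 0 := by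
    rintro _ ⟨y, rfl⟩
    have h1 := hX _ y.2.1
    have h2 : Q₁ ((y : W₁ × W₂).1) = 0 := hL₁s _ y.2.2
    rw [hQQ, h2, zero_add] at h1
    exact h1
  have hZle : 2 * finrank F (LinearMap.range π) ≤ finrank F W₂ := IsTS.two_mul_finrank_le h₂ hZts
  have hsum := Submodule.finrank_sup_add_finrank_inf_eq X M
  -- the orthogonal of the sum
  have hBn := nondeg_of_polarNondeg _ hn
  have hperp := LinearMap.BilinForm.finrank_orthogonal hBn (X ⊔ M)
  rw [Module.finrank_prod] at hperp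
  have hle : X ⊓ L ≤ LinearMap.BilinForm.orthogonal (polarBilin (Q₁.prod Q₂)) (X ⊔ M) := by
    rintro v ⟨hv1, hv2⟩ w hw
    obtain ⟨a, ha, b, hb, rfl⟩ := Submodule.mem_sup.1 hw
    show polar (Q₁.prod Q₂) (a + b) v = 0
    rw [polar_add_left, hXts.polar_eq_zero ha hv1, zero_add]
    obtain ⟨h3, h4⟩ := (hLm v).1 hv2
    have h5 : b.1 ∈ L₁ := hb
    have h6 : polar (Q₁.prod Q₂) b v = polar Q₁ b.1 v.1 + polar Q₂ b.2 v.2 := by
      simp only [polar, hQQ, Prod.fst_add, Prod.snd_add]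
      ring
    rw [h6, h4, polar_zero_right, add_zero]
    exact hts₁.polar_eq_zero h5 h3
  have hle' := Submodule.finrank_mono hle
  have hXM : finrank F ↥(X ⊔ M) ≤ finrank F (W₁ × W₂) := Submodule.finrank_le _
  rw [Module.finrank_prod] at hXM
  refine ⟨LinearMap.range π, hZts, ?_⟩
  have hY : finrank F Y = finrank F ↥(X ⊓ M) := rfl
  have hrkπ : finrank F (LinearMap.range π) + finrank F ↥(X ⊓ L) = finrank F ↥(X ⊓ M) := by
    rw [← hker, ← hY]
    exact hrk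
  omega

end Abstract

section Sub

variable {ι' : Type} [Fintype ι'] [DecidableEq ι'] {F : Type u} [Field F]
variable {Q : QuadraticForm F (ι' → F)}

variable [Fintype F]

/-- An orthogonal decomposition and the type. -/
theorem lag_sup_iff {A B : Submodule F (ι' → F)} (hQ : PolarNondeg Q) (hs : A ⊔ B = ⊤) (hi : A ⊓ B = ⊥)
    (horth : ∀ a ∈ A, ∀ b ∈ B, polar Q a b = 0) (hL : Lag (Q.comp A.subtype)) : Lag Q ↔ Lag (Q.comp B.subtype) := by
  have hAn : PolarNondeg (Q.comp A.subtype) := nondeg_of_orth_sup hQ hs horth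
  have hBn : PolarNondeg (Q.comp B.subtype) := nondeg_of_orth_sup hQ (by rw [sup_comm]; exact hs)
    (fun b hb a ha => by rw [polar_comm]; exact horth a ha b hb)
  have hc : IsCompl A B := ⟨disjoint_iff.2 hi, codisjoint_iff.2 hs⟩
  let φ : (A × B) ≃ₗ[F] (ι' → F) := Submodule.prodEquivOfIsCompl A B hc
  have hφ : ∀ v : A × B, Q (φ v) = ((Q.comp A.subtype).prod (Q.comp B.subtype)) v := by
    intro v
    have h1 : φ v = (v.1 : ι' → F) + (v.2 : ι' → F) := rfl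
    rw [h1, Q_add, horth _ v.1.2 _ v.2.2, add_zero]
    rfl
  have h1 := lag_congr_iff φ hφ
  constructor
  · intro h
    exact lag_of_prod_left hAn hBn hL (h1.2 h)
  · intro h
    exact h1.1 (lag_prod_of_lag hL h)

/-- Embeddings in a nondegenerate form of even dimension. -/
theorem emb_even (hQ : PolarNondeg Q) {d : ℕ} (hcard : Fintype.card ι' = 2 * d) {W : Type*} [AddCommGroup W] [Module F W] [FiniteDimensional F W]
    (QW : QuadraticForm F W) (hQW : PolarNondeg QW) {N : ℕ} (hdim : finrank F W = N) (hN : N ≤ 2 * d) (hev : Even N)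
    (hfull : N = 2 * d → (Lag QW ↔ Lag Q)) :
    ∃ ι₀ : W →ₗ[F] (ι' → F), ∀ w, Q (ι₀ w) = QW w := by
  classical
  obtain ⟨w, hw⟩ := hev
  have hV : finrank F (ι' → F) = 2 * d := by
    rw [Module.finrank_fintype_fun_eq_card, hcard]
  rcases Nat.eq_zero_or_pos w with rfl | hw1
  · have hPs : Subsingleton W := (Module.finrank_zero_iff (R := F)).1 (by omega)
    exact ⟨0, fun v => by
      rw [Subsingleton.elim v 0]
      simp⟩
  by_cases hwd : w = d
  · subst hwd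
    obtain ⟨φ, hφ⟩ := exists_equiv_of_type hQW hQ hw1 (by omega) hV (hfull (by omega))
    exact ⟨φ, hφ⟩
  · have hlt : w < d := by omega
    rcases exists_isometry_plus_or_minus (m := d) (by omega) hV Q (nondeg_of_polarNondeg _ hQ) with ⟨g, hg⟩ | ⟨ζ, hζ, g, hg⟩
    · obtain ⟨ι₁, hι₁⟩ := exists_embed_plus QW (m := d) hQW (w := w) hw1 (by omega) hlt.le (fun h => absurd h hwd)
      refine ⟨(g.symm : _ →ₗ[F] _) ∘ₗ ι₁, fun v => ?_⟩
      have h1 := hg (g.symm (ι₁ v))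
      rw [LinearEquiv.apply_symm_apply, hι₁] at h1
      exact h1.symm
    · obtain ⟨ι₁, hι₁⟩ := exists_embed_minus QW (m := d - 1) hQW (w := w) hw1 (by omega) (by omega) (anisotropic_no_root hζ)
        (fun h => absurd (by omega : w = d) hwd)
      refine ⟨(g.symm : _ →ₗ[F] _) ∘ₗ ι₁, fun v => ?_⟩
      have h1 := hg (g.symm (ι₁ v))
      rw [LinearEquiv.apply_symm_apply, hι₁] at h1
      exact h1.symm

/-- Elements of odd order lie in `Ω`, in every characteristic. -/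
theorem mem_omega_of_odd_order {p : ℕ} [Fact p.Prime] [CharP F p] (hQ : PolarNondeg Q) (hcard : Fintype.card ι' ≠ 4) (hne : Nonempty ι')
    (g : ↥(Cfsg.isometryGroup F ⇑Q)) {r : ℕ} (hr : Odd r) (hg : g ^ r = 1) : g ∈ Cfsg.Omega F ⇑Q := by
  by_cases h2 : (2 : F) = 0
  · have hp : p = 2 := by
      have h3 : ((2 : ℕ) : F) = 0 := by exact_mod_cast h2
      rw [CharP.cast_eq_zero_iff F p] at h3
      exact (Nat.prime_dvd_prime_iff_eq Fact.out Nat.prime_two).1 h3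
    subst hp
    exact Cfsg.Agent.Lib.Classical.Elusive.NonSing.mem_omega_of_odd Q (nondeg_of_polarNondeg _ hQ) (Or.inr hcard) hne g hr hg
  · exact Cfsg.Agent.Lib.Classical.Spectra.Bridge.mem_omega_of_odd Q (nondeg_of_polarNondeg _ hQ) h2 hr hg

end Sub

end Cfsg.Agent.Lib.Classical.OSemi.LagFree
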