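import Mathlib
import Cfsg.Agent.Lib.Classical.OSemi.Invol

/-!
# The clauses for nondegenerate subspaces of the odd dimensional form
-/

set_option autoImplicit false
set_option linter.unusedSectionVars false
set_option linter.unusedSimpArgs false
set_option linter.unusedVariables false
set_option linter.style.haveILetI false
set_option maxHeartbeats 1000000

open Polynomial Module QuadraticMap Matrix
open Cfsg Cfsg.Agent.Lib.Classical.Witt.Hyp Cfsg.Agent.Lib.Linalg.OrthModels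
open Cfsg.Agent.Lib.Classical.OSemi.Lag Cfsg.Agent.Lib.Classical.OSemi.OddForm Cfsg.Agent.Lib.Classical.OSemi.Coprime
open Cfsg.Agent.Lib.Classical.OSemi.Decomp
open Cfsg.Agent.Lib.Classical.Elusive.Inv Cfsg.Agent.Lib.Classical.Elusive.JordanType
open Cfsg.Agent.Lib.Classical.OJordan.Model Cfsg.Agent.Lib.Classical.OJordan.Plus
open Cfsg.Agent.Lib.Classical.OJordan.Pipeline Cfsg.Agent.Lib.Classical.OJordan.Combi

namespace Cfsg.Agent.Lib.Classical.OSemi.Clause

universe u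

section Semi

variable {F : Type u} [Field F] [Fintype F] {p : ℕ} [Fact p.Prime] [CharP F p] {q r i : ℕ} [Fact r.Prime]

theorem mod_pos_of_even {c n : ℕ} (hn : Odd n) (hc : Even c) : 0 < n % c := by
  have h1 : n % c % 2 = n % 2 := Nat.mod_mod_of_dvd n hc.two_dvd
  rw [Nat.odd_iff] at hn
  omega

theorem c_pos {i c : ℕ} (hi0 : 0 < i) (hc : c = if Even i then i else 2 * i) : 0 < c := by
  split_ifs at hc <;> omega

theorem c_even {i c : ℕ} (hc : c = if Even i then i else 2 * i) : Even c := by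
  split_ifs at hc with h
  · rw [hc]
    exact h
  · rw [hc]
    exact even_two_mul i

/-- The clause for the nondegenerate subspaces of type `τ'`, for odd `r ≠ p`. -/
theorem nondeg_clause (hF : Fintype.card F = q) (hr2 : r ≠ 2) (hrp : r ≠ p) (h2 : (2 : F) ≠ 0) (hi : i = orderOf (q : ZMod r))
    (d : ℕ) {m : ℕ} (hm2 : 2 ≤ m) (hme : Even m) (hmn : m ≤ 2 * d) {c : ℕ} (hc : c = if Even i then i else 2 * i) (τ' : Prop)
    (hrΩ : r ∣ Nat.card {W : Submodule F (Unit ⊕ (Fin d ⊕ Fin d) → F) // finrank F W = m ∧ Cfsg.Geo.IsNondegenerateOn (polar ⇑(oddQ d F)) W ∧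
      (Cfsg.Geo.IsPlusTypeOn ⇑(oddQ d F) W ↔ τ')}) :
    (∀ x : ↥(Cfsg.isometryGroup F ⇑(oddQ d F)), x ∈ Cfsg.Omega F ⇑(oddQ d F) → orderOf x = r →
      ∃ U : Submodule F (Unit ⊕ (Fin d ⊕ Fin d) → F), finrank F U = m ∧ Cfsg.Geo.IsNondegenerateOn (polar ⇑(oddQ d F)) U ∧
      (Cfsg.Geo.IsPlusTypeOn ⇑(oddQ d F) U ↔ τ') ∧
      U.map (Matrix.toLin' ((x : GL (Unit ⊕ (Fin d ⊕ Fin d)) F) : Matrix (Unit ⊕ (Fin d ⊕ Fin d)) (Unit ⊕ (Fin d ⊕ Fin d)) F)) ≤ U) ↔
    (c ≤ m ∧ m % c < (2 * d + 1) % c ∧ (m % c = 0 → (τ' ↔ (¬ Even i ∨ Even (m / c))))) := by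
  obtain ⟨t, D, ⟨H⟩, ht, ht0, hi0⟩ := exists_setup hF hr2 hrp hi
  have hcpos : 0 < c := c_pos hi0 hc
  constructor
  · intro hH
    have hcm : c ≤ m := by
      by_contra hlt
      push Not at hlt
      have hmod : m % c = m := Nat.mod_eq_of_lt hlt
      have hi1 : i ≠ 1 := by
        rintro rfl
        have h3 : c = 2 := by simpa using hc
        omega
      by_cases hk : m < (2 * d + 1) % c
      · exact not_dvd_nondeg hF hrp h2 hi hi1 d hc hcpos hm2 hme hk τ' hrΩ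
      · have hK : 0 < (2 * d + 1) / c := by
          by_contra h0
          have h1 : (2 * d + 1) / c = 0 := Nat.eq_zero_of_not_pos h0
          rw [Nat.div_eq_zero_iff] at h1
          rcases h1 with h1 | h1
          · omega
          · rw [Nat.mod_eq_of_lt h1] at hk
            omega
        have h3 := (semis_forward H ht0 hF hr2 hrp h2 d hc hme τ' hK hH).1
        rw [hmod] at h3
        exact hk h3
    have hK : 0 < (2 * d + 1) / c := Nat.div_pos (by omega) hcpos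
    obtain ⟨h3, h4⟩ := semis_forward H ht0 hF hr2 hrp h2 d hc hme τ' hK hH
    exact ⟨hcm, h3, h4⟩
  · rintro ⟨_, h1, h3⟩ x _ hx
    exact semis_backward H hF hr2 hrp h2 d hc hme hmn τ' (fun _ => h1) h3 x hx

end Semi

section Unip

variable {ι : Type} [Fintype ι] [DecidableEq ι] {F : Type*} [Field F] [Fintype F] {p : ℕ} [Fact p.Prime] [CharP F p]
variable (Q : QuadraticForm F (ι → F))

theorem parts_two {a e : ℕ} (ha : Odd a) {ν : Multiset ℕ} (hle : ν ≤ a ::ₘ Multiset.replicate e 2) (hs : Even ν.sum) :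
    ∃ k, ν = Multiset.replicate k 2 := by
  by_cases hmem : a ∈ ν
  · exfalso
    obtain ⟨t, rfl⟩ := Multiset.exists_cons_of_mem hmem
    rw [Multiset.cons_le_cons_iff, Multiset.le_replicate_iff] at hle
    obtain ⟨k, -, rfl⟩ := hle
    rw [Multiset.sum_cons, Multiset.sum_replicate] at hs
    obtain ⟨b, hb⟩ := ha
    obtain ⟨c, hc⟩ := hs
    simp at hc
    omega
  · have h1 : ν ≤ Multiset.replicate e 2 := (Multiset.le_cons_of_notMem hmem).1 hle
    obtain ⟨k, -, h3⟩ := Multiset.le_replicate_iff.1 h1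
    exact ⟨k, h3⟩

/-- An unipotent element all of whose invariant nondegenerate subspaces of even dimension are hyperbolic. -/
theorem not_all_elliptic (hQ : (polarBilin Q).Nondegenerate) (h2F : (2 : F) ≠ 0) (hpo : Odd p) (hp1 : 1 < p)
    {m a e : ℕ} (hme : Even m) (ha : Odd a) (ha0 : a ≤ p) (he : 0 < e)
    (H : ∀ x : GL ι F, x ∈ Cfsg.Geo.omegaGL (⇑Q) → x ^ p = 1 → (∀ z : F, (x : Matrix ι ι F) ≠ z • (1 : Matrix ι ι F)) →
      ∃ W : Submodule F (ι → F), (finrank F W = m ∧ Cfsg.Geo.IsNondegenerateOn (polar (⇑Q)) W ∧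
        ¬ Cfsg.Geo.IsPlusTypeOn (⇑Q) W) ∧ W.map (Matrix.toLin' (x : Matrix ι ι F)) ≤ W)
    (hT : HasType Q (a ::ₘ Multiset.replicate e 2)) : False := by
  classical
  have hp3 : 3 ≤ p := by
    obtain ⟨c, hc⟩ := hpo
    omega
  obtain ⟨ν, hle, hs, hpar, hpos, N, W, hWm, hWnd, hPW, hNW, hIso, hType⟩ := pipeline Q hQ h2F hpo
    (fun W => ¬ Cfsg.Geo.IsPlusTypeOn (⇑Q) W) H (μ := a ::ₘ Multiset.replicate e 2)
    (by
      intro x hx
      rw [Multiset.mem_cons, Multiset.mem_replicate] at hx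
      obtain ⟨b, hb⟩ := ha
      rcases hx with rfl | ⟨-, rfl⟩ <;> omega)
    ⟨2, by
      rw [Multiset.mem_cons, Multiset.mem_replicate]
      exact Or.inr ⟨by omega, rfl⟩, le_rfl⟩ hT
  obtain ⟨k, hk⟩ := parts_two ha hle (by rw [hs]; exact hme)
  apply hPW
  have hν2 : ∀ x ∈ ν, x = 2 := by
    intro x hx
    rw [hk, Multiset.mem_replicate] at hx
    exact hx.2
  have hνeq : ν = Multiset.replicate (Multiset.card ν) 2 := Multiset.eq_replicate.2 ⟨rfl, hν2⟩
  have hg2 : gg ν 2 = 0 := gg_eq_zero (fun e he => (hν2 e he).le)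
  have hN2 : ∀ w ∈ W, N (N w) = 0 := by
    intro w hw
    have h5 := hType 2
    rw [hg2] at h5
    have h6 := Submodule.finrank_eq_zero.1 h5
    have h7 : (N ^ 2) w ∈ W.map (N ^ 2) := ⟨w, hw, rfl⟩
    rw [h6] at h7
    rw [pow_two, Module.End.mul_apply] at h7
    exact h7
  have hg1 : gg ν 1 = Multiset.card ν := by
    rw [hνeq]
    simp [gg]
  have hsum : ν.sum = 2 * Multiset.card ν := by
    conv_lhs => rw [hνeq]
    simp
    ring
  have hT1 : ∀ x, Q (x + N x) = Q x := hIso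
  have hpol : ∀ x y, polar (⇑Q) (x + N x) (y + N y) = polar (⇑Q) x y := by
    intro x y
    have e : x + N x + (y + N y) = (x + y) + N (x + y) := by
      rw [map_add]
      abel
    rw [polar, polar, e, hT1, hT1, hT1]
  refine ⟨W.map N, ?_, ?_, ?_⟩
  · rintro _ ⟨w, hw, rfl⟩
    exact hNW w hw
  · rintro _ ⟨w, hw, rfl⟩
    have h5 := hpol w (N w)
    rw [hN2 w hw, add_zero, polar_add_left, add_eq_left, QuadraticMap.polar_self] at h5
    have h6 : (2 : F) * Q (N w) = 0 := by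
      simpa using h5
    exact (mul_eq_zero.1 h6).resolve_left h2F
  · have h5 := hType 1
    rw [pow_one, hg1] at h5
    have h6 := finrank_eq_sum_of_type hType
    rw [h5, h6, hsum]

/-- There is an element of order `p` fixing no elliptic subspace. -/
theorem not_all_elliptic_odd (h2F : (2 : F) ≠ 0) (hpo : Odd p) (hp1 : 1 < p) {d m : ℕ} (hd : 3 ≤ d) (hme : Even m)
    (H : ∀ x : GL (Unit ⊕ (Fin d ⊕ Fin d)) F, x ∈ Cfsg.Geo.omegaGL ⇑(oddQ d F) → orderOf x = p →
      ∃ W : Submodule F (Unit ⊕ (Fin d ⊕ Fin d) → F), (finrank F W = m ∧ Cfsg.Geo.IsNondegenerateOn (polar ⇑(oddQ d F)) W ∧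
        ¬ Cfsg.Geo.IsPlusTypeOn ⇑(oddQ d F) W) ∧ W.map (Matrix.toLin' (x : Matrix (Unit ⊕ (Fin d ⊕ Fin d)) (Unit ⊕ (Fin d ⊕ Fin d)) F)) ≤ W) : False := by
  have hp3 : 3 ≤ p := by
    obtain ⟨c, hc⟩ := hpo
    omega
  have hQ : (polarBilin (oddQ d F)).Nondegenerate := nondeg_of_polarNondeg _ (polarNondeg_oddQ d h2F)
  have hcard : finrank F (Unit ⊕ (Fin d ⊕ Fin d) → F) = 2 * d + 1 := by
    rw [Module.finrank_fintype_fun_eq_card]
    simp
    ring
  have H' : ∀ x : GL (Unit ⊕ (Fin d ⊕ Fin d)) F, x ∈ Cfsg.Geo.omegaGL ⇑(oddQ d F) → x ^ p = 1 → (∀ z : F, (x : Matrix (Unit ⊕ (Fin d ⊕ Fin d)) (Unit ⊕ (Fin d ⊕ Fin d)) F) ≠ z • (1 : Matrix (Unit ⊕ (Fin d ⊕ Fin d)) (Unit ⊕ (Fin d ⊕ Fin d)) F)) →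
      ∃ W : Submodule F (Unit ⊕ (Fin d ⊕ Fin d) → F), (finrank F W = m ∧ Cfsg.Geo.IsNondegenerateOn (polar ⇑(oddQ d F)) W ∧
        ¬ Cfsg.Geo.IsPlusTypeOn ⇑(oddQ d F) W) ∧ W.map (Matrix.toLin' (x : Matrix (Unit ⊕ (Fin d ⊕ Fin d)) (Unit ⊕ (Fin d ⊕ Fin d)) F)) ≤ W := by
    intro x hx hxp hxs
    refine H x hx (orderOf_eq_prime hxp ?_)
    rintro rfl
    exact hxs 1 (by simp)
  have key : ∀ a e : ℕ, Odd a → a ≤ p → 0 < e → Even e → a + 2 * e = 2 * d + 1 → False := by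
    intro a e ha hap he hev hsum
    refine not_all_elliptic (oddQ d F) hQ h2F hpo hp1 hme ha hap he H' ?_
    apply hasType_odd h2F _ hQ (by rw [hcard]; exact ⟨d, rfl⟩)
    · intro x hx
      rw [Multiset.mem_cons, Multiset.mem_replicate] at hx
      obtain ⟨b, hb⟩ := ha
      rcases hx with rfl | ⟨-, rfl⟩ <;> omega
    · rw [hcard, Multiset.sum_cons, Multiset.sum_replicate, ← hsum]
      simp
      ring
    · intro x hx
      rw [Multiset.count_cons, Multiset.count_replicate]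
      have hxa : x ≠ a := by
        rintro rfl
        exact (Nat.not_even_iff_odd.2 ha) hx
      simp only [if_neg hxa, add_zero]
      split_ifs
      · exact hev
      · exact Even.zero
  rcases Nat.even_or_odd d with hde | hdo
  · exact key 1 d odd_one (by omega) (by omega) hde (by omega)
  · have hev : Even (d - 1) := by
      obtain ⟨b, hb⟩ := hdo
      exact ⟨b, by omega⟩
    exact key 3 (d - 1) (by decide) hp3 (by omega) hev (by omega)

end Unip

end Cfsg.Agent.Lib.Classical.OSemi.Clause
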