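import Mathlib
import Cfsg.Agent.Lib.Classical.OSemi.Clause
import Cfsg.Agent.Lib.Classical.Orth.Spinor

/-!
# Totally singular subspaces of the odd dimensional form, for involutions
-/

set_option autoImplicit false
set_option linter.unusedSectionVars false
set_option linter.unusedSimpArgs false
set_option linter.unusedVariables false
set_option linter.style.haveILetI false
set_option maxHeartbeats 1000000

open Polynomial Module QuadraticMap Matrix
open Cfsg Cfsg.Agent.Lib.Classical.Witt.Hyp Cfsg.Agent.Lib.Linalg.OrthModels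
open Cfsg.Agent.Lib.Classical.OSemi.Lag Cfsg.Agent.Lib.Classical.OSemi.Decomp Cfsg.Agent.Lib.Classical.OSemi.SylowFix
open Cfsg.Agent.Lib.Classical.Witt.TS
open Cfsg.Agent.Lib.Classical.Orth.Basic Cfsg.Agent.Lib.Classical.Orth.Spinor

namespace Cfsg.Agent.Lib.Classical.OSemi.SingInvol

universe u

section Ts

variable {F : Type u} [Field F] [Fintype F] {V : Type*} [AddCommGroup V] [Module F V] [FiniteDimensional F V]

theorem sep_of_polar (h2 : (2 : F) ≠ 0) [Invertible (2 : F)] (Q : QuadraticForm F V) (hQ : PolarNondeg Q) :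
    (associated (R := F) Q).SeparatingLeft := by
  intro x hx
  apply hQ
  intro y
  have := hx y
  rw [associated_apply] at this
  show polar Q x y = 0
  have h3 : Q (x + y) - Q x - Q y = 0 := by
    have h4 : (⅟2 : F) * (Q (x + y) - Q x - Q y) = 0 := this
    have h5 : (⅟2 : F) ≠ 0 := by
      intro h6
      have h7 := mul_invOf_self (2 : F)
      rw [h6, mul_zero] at h7
      exact zero_ne_one h7
    exact (mul_eq_zero.1 h4).resolve_left h5
  exact h3

/-- Nondegenerate forms have totally singular subspaces of every dimension under half the dimension. -/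
theorem exists_ts_of_lt (h2 : (2 : F) ≠ 0) (Q₀ : QuadraticForm F V) (hn : PolarNondeg Q₀) {j : ℕ} (hj : 2 * j < finrank F V) :
    ∃ X : Submodule F V, finrank F X = j ∧ ∀ x ∈ X, Q₀ x = 0 := by
  classical
  obtain ⟨c, hc⟩ : ∃ c, finrank F V = (2 * j + 1) + c := ⟨finrank F V - (2 * j + 1), by omega⟩
  obtain ⟨Q₁, Q₂, h1, h3, ψ, hψ⟩ := Cfsg.Agent.Lib.Classical.OJordan.Model.exists_split h2 Q₀ (nondeg_of_polarNondeg _ hn) hc
  have hP : finrank F (Fin j ⊕ Fin j → F) = 2 * j := by
    rw [Module.finrank_fintype_fun_eq_card]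
    simp [Fintype.card_sum]
    ring
  obtain ⟨ι₀, hι₀⟩ := exists_embed_in_odd h2 (polarNondeg_of_nondeg _ h1) (s := j) (by rw [Module.finrank_fin_fun])
    (polarNondeg_plusQ (F := F) j) hP le_rfl
  let φ : (Fin j ⊕ Fin j → F) →ₗ[F] V := ψ.symm.toLinearMap ∘ₗ LinearMap.inl F _ _ ∘ₗ ι₀
  have hφ : ∀ v, Q₀ (φ v) = plusQ j F v := by
    intro v
    have h5 := hψ (φ v)
    have h6 : ψ (φ v) = (ι₀ v, 0) := by
      show ψ (ψ.symm (ι₀ v, 0)) = _
      rw [LinearEquiv.apply_symm_apply]
    rw [h6, one_mul, QuadraticMap.prod_apply, hι₀, QuadraticMap.map_zero, add_zero] at h5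
    exact h5
  have hinj : Function.Injective φ := by
    rw [injective_iff_map_eq_zero]
    intro v hv
    apply polarNondeg_plusQ (F := F) j v
    intro y
    have h5 : polar (plusQ j F) v y = polar Q₀ (φ v) (φ y) := by
      simp only [polar, ← map_add, hφ]
    rw [h5, hv]
    simp
  obtain ⟨X₀, hX₀, hXd⟩ := lag_plusQ (F := F) j
  rw [hP] at hXd
  refine ⟨X₀.map φ, ?_, ?_⟩
  · rw [← (Submodule.equivMapOfInjective φ hinj X₀).finrank_eq]
    omega
  · rintro _ ⟨x, hx, rfl⟩
    rw [hφ, hX₀ x hx]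

end Ts

section Refl

variable {ι' : Type} [Fintype ι'] [DecidableEq ι'] {F : Type u} [Field F]
variable (Q : QuadraticForm F (ι' → F))

/-- Products of reflections in orthogonal vectors. -/
theorem refl_prod (vs : List (ι' → F)) (hp : vs.Pairwise (fun u v => polar (⇑Q) u v = 0)) (hne : ∀ v ∈ vs, Q v ≠ 0) :
    (∀ y, (∀ v ∈ vs, polar (⇑Q) v y = 0) → (vs.map (fun v => Cfsg.reflectionMatrix (⇑Q) v)).prod *ᵥ y = y) ∧
    (∀ u ∈ vs, (vs.map (fun v => Cfsg.reflectionMatrix (⇑Q) v)).prod *ᵥ u = -u) := by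
  induction vs with
  | nil => simp
  | cons v vs ih =>
    rw [List.pairwise_cons] at hp
    obtain ⟨h1, h3⟩ := ih hp.2 (fun w hw => hne w (List.mem_cons_of_mem _ hw))
    simp only [List.map_cons, List.prod_cons]
    constructor
    · intro y hy
      rw [← Matrix.mulVec_mulVec, h1 y (fun w hw => hy w (List.mem_cons_of_mem _ hw)), reflectionMatrix_mulVec, hy v List.mem_cons_self]
      simp
    · intro u hu
      rw [← Matrix.mulVec_mulVec]
      rcases List.mem_cons.1 hu with rfl | hu'
      · rw [h1 u (fun w hw => by rw [polar_comm]; exact hp.1 w hw), reflectionMatrix_mulVec_self Q u (hne u List.mem_cons_self)]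
      · rw [h3 u hu', reflectionMatrix_mulVec, polar_neg_right, hp.1 u hu']
        simp

theorem iso_ext {g g' : ↥(Cfsg.isometryGroup F ⇑Q)} (h : ∀ y, act g y = act g' y) : g = g' := by
  apply Subtype.ext
  apply Units.ext
  apply Matrix.toLin'.injective
  apply LinearMap.ext
  intro y
  exact h y

variable [Fintype F]

/-- The `-1` eigenspace of an involution of `Ω`. -/
theorem minus_facts (h2 : (2 : F) ≠ 0) (hQ : PolarNondeg Q) (x : ↥(Cfsg.isometryGroup F ⇑Q)) (hxΩ : x ∈ Cfsg.Omega F ⇑Q)
    {A B : Submodule F (ι' → F)} (hA : ∀ v, v ∈ A ↔ act x v = v) (hB : ∀ v, v ∈ B ↔ act x v = -v) (hs : A ⊔ B = ⊤)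
    (horth : ∀ a ∈ A, ∀ b ∈ B, polar Q a b = 0) :
    Even (finrank F B) ∧ (IsSquare (-1 : F) → Lag (Q.comp B.subtype)) := by
  classical
  haveI : Invertible (2 : F) := invertibleOfNonzero h2
  have hBn : PolarNondeg (Q.comp B.subtype) := nondeg_of_orth_sup hQ (by rw [sup_comm]; exact hs)
    (fun b hb a ha => by rw [polar_comm]; exact horth a ha b hb)
  obtain ⟨w, ⟨e⟩⟩ := QuadraticForm.equivalent_weightedSumSquares_units_of_nondegenerate' (Q.comp B.subtype) (sep_of_polar h2 _ hBn)
  obtain ⟨N, hN⟩ : ∃ N, N = finrank F B := ⟨_, rfl⟩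
  let b : Basis (Fin (finrank F B)) F B := (Pi.basisFun F (Fin (finrank F B))).map e.symm.toLinearEquiv
  have hbj : ∀ j, b j = e.symm (Pi.single j 1) := by
    intro j
    simp only [b, Module.Basis.map_apply, Pi.basisFun_apply]
    rfl
  have hbe : ∀ j, e (b j) = Pi.single j 1 := by
    intro j
    rw [hbj]
    exact e.apply_symm_apply _
  have hwq : ∀ z z' : Fin (finrank F B) → F, polar (Q.comp B.subtype) (e.symm z) (e.symm z') = ∑ k, 2 * ((w k : Fˣ) : F) * (z k * z' k) := by
    intro z z'
    have h3 : ∀ y, (Q.comp B.subtype) (e.symm y) = ∑ k, ((w k : Fˣ) : F) * (y k * y k) := by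
      intro y
      rw [← e.map_app (e.symm y), e.apply_symm_apply, weightedSumSquares_apply]
      simp [Units.smul_def]
    rw [polar, ← map_add, h3, h3, h3, ← Finset.sum_sub_distrib, ← Finset.sum_sub_distrib]
    refine Finset.sum_congr rfl fun k _ => ?_
    simp only [Pi.add_apply]
    ring
  have hpolb : ∀ i j, polar (Q.comp B.subtype) (b i) (b j) = if i = j then 2 * ((w i : Fˣ) : F) else 0 := by
    intro i j
    have h3 := hwq (Pi.single i 1) (Pi.single j 1)
    rw [hbj, hbj, h3]
    by_cases hij : i = j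
    · subst hij
      rw [if_pos rfl, Finset.sum_eq_single i]
      · simp
      · intro k _ hk
        simp [Pi.single_apply, hk]
      · intro h0
        exact absurd (Finset.mem_univ _) h0
    · rw [if_neg hij]
      apply Finset.sum_eq_zero
      intro k _
      by_cases hki : k = i
      · subst hki
        simp [Pi.single_apply, hij]
      · simp [Pi.single_apply, hki]
  have hQb : ∀ j, Q ((b j : B) : ι' → F) = ((w j : Fˣ) : F) := by
    intro j
    have h3 : (Q.comp B.subtype) (b j) = ((w j : Fˣ) : F) := by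
      rw [← e.map_app (b j), hbe, weightedSumSquares_apply, Finset.sum_eq_single j]
      · simp [Units.smul_def]
      · intro k _ hk
        simp [Pi.single_apply, hk]
      · intro h0
        exact absurd (Finset.mem_univ _) h0
    exact h3
  let vs : List (ι' → F) := List.ofFn (fun j => ((b j : B) : ι' → F))
  have hvsB : ∀ v ∈ vs, v ∈ B := by
    intro v hv
    obtain ⟨j, rfl⟩ := (List.mem_ofFn' _ _).1 hv
    exact (b j).2
  have hne : ∀ v ∈ vs, Q v ≠ 0 := by
    intro v hv
    obtain ⟨j, rfl⟩ := (List.mem_ofFn' _ _).1 hv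
    rw [hQb]
    exact Units.ne_zero _
  have hp : vs.Pairwise (fun u v => polar (⇑Q) u v = 0) := by
    refine List.pairwise_ofFn.2 fun i j hij => ?_
    have h3 := hpolb i j
    rw [if_neg hij.ne, polar_comp_subtype] at h3
    exact h3
  obtain ⟨h3, h4⟩ := refl_prod Q vs hp hne
  have hg : ((x : GL ι' F) : Matrix ι' ι' F) = (vs.map (fun v => Cfsg.reflectionMatrix (⇑Q) v)).prod := by
    apply Matrix.toLin'.injective
    apply LinearMap.ext
    intro y
    have hy : y ∈ A ⊔ B := by
      rw [hs]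
      trivial
    obtain ⟨a, ha, c, hc, rfl⟩ := Submodule.mem_sup.1 hy
    rw [map_add, map_add]
    congr 1
    · have h5 := h3 a (fun v hv => by
        rw [polar_comm]
        exact horth a ha v (hvsB v hv))
      rw [Matrix.toLin'_apply, Matrix.toLin'_apply, h5]
      exact (hA a).1 ha
    · have h5 := (hB c).1 hc
      have h6 : act x c = ((x : GL ι' F) : Matrix ι' ι' F) *ᵥ c := rfl
      rw [Matrix.toLin'_apply, Matrix.toLin'_apply, ← h6, h5]
      let L₁ : B →ₗ[F] (ι' → F) := ((vs.map (fun v => Cfsg.reflectionMatrix (⇑Q) v)).prod).mulVecLin ∘ₗ B.subtype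
      let L₂ : B →ₗ[F] (ι' → F) := -B.subtype
      have hL : L₁ = L₂ := by
        apply b.ext
        intro j
        exact h4 _ ((List.mem_ofFn' _ _).2 ⟨j, rfl⟩)
      have h7 := congrArg (fun L : B →ₗ[F] (ι' → F) => L ⟨c, hc⟩) hL
      exact h7.symm
  have hmem := (mem_omega_iff_list Q (nondeg_of_polarNondeg _ hQ) h2 vs hne x hg).1 hxΩ
  obtain ⟨h5, h6⟩ := hmem
  have hlen : vs.length = finrank F B := List.length_ofFn
  rw [hlen] at h5
  refine ⟨h5, fun hsq => ?_⟩
  have hprod : (vs.map (fun v => Q v)).prod = ∏ j, ((w j : Fˣ) : F) := by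
    rw [List.map_ofFn, List.prod_ofFn]
    exact Finset.prod_congr rfl fun j _ => hQb j
  rw [hprod] at h6
  obtain ⟨e', he'⟩ := h5
  rw [lag_iff_disc h2 hBn (m := e') (by omega) b]
  have hG : (Matrix.of fun i j => polar (Q.comp B.subtype) (b i) (b j)) = Matrix.diagonal (fun j => 2 * ((w j : Fˣ) : F)) := by
    ext i j
    rw [Matrix.of_apply, hpolb, Matrix.diagonal_apply]
  rw [hG, Matrix.det_diagonal, Finset.prod_mul_distrib, Finset.prod_const, Finset.card_univ, Fintype.card_fin]
  refine (hsq.pow _).mul (IsSquare.mul ?_ h6)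
  rw [he']
  exact ⟨2 ^ e', by ring⟩

/-- An involution of `Ω` in odd dimension fixes totally singular subspaces. -/
theorem sing_invol (h2 : (2 : F) ≠ 0) (hQ : PolarNondeg Q) {d : ℕ} (hcard : Fintype.card ι' = 2 * d + 1) (x : ↥(Cfsg.isometryGroup F ⇑Q))
    (hxΩ : x ∈ Cfsg.Omega F ⇑Q) (hx : x ^ 2 = 1) {m : ℕ} (hmd : m ≤ d) (hcl : m < d ∨ IsSquare (-1 : F)) :
    ∃ U : Submodule F (ι' → F), finrank F U = m ∧ (∀ u ∈ U, Q u = 0) ∧ ∀ w ∈ U, act x w ∈ U := by
  classical
  have hxx : ∀ v, act x (act x v) = v := by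
    intro v
    rw [← act_mul, ← pow_two, hx, act_one]
  let A : Submodule F (ι' → F) :=
    { carrier := {v | act x v = v}
      add_mem' := fun {a b} ha hb => by
        show act x (a + b) = a + b
        rw [act_add, ha, hb]
      zero_mem' := act_zero x
      smul_mem' := fun c v hv => by
        show act x (c • v) = c • v
        rw [act_smul, hv] }
  let B : Submodule F (ι' → F) :=
    { carrier := {v | act x v = -v}
      add_mem' := fun {a b} ha hb => by
        show act x (a + b) = -(a + b)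
        rw [act_add, ha, hb, neg_add]
      zero_mem' := by
        show act x 0 = -0
        rw [act_zero, neg_zero]
      smul_mem' := fun c v hv => by
        show act x (c • v) = -(c • v)
        rw [act_smul, hv, smul_neg] }
  have hA : ∀ v, v ∈ A ↔ act x v = v := fun _ => Iff.rfl
  have hB : ∀ v, v ∈ B ↔ act x v = -v := fun _ => Iff.rfl
  have hs : A ⊔ B = ⊤ := by
    rw [eq_top_iff]
    intro v _
    have h3 : v = (2 : F)⁻¹ • (v + act x v) + (2 : F)⁻¹ • (v - act x v) := by
      rw [← smul_add]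
      have : v + act x v + (v - act x v) = (2 : F) • v := by
        rw [two_smul]
        abel
      rw [this, smul_smul, inv_mul_cancel₀ h2, one_smul]
    rw [h3]
    refine Submodule.add_mem _ (Submodule.mem_sup_left ?_) (Submodule.mem_sup_right ?_)
    · rw [hA, act_smul, act_add, hxx, add_comm]
    · rw [hB, act_smul, act_sub, hxx, ← smul_neg, neg_sub]
  have horth : ∀ a ∈ A, ∀ b ∈ B, polar Q a b = 0 := by
    intro a ha b hb
    have h3 := polar_act x a b
    rw [(hA a).1 ha, (hB b).1 hb, polar_neg_right] at h3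
    have h5 : (2 : F) * polar Q a b = 0 := by
      have h6 : polar Q a b = - polar Q a b := by
        simpa using h3.symm
      linear_combination h6
    exact (mul_eq_zero.1 h5).resolve_left h2
  have hinf : A ⊓ B = ⊥ := by
    rw [eq_bot_iff]
    intro v hv
    have h3 : v = -v := by
      have h4 := (hA v).1 hv.1
      have h5 := (hB v).1 hv.2
      rw [h4] at h5
      exact h5
    have h5 : (2 : F) • v = 0 := by
      rw [two_smul]
      nth_rewrite 1 [h3]
      simp
    exact (Submodule.mem_bot F).2 ((smul_eq_zero.1 h5).resolve_left h2)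
  have hdim : finrank F A + finrank F B = 2 * d + 1 := by
    have h3 := Submodule.finrank_sup_add_finrank_inf_eq A B
    rw [hs, hinf, finrank_top, Module.finrank_fintype_fun_eq_card, finrank_bot, add_zero, hcard] at h3
    exact h3.symm
  obtain ⟨hev, hLag⟩ := minus_facts Q h2 hQ x hxΩ hA hB hs horth
  obtain ⟨e, he⟩ := hev
  have hAn : PolarNondeg (Q.comp A.subtype) := nondeg_of_orth_sup hQ hs horth
  have hBn : PolarNondeg (Q.comp B.subtype) := nondeg_of_orth_sup hQ (by rw [sup_comm]; exact hs)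
    (fun b hb a ha => by rw [polar_comm]; exact horth a ha b hb)
  obtain ⟨j₁, hj₁⟩ : ∃ j₁, j₁ = min m (d - e) := ⟨_, rfl⟩
  obtain ⟨j₂, hj₂⟩ : ∃ j₂, j₂ = m - j₁ := ⟨_, rfl⟩
  obtain ⟨X₁, hX₁, hX₁s⟩ := exists_ts_of_lt h2 (Q.comp A.subtype) hAn (j := j₁) (by omega)
  obtain ⟨X₂, hX₂, hX₂s⟩ : ∃ X : Submodule F B, finrank F X = j₂ ∧ ∀ x ∈ X, (Q.comp B.subtype) x = 0 := by
    by_cases hj0 : j₂ = 0
    · refine ⟨⊥, by simp [hj0], fun x hx => ?_⟩
      rw [(Submodule.mem_bot F).1 hx]
      simp
    by_cases hlt : j₂ < e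
    · exact exists_ts_of_lt h2 (Q.comp B.subtype) hBn (j := j₂) (by omega)
    · have hsq : IsSquare (-1 : F) := by
        rcases hcl with h | h
        · omega
        · exact h
      obtain ⟨X, hX, hXd⟩ := hLag hsq
      exact ⟨X, by omega, hX⟩
  obtain ⟨U₁, hU₁⟩ : ∃ U₁, U₁ = X₁.map A.subtype := ⟨_, rfl⟩
  obtain ⟨U₂, hU₂⟩ : ∃ U₂, U₂ = X₂.map B.subtype := ⟨_, rfl⟩
  have hU₁A : U₁ ≤ A := by
    rw [hU₁]
    exact Submodule.map_subtype_le _ _
  have hU₂B : U₂ ≤ B := by
    rw [hU₂]
    exact Submodule.map_subtype_le _ _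
  have hd₁ : finrank F U₁ = j₁ := by
    rw [hU₁, Submodule.finrank_map_subtype_eq, hX₁]
  have hd₂ : finrank F U₂ = j₂ := by
    rw [hU₂, Submodule.finrank_map_subtype_eq, hX₂]
  have hs₁ : ∀ u ∈ U₁, Q u = 0 := by
    rw [hU₁]
    rintro _ ⟨y, hy, rfl⟩
    exact hX₁s y hy
  have hs₂ : ∀ u ∈ U₂, Q u = 0 := by
    rw [hU₂]
    rintro _ ⟨y, hy, rfl⟩
    exact hX₂s y hy
  refine ⟨U₁ ⊔ U₂, ?_, ?_, ?_⟩
  · have h3 := Submodule.finrank_sup_add_finrank_inf_eq U₁ U₂
    have h4 : U₁ ⊓ U₂ = ⊥ := by
      rw [eq_bot_iff, ← hinf]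
      exact inf_le_inf hU₁A hU₂B
    rw [h4, finrank_bot, add_zero, hd₁, hd₂] at h3
    omega
  · intro u hu
    obtain ⟨a, ha, c, hc, rfl⟩ := Submodule.mem_sup.1 hu
    rw [Q_add, hs₁ a ha, hs₂ c hc, horth a (hU₁A ha) c (hU₂B hc)]
    ring
  · intro u hu
    obtain ⟨a, ha, c, hc, rfl⟩ := Submodule.mem_sup.1 hu
    rw [act_add, (hA a).1 (hU₁A ha), (hB c).1 (hU₂B hc)]
    exact Submodule.add_mem _ (Submodule.mem_sup_left ha) (Submodule.mem_sup_right (U₂.neg_mem hc))

/-- An involution of `Ω` fixing no large totally singular subspace. -/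
theorem not_sing (h2 : (2 : F) ≠ 0) (hQ : PolarNondeg Q) {u v : ι' → F} (hu : Q u = 1) (hv : Q v = 1) (huv : polar (⇑Q) u v = 0)
    (hns : ¬ IsSquare (-1 : F)) {m : ℕ} (hm : Fintype.card ι' < 2 * m + 2) :
    ∃ x : ↥(Cfsg.isometryGroup F ⇑Q), x ∈ Cfsg.Omega F ⇑Q ∧ orderOf x = 2 ∧
      ∀ W : Submodule F (ι' → F), finrank F W = m → (∀ w ∈ W, Q w = 0) → (∀ w ∈ W, act x w ∈ W) → False := by
  classical
  have hu0 : Q u ≠ 0 := by rw [hu]; exact one_ne_zero
  have hv0 : Q v ≠ 0 := by rw [hv]; exact one_ne_zero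
  let x : ↥(Cfsg.isometryGroup F ⇑Q) := reflectionIso Q u hu0 * reflectionIso Q v hv0
  have hact : ∀ y, act x y = y - polar (⇑Q) v y • v - polar (⇑Q) u y • u := by
    intro y
    rw [act_mul]
    have h3 : ∀ (w : ι' → F) (hw : Q w ≠ 0) (z : ι' → F), act (reflectionIso Q w hw) z = z - ((Q w)⁻¹ * polar (⇑Q) w z) • w := by
      intro w hw z
      exact reflectionMatrix_mulVec Q w z
    rw [h3, h3, hv, hu, inv_one, one_mul, one_mul, polar_sub_right, polar_smul_right, huv]
    simp
  have hpolvv : polar (⇑Q) v v = 2 := by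
    rw [Cfsg.Agent.Lib.Classical.Witt.Hyp.polar_self, hv, mul_one]
  have hpoluu : polar (⇑Q) u u = 2 := by
    rw [Cfsg.Agent.Lib.Classical.Witt.Hyp.polar_self, hu, mul_one]
  have hvu : polar (⇑Q) v u = 0 := by
    rw [polar_comm]
    exact huv
  have hxx : x * x = 1 := by
    apply iso_ext Q
    intro y
    rw [act_mul, act_one, hact, hact, polar_sub_right, polar_sub_right, polar_sub_right, polar_sub_right,
      polar_smul_right, polar_smul_right, polar_smul_right, polar_smul_right, hpolvv, hpoluu, hvu, huv]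
    simp only [smul_eq_mul, mul_zero, sub_zero, zero_sub, neg_smul]
    have h5 : polar (⇑Q) v y - polar (⇑Q) v y * 2 = - polar (⇑Q) v y := by ring
    have h6 : polar (⇑Q) u y - polar (⇑Q) u y * 2 = - polar (⇑Q) u y := by ring
    rw [h5, h6]
    simp only [neg_smul]
    abel
  have hxu : act x u = -u := by
    rw [hact, hvu, hpoluu, zero_smul, sub_zero, two_smul]
    abel
  have hu00 : u ≠ 0 := by
    rintro rfl
    rw [QuadraticMap.map_zero] at hu
    exact zero_ne_one hu
  have hx1 : x ≠ 1 := by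
    intro h
    rw [h, act_one] at hxu
    apply hu00
    have h5 : (2 : F) • u = 0 := by
      rw [two_smul]
      nth_rewrite 1 [hxu]
      simp
    exact (smul_eq_zero.1 h5).resolve_left h2
  have hsq0 : ∀ a b : F, a * a + b * b = 0 → a = 0 ∧ b = 0 := by
    intro a b hab
    by_cases hb : b = 0
    · subst hb
      simp at hab
      exact ⟨hab, rfl⟩
    · exfalso
      apply hns
      refine ⟨a / b, ?_⟩
      field_simp
      linear_combination -hab
  refine ⟨x, ?_, orderOf_eq_prime (by rw [pow_two]; exact hxx) hx1, ?_⟩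
  · refine (mem_omega_iff_list Q (nondeg_of_polarNondeg _ hQ) h2 [u, v] ?_ x ?_).2 ⟨by simp, ?_⟩
    · intro w hw
      simp only [List.mem_cons, List.not_mem_nil, or_false] at hw
      rcases hw with rfl | rfl
      · exact hu0
      · exact hv0
    · simp only [List.map_cons, List.map_nil, List.prod_cons, List.prod_nil, mul_one]
      rfl
    · simp [hu, hv]
  · intro W hWd hWs hWi
    have hWts : IsTS Q W := hWs
    have hperp : ∀ w ∈ W, polar (⇑Q) v w = 0 ∧ polar (⇑Q) u w = 0 := by
      intro w hw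
      have h3 : polar (⇑Q) v w • v + polar (⇑Q) u w • u ∈ W := by
        have h4 := W.sub_mem hw (hWi w hw)
        rw [hact] at h4
        convert h4 using 1
        abel
      have h4 := hWs _ h3
      rw [Q_add, Q_smul, Q_smul, hv, hu, polar_smul_left', polar_smul_right', hvu] at h4
      exact hsq0 _ _ (by linear_combination h4)
    have huW : u ∉ W := fun h => by
      have := hWs u h
      rw [hu] at this
      exact one_ne_zero this
    have hvW : v ∉ W ⊔ Submodule.span F {u} := by
      intro h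
      obtain ⟨w, hw, z, hz, hwz⟩ := Submodule.mem_sup.1 h
      obtain ⟨a, rfl⟩ := Submodule.mem_span_singleton.1 hz
      have h3 : w = v - a • u := by
        rw [← hwz]
        abel
      have h4 := hWs w hw
      rw [h3, Q_sub, Q_smul, polar_smul_right', hvu, hv, hu] at h4
      have h5 := hsq0 1 a (by linear_combination h4)
      exact one_ne_zero h5.1
    have hBn := nondeg_of_polarNondeg Q hQ
    have h5 := LinearMap.BilinForm.finrank_orthogonal hBn W
    rw [Module.finrank_fintype_fun_eq_card] at h5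
    have h6 : W ⊔ Submodule.span F {u} ⊔ Submodule.span F {v} ≤ LinearMap.BilinForm.orthogonal (polarBilin Q) W := by
      refine sup_le (sup_le ?_ ?_) ?_
      · intro w hw w' hw'
        exact hWts.polar_eq_zero hw' hw
      · rw [Submodule.span_singleton_le_iff_mem]
        intro w' hw'
        have := (hperp w' hw').2
        show polar (⇑Q) w' u = 0
        rw [polar_comm]
        exact this
      · rw [Submodule.span_singleton_le_iff_mem]
        intro w' hw'
        have := (hperp w' hw').1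
        show polar (⇑Q) w' v = 0
        rw [polar_comm]
        exact this
    have h7 := Submodule.finrank_mono h6
    rw [finrank_sup_span_add _ hvW, finrank_sup_span_add _ huW, h5, hWd] at h7
    omega

end Refl

end Cfsg.Agent.Lib.Classical.OSemi.SingInvol
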