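import Mathlib
import Cfsg.Agent.Lib.Classical.OSemi.LagFree

/-!
# Isometries of odd prime order of a form of even dimension: every characteristic
-/

set_option autoImplicit false
set_option linter.unusedSectionVars false
set_option linter.unusedSimpArgs false
set_option linter.unusedVariables false
set_option linter.style.haveILetI false
set_option maxHeartbeats 1000000

open Polynomial Module QuadraticMap Matrix
open Cfsg Cfsg.Agent.Lib.Classical.Herm.CycTuples Cfsg.Agent.Lib.Classical.Witt.Hyp Cfsg.Agent.Lib.Linalg.OrthModels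
open Cfsg.Agent.Lib.Classical.Herm.OrthBlock Cfsg.Agent.Lib.Classical.Herm.OrthEmbed Cfsg.Agent.Lib.Linalg.Bridge
open Cfsg.Agent.Lib.Classical.Herm.OrthType Cfsg.Agent.Lib.Classical.Herm.OrthCount Cfsg.Agent.Lib.Classical.Witt.Index
open Cfsg.Agent.Lib.Classical.Herm.OrthFinal Cfsg.Agent.Lib.Classical.OSemi.Ext Cfsg.Agent.Lib.Classical.OSemi.Lag
open Cfsg.Agent.Lib.Classical.OSemi.Nondeg Cfsg.Agent.Lib.Classical.Elusive.Inv Cfsg.Agent.Lib.Classical.Elusive.SpCore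
open Cfsg.Agent.Lib.Classical.OSemi.Decomp Cfsg.Agent.Lib.Classical.Elusive.PslNum
open Cfsg.Agent.Lib.Classical.OSemi.Split Cfsg.Agent.Lib.Classical.OSemi.TsModel Cfsg.Agent.Lib.Classical.OSemi.LagFree
open Cfsg.Agent.Lib.Classical.Witt.TS

namespace Cfsg.Agent.Lib.Classical.OSemi.EvenX

universe u

variable {F : Type u} [Field F] [Fintype F] {p : ℕ} [Fact p.Prime] [CharP F p] {q r i t : ℕ} {D : Finset F[X]}
variable {ι' : Type} [Fintype ι'] [DecidableEq ι']

theorem exists_x_even (H : Data q r i t D) (hF : Fintype.card F = q) (hr : r.Prime) (hr2 : r ≠ 2) (hrp : r ≠ p)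
    (Q : QuadraticForm F (ι' → F)) (hQ : PolarNondeg Q) {d : ℕ} (hcard : Fintype.card ι' = 2 * d) (hc4 : Fintype.card ι' ≠ 4) (hne : Nonempty ι')
    (k : D → ℕ) (hk : ∀ d, k (starD H d) = k d) (hk0 : k ≠ 0) (hle : i * ∑ d, k d ≤ 2 * d)
    (hfull : i * ∑ d, k d = 2 * d → (Lag Q ↔ (¬ Even i ∨ Even (∑ d, k d)))) :
    ∃ x : ↥(Cfsg.isometryGroup F ⇑Q), x ∈ Cfsg.Omega F ⇑Q ∧ orderOf x = r ∧
      ((x : GL ι' F) : Matrix ι' ι' F).charpoly = polyOf D i (Fintype.card ι') k := by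
  classical
  haveI : Fact r.Prime := ⟨hr⟩
  obtain ⟨W, _, _, _, QW, A, hn, hi, hAr, hc, hd⟩ := exists_W H hr2 hF k hk
  have hev := even_mul_sum H k hk
  have hLagW : Lag QW ↔ (¬ Even i ∨ Even (∑ d, k d)) := by
    obtain ⟨hl1, hl2⟩ := lag_model H hr2 hF k hk QW hn A hi hAr hc hd
    by_cases hev : Even i
    · rw [hl2 hev]
      simp [hev]
    · simp [hev, hl1 hev]
  obtain ⟨ι₀, hι₀⟩ := emb_even hQ hcard QW hn hd hle hev (fun h => by rw [hLagW, hfull h])
  obtain ⟨g, hg, hgr, hgc⟩ := exists_g_of_iota H Q QW hn ι₀ hι₀ A hi hAr hc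
    (n := Fintype.card ι') (by rw [Module.finrank_fintype_fun_eq_card]) hd
  have hY : glOfEquiv g ∈ Cfsg.isometryGroup F ⇑Q := by
    intro u v
    change Q (((glOfEquiv g : GL _ F) : Matrix ι' ι' F) *ᵥ u) = Q u
    rw [glOfEquiv_mulVec]
    exact hg u
  let G : ↥(Cfsg.isometryGroup F ⇑Q) := ⟨glOfEquiv g, hY⟩
  have hGr : G ^ r = 1 := by
    apply Subtype.ext
    apply Units.ext
    apply matrix_eq_of_mulVec_eq
    intro v
    have h2 := equivOfGL_pow' (glOfEquiv g) r v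
    rw [equivOfGL_glOfEquiv, hgr] at h2
    exact h2.symm.trans (by simp)
  have hcG : ((G : GL ι' F) : Matrix ι' ι' F).charpoly = polyOf D i (Fintype.card ι') k := by
    change ((glOfEquiv g : GL _ F) : Matrix ι' ι' F).charpoly = _
    rw [charpoly_glOfEquiv, hgc]
  have hcop : r.Coprime p := (Nat.coprime_primes hr (Fact.out : p.Prime)).2 hrp
  have hGo : orderOf G = r := by
    have h3 : orderOf (G : GL ι' F) = r := by
      rw [orderOf_eq_iff rfl hr hrp H.hipos H.hD H.hDr]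
      refine ⟨?_, k, by omega, hk0, hcG⟩
      rw [Subgroup.orderOf_coe]
      exact Nat.Coprime.coprime_dvd_left (orderOf_dvd_of_pow_eq_one hGr) hcop
    rwa [Subgroup.orderOf_coe] at h3
  refine ⟨G, ?_, hGo, hcG⟩
  exact mem_omega_of_odd_order hQ hc4 hne G (hr.odd_of_ne_two hr2) hGr


theorem ts_split' (H : Data q r i t D) (ht : t * i = r - 1) (hF : Fintype.card F = q) (hr : r.Prime) (hr2 : r ≠ 2) (hrp : r ≠ p)
    (Q : QuadraticForm F (ι' → F)) (hQ : PolarNondeg Q) (x : ↥(Cfsg.isometryGroup F ⇑Q)) (hx : orderOf x = r) {k : D → ℕ}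
    (hc : ((x : GL ι' F) : Matrix ι' ι' F).charpoly = polyOf D i (Fintype.card ι') k)
    (W : Submodule F (ι' → F)) (hW : ∀ w ∈ W, Q w = 0)
    (hinv : W.map (Matrix.toLin' ((x : GL ι' F) : Matrix ι' ι' F)) ≤ W) :
    ∃ a : ℕ, finrank F W = finrank F ↥(W ⊓ Fix (Matrix.toLin' ((x : GL ι' F) : Matrix ι' ι' F))) + i * a ∧
      2 * finrank F ↥(W ⊓ Fix (Matrix.toLin' ((x : GL ι' F) : Matrix ι' ι' F))) ≤ Fintype.card ι' - i * ∑ d, k d ∧ (Even i → a ≤ ∑ d, k d / 2) ∧
      (2 * finrank F ↥(W ⊓ Fix (Matrix.toLin' ((x : GL ι' F) : Matrix ι' ι' F))) = Fintype.card ι' - i * ∑ d, k d →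
        Lag (Q.comp (Fix (Matrix.toLin' ((x : GL ι' F) : Matrix ι' ι' F))).subtype)) := by
  classical
  haveI : Fact r.Prime := ⟨hr⟩
  obtain ⟨T, hTdef⟩ : ∃ T, T = Matrix.toLin' ((x : GL ι' F) : Matrix ι' ι' F) := ⟨_, rfl⟩
  rw [← hTdef] at hinv ⊢
  have hTr : T ^ r = 1 := by
    rw [hTdef]
    exact toLin_pow_eq_one Q x (by rw [← hx]; exact pow_orderOf_eq_one x)
  have hr0 : (r : F) ≠ 0 := cast_ne hr hrp
  have hTB : ∀ u v, polarBilin Q (T u) (T v) = polarBilin Q u v := fun u v => by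
    rw [hTdef]
    exact polar_toLin Q x u v
  have hWinv : IsInv T W := fun u hu => hinv ⟨u, hu, rfl⟩
  have hcT : LinearMap.charpoly T = polyOf D i (Fintype.card ι') k := by
    rw [hTdef, Matrix.charpoly_toLin', hc]
  have hfix := finrank_Fix_of_polyOf H hr hrp T hTr hcT
  have hi0 : 0 < i := H.hipos
  have hfac : ∀ d : F[X], Irreducible d → d ∣ Phi F r → d.natDegree = i := by
    rw [H.hi]
    exact fac_Phi (p := p) hF hr hrp
  -- the fixed part
  have hFixnd : PolarNondeg (Q.comp (Fix T).subtype) :=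
    nondeg_of_orth_sup hQ (sup_Fix_Ker hr0 hTr) (fun a ha b hb => orth_Fix_Ker (B := polarBilin Q) hTB hr0 ha hb)
  have h2f := two_mul_le_of_ts hFixnd hW
  rw [hfix, inf_comm] at h2f
  have hLagFix : 2 * finrank F ↥(W ⊓ Fix T) = Fintype.card ι' - i * ∑ d, k d → Lag (Q.comp (Fix T).subtype) := by
    intro h5
    refine ⟨W.comap (Fix T).subtype, fun w hw => hW _ hw, ?_⟩
    rw [hfix, finrank_comap_subtype, inf_comm]
    exact h5
  -- the kernel part
  have hsplit := finrank_split hr0 hTr hWinv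
  have hPhi := prod_D_eq_Phi H hr.pos ht
  have hker : ∃ a, finrank F ↥(W ⊓ Ker T r) = i * a ∧ (Even i → a ≤ ∑ d, k d / 2) := by
    have hsum := finrank_sum_factors (T := T) (fun d : D => (d : F[X])) Finset.univ
      (fun a _ b _ hab => isCoprime_of_monic_ne (H.hD a.1 a.2).1 (H.hD a.1 a.2).2.1 (H.hD b.1 b.2).1 (H.hD b.1 b.2).2.1
        (fun h => hab (Subtype.ext h)))
      (W ⊓ Ker T r) (hWinv.inf (isInv_Ker T r))
      (fun w hw => by
        have h0 : (∏ a : D, (a : F[X])) = ∏ d ∈ D, d := Finset.prod_coe_sort D (fun d => d)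
        rw [h0, hPhi]
        exact hw.2)
    have hpart : ∀ d : D, ∃ a, finrank F ↥((W ⊓ Ker T r) ⊓ LinearMap.ker (aeval T (d : F[X]))) = i * a ∧ (Even i → a ≤ k d / 2) := by
      intro d
      have hinvd : IsInv T ((W ⊓ Ker T r) ⊓ LinearMap.ker (aeval T (d : F[X]))) :=
        (hWinv.inf (isInv_Ker T r)).inf (isInv_ker_aeval T _)
      obtain ⟨a, ha⟩ := dvd_finrank hinvd (Phi_ne_zero hr0) hi0 hfac (fun v hv => hv.1.2)
      refine ⟨a, ha, fun hev => ?_⟩
      -- `d` is self reciprocal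
      have hstar : star (d : F[X]) = d := (H.hstar d.1 d.2).2 hev
      obtain ⟨h1, h2, h3, h4⟩ := H.hD d.1 d.2
      obtain ⟨h, hh⟩ := H.hdvd d.1 d.2
      have hsep : (X ^ r - 1 : F[X]).Separable := by
        have := separable_X_pow_sub_C (1 : F) hr0 one_ne_zero
        simpa using this
      rw [hh] at hsep
      have hcop : IsCoprime (d : F[X]) h := hsep.isCoprime
      let Aq := equivOfGL ((x : GL ι' F))
      have hAq : ((Aq : (ι' → F) ≃ₗ[F] (ι' → F)) : Module.End F (ι' → F)) = T := by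
        rw [hTdef]
        rfl
      have hAqQ : ∀ v, Q (Aq v) = Q v := fun v => x.2 v v
      have horth : ∀ u ∈ LinearMap.ker (aeval T (d : F[X])), ∀ v ∈ LinearMap.ker (aeval T h), polar Q u v = 0 := by
        intro u hu v hv
        obtain ⟨s, s', hs⟩ := hcop
        have h5 := congrArg (fun e : F[X] => aeval T e v) hs
        simp only [map_add, map_mul, map_one, LinearMap.add_apply, Module.End.mul_apply, Module.End.one_apply] at h5
        rw [LinearMap.mem_ker.1 hv, map_zero, add_zero] at h5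
        have h6 : aeval T s (aeval T (d : F[X]) v) = aeval T (d : F[X]) (aeval T s v) := by
          have h7 : aeval T s * aeval T (d : F[X]) = aeval T (d : F[X]) * aeval T s := by
            rw [← map_mul, ← map_mul, mul_comm]
          exact congrArg (fun z : Module.End F (ι' → F) => z v) h7
        rw [h6] at h5
        rw [← h5]
        have h8 : (d : F[X]) = C (d.1.coeff 0)⁻¹ * (d : F[X]).reverse := hstar.symm
        rw [h8]
        have hu' : aeval (Aq : Module.End F (ι' → F)) (d : F[X]) u = 0 := by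
          rw [hAq]
          exact hu
        have := perp_of_star Q Aq hAqQ (d.1.coeff 0)⁻¹ hu' (aeval T s v)
        rwa [hAq] at this
      have hsup : LinearMap.ker (aeval T (d : F[X])) ⊔ LinearMap.ker (aeval T h) = ⊤ := by
        rw [Polynomial.sup_ker_aeval_eq_ker_aeval_mul_of_coprime T hcop, ← hh]
        rw [map_sub, map_pow, aeval_X, map_one, hTr, sub_self, LinearMap.ker_zero]
      have hnd := nondeg_of_orth_sup hQ hsup horth
      have h9 := two_mul_le_of_ts hnd hW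
      rw [finrank_ker_of_polyOf H hr hrp T hTr hcT d] at h9
      have hle : LinearMap.ker (aeval T (d : F[X])) ≤ Ker T r := by
        intro v hv
        rw [mem_Ker]
        have h10 : (d : F[X]) ∣ Phi F r := by
          rw [← hPhi]
          exact Finset.dvd_prod_of_mem _ d.2
        obtain ⟨e, he⟩ := h10
        rw [he, mul_comm, map_mul, Module.End.mul_apply, LinearMap.mem_ker.1 hv, map_zero]
      have h11 : (W ⊓ Ker T r) ⊓ LinearMap.ker (aeval T (d : F[X])) = LinearMap.ker (aeval T (d : F[X])) ⊓ W := by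
        rw [inf_assoc, inf_eq_right.2 hle, inf_comm]
      rw [h11] at ha
      rw [ha] at h9
      have h12 : i * (2 * a) ≤ i * k d := by
        calc i * (2 * a) = 2 * (i * a) := by ring
          _ ≤ k d * i := h9
          _ = i * k d := by ring
      have h13 := Nat.le_of_mul_le_mul_left h12 hi0
      omega
    choose a ha hale using hpart
    refine ⟨∑ d, a d, ?_, fun hev => Finset.sum_le_sum fun d _ => hale d hev⟩
    rw [hsum, Finset.mul_sum]
    exact Finset.sum_congr rfl fun d _ => ha d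
  obtain ⟨a, ha, hale⟩ := hker
  exact ⟨a, by rw [hsplit, ha], h2f, hale, hLagFix⟩


theorem exists_inv_ts' (H : Data q r i t D) (hF : Fintype.card F = q) (hr : r.Prime) (hr2 : r ≠ 2) (hrp : r ≠ p)
    (Q : QuadraticForm F (ι' → F)) (hQ : PolarNondeg Q) (x : ↥(Cfsg.isometryGroup F ⇑Q)) (hx : orderOf x = r)
    (v k'' : D → ℕ) (hk'' : ∀ d, k'' (starD H d) = k'' d) (e : ℕ)
    (hc : ((x : GL ι' F) : Matrix ι' ι' F).charpoly = polyOf D i (Fintype.card ι') (fun d => v d + v (starD H d) + k'' d))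
    (hdim : i * (2 * ∑ d, v d + ∑ d, k'' d) + 2 * e ≤ Fintype.card ι')
    (hEmb : ∀ (W : Type u) [AddCommGroup W] [Module F W] [FiniteDimensional F W] (QW : QuadraticForm F W), PolarNondeg QW →
      finrank F W = i * (2 * ∑ d, v d + ∑ d, k'' d) + 2 * e → (Lag QW ↔ (¬ Even i ∨ Even (∑ d, k'' d))) → ∃ ι₀ : W →ₗ[F] (ι' → F), ∀ w, Q (ι₀ w) = QW w) :
    ∃ U : Submodule F (ι' → F), finrank F U = i * ∑ d, v d + e ∧ (∀ u ∈ U, Q u = 0) ∧
      U.map (Matrix.toLin' ((x : GL ι' F) : Matrix ι' ι' F)) ≤ U := by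
  classical
  haveI : Fact r.Prime := ⟨hr⟩
  obtain ⟨W₁, _, _, _, Q₁, A₁, T₁, h₁n, h₁i, h₁r, h₁c, h₁s, h₁inv, h₁d, h₁D⟩ := realT_tuple H v
  obtain ⟨W₂, _, _, _, Q₂, A₂, h₂n, h₂i, h₂r, h₂c, h₂d⟩ := exists_W H hr2 hF k'' hk''
  obtain ⟨P, _, _, _, QP, hPn, hPd, hPτ⟩ := exists_typed (F := F) e True (fun _ => trivial)
  obtain ⟨X₀, hX₀, hX₀d⟩ := hPτ.2 trivial
  let QW : QuadraticForm F ((W₁ × P) × W₂) := (Q₁.prod QP).prod Q₂
  have hQWa : ∀ (a : W₁) (b : P) (c : W₂), QW ((a, b), c) = Q₁ a + QP b + Q₂ c := fun _ _ _ => rfl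
  have hQWn : PolarNondeg QW := polarNondeg_prod (polarNondeg_prod h₁n hPn) h₂n
  let A : ((W₁ × P) × W₂) ≃ₗ[F] ((W₁ × P) × W₂) := (A₁.prodCongr (LinearEquiv.refl F P)).prodCongr A₂
  have hAa : ∀ (a : W₁) (b : P) (c : W₂), A ((a, b), c) = ((A₁ a, b), A₂ c) := fun _ _ _ => rfl
  have hAi : ∀ w, QW (A w) = QW w := by
    rintro ⟨⟨a, b⟩, c⟩
    rw [hAa, hQWa, hQWa, h₁i, h₂i]
  have hpow : ∀ (j : ℕ) (a : W₁) (b : P) (c : W₂), ((A : Module.End F ((W₁ × P) × W₂)) ^ j) ((a, b), c)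
      = ((((A₁ : Module.End F W₁) ^ j) a, b), ((A₂ : Module.End F W₂) ^ j) c) := by
    intro j
    induction j with
    | zero => intro a b c; simp
    | succ j ih =>
      intro a b c
      rw [pow_succ, Module.End.mul_apply, pow_succ, pow_succ, Module.End.mul_apply, Module.End.mul_apply]
      change ((A : Module.End F ((W₁ × P) × W₂)) ^ j) (A ((a, b), c)) = _
      rw [hAa, ih]
      rfl
  have hAr : (A : Module.End F ((W₁ × P) × W₂)) ^ r = 1 := by
    apply LinearMap.ext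
    rintro ⟨⟨a, b⟩, c⟩
    rw [hpow, h₁r, h₂r]
    rfl
  have hWd : finrank F ((W₁ × P) × W₂) = i * (2 * ∑ d, v d + ∑ d, k'' d) + 2 * e := by
    rw [Module.finrank_prod, Module.finrank_prod, h₁D, h₂d, hPd]
    ring
  have hLagW : Lag QW ↔ (¬ Even i ∨ Even (∑ d, k'' d)) := by
    have h₁L : Lag Q₁ := ⟨T₁, h₁s, by rw [h₁d, h₁D]⟩
    have hPL : Lag QP := hPτ.2 trivial
    have h₁₂ : Lag (Q₁.prod QP) := lag_prod_of_lag h₁L hPL
    have h3 : Lag QW ↔ Lag Q₂ :=
      ⟨fun h => lag_of_prod_left (polarNondeg_prod h₁n hPn) h₂n h₁₂ h, fun h => lag_prod_of_lag h₁₂ h⟩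
    rw [h3]
    obtain ⟨hl1, hl2⟩ := lag_model H hr2 hF k'' hk'' Q₂ h₂n A₂ h₂i h₂r h₂c h₂d
    by_cases hev : Even i
    · rw [hl2 hev]
      simp [hev]
    · simp [hev, hl1 hev]
  obtain ⟨ι₀, hι₀⟩ := hEmb _ QW hQWn hWd hLagW
  have hstarprod : ∏ d : D, (d : F[X]) ^ v (starD H d) = ∏ d : D, star (d : F[X]) ^ v d := by
    have hinv : Function.Involutive (starD H) := starD_starD H
    rw [← Equiv.prod_comp hinv.toPerm (fun d : D => (d : F[X]) ^ v (starD H d))]
    refine Finset.prod_congr rfl fun d _ => ?_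
    change ((starD H d : D) : F[X]) ^ v (starD H (starD H d)) = _
    rw [starD_starD]
    rfl
  have hcA : LinearMap.charpoly (A : ((W₁ × P) × W₂) →ₗ[F] ((W₁ × P) × W₂)) =
      (∏ d : D, ((d : F[X]) * star (d : F[X])) ^ v d) * (X - 1) ^ (2 * e) * (∏ d : D, (d : F[X]) ^ k'' d) := by
    have h1 : (A : ((W₁ × P) × W₂) →ₗ[F] ((W₁ × P) × W₂)) =
        LinearMap.prodMap (LinearMap.prodMap (A₁ : W₁ →ₗ[F] W₁) (LinearMap.id : P →ₗ[F] P)) (A₂ : W₂ →ₗ[F] W₂) := rfl
    rw [h1, LinearMap.charpoly_prodMap, LinearMap.charpoly_prodMap, h₁c, h₂c, charpoly_id', hPd]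
  have hcx : ((x : GL ι' F) : Matrix ι' ι' F).charpoly =
      LinearMap.charpoly (A : ((W₁ × P) × W₂) →ₗ[F] ((W₁ × P) × W₂)) *
        (X - 1) ^ (Fintype.card ι' - finrank F ((W₁ × P) × W₂)) := by
    have hsum : ∑ d : D, (v d + v (starD H d) + k'' d) = 2 * ∑ d, v d + ∑ d, k'' d := by
      have hinv : Function.Involutive (starD H) := starD_starD H
      rw [Finset.sum_add_distrib, Finset.sum_add_distrib, two_mul]
      congr 2
      exact Equiv.sum_comp hinv.toPerm v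
    rw [hc, polyOf, hcA, hWd, hsum]
    have h3 : Fintype.card ι' - i * (2 * ∑ d, v d + ∑ d, k'' d) =
        2 * e + (Fintype.card ι' - (i * (2 * ∑ d, v d + ∑ d, k'' d) + 2 * e)) := by omega
    rw [h3, pow_add]
    simp only [pow_add, mul_pow, Finset.prod_mul_distrib, hstarprod]
    ring
  obtain ⟨ι₁, hι₁, hιx⟩ := exists_equivariant H hr hr2 hrp Q hQ x hx QW hQWn ι₀ hι₀ A hAi hAr hcx
  let L : (T₁ × X₀) →ₗ[F] (ι' → F) := ι₁ ∘ₗ LinearMap.inl F (W₁ × P) W₂ ∘ₗ LinearMap.prodMap T₁.subtype X₀.subtype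
  have hLa : ∀ w : T₁ × X₀, L w = ι₁ (((w.1 : W₁), (w.2 : P)), 0) := fun w => rfl
  have hinjι₁ := injective_of_isometric hQWn ι₁ hι₁
  have hLinj : Function.Injective L := by
    rintro ⟨a, b⟩ ⟨c, d⟩ h
    have h1 := hinjι₁ h
    have h2 := congrArg Prod.fst h1
    have h3 := congrArg Prod.fst h2
    have h4 := congrArg Prod.snd h2
    exact Prod.ext (Subtype.ext h3) (Subtype.ext h4)
  refine ⟨LinearMap.range L, ?_, ?_, ?_⟩
  · rw [LinearMap.finrank_range_of_inj hLinj, Module.finrank_prod, h₁d]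
    rw [hPd] at hX₀d
    congr 1
    omega
  · rintro _ ⟨w, rfl⟩
    rw [hLa, hι₁, hQWa, h₁s _ w.1.2, hX₀ _ w.2.2]
    simp
  · rintro _ ⟨_, ⟨w, rfl⟩, rfl⟩
    refine ⟨(⟨A₁ (w.1 : W₁), h₁inv _ w.1.2⟩, w.2), ?_⟩
    rw [hLa, hLa, Matrix.toLin'_apply, hιx, hAa]
    simp


/-- The type of the moved part. -/
theorem lag_ker (H : Data q r i t D) (hF : Fintype.card F = q) (hr : r.Prime) (hr2 : r ≠ 2) (hrp : r ≠ p)
    (Q : QuadraticForm F (ι' → F)) (hQ : PolarNondeg Q) (x : ↥(Cfsg.isometryGroup F ⇑Q)) (hx : orderOf x = r) {k : D → ℕ}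
    (hc : ((x : GL ι' F) : Matrix ι' ι' F).charpoly = polyOf D i (Fintype.card ι') k) :
    Lag (Q.comp (Ker (Matrix.toLin' ((x : GL ι' F) : Matrix ι' ι' F)) r).subtype) ↔ (¬ Even i ∨ Even (∑ d, k d)) := by
  classical
  haveI : Fact r.Prime := ⟨hr⟩
  obtain ⟨T, hTdef⟩ : ∃ T, T = Matrix.toLin' ((x : GL ι' F) : Matrix ι' ι' F) := ⟨_, rfl⟩
  rw [← hTdef]
  have hTr : T ^ r = 1 := by
    rw [hTdef]
    exact toLin_pow_eq_one Q x (by rw [← hx]; exact pow_orderOf_eq_one x)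
  have hr0 : (r : F) ≠ 0 := cast_ne hr hrp
  have hTQ : ∀ v, Q (T v) = Q v := fun v => by
    rw [hTdef, Matrix.toLin'_apply]
    exact x.2 v v
  have hTB : ∀ u v, polarBilin Q (T u) (T v) = polarBilin Q u v := fun u v => by
    rw [hTdef]
    exact polar_toLin Q x u v
  have hcT : LinearMap.charpoly T = polyOf D i (Fintype.card ι') k := by
    rw [hTdef, Matrix.charpoly_toLin', hc]
  obtain ⟨U, hUdef⟩ : ∃ U, U = Ker T r := ⟨_, rfl⟩
  rw [← hUdef]
  have hUinv : IsInv T U := by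
    rw [hUdef]
    exact isInv_Ker T r
  obtain ⟨A, hA, hAr⟩ := exists_res hr.pos hTr hUinv
  have hQU : PolarNondeg (Q.comp U.subtype) := by
    rw [hUdef]
    exact nondeg_of_orth_sup hQ (by rw [sup_comm]; exact sup_Fix_Ker hr0 hTr)
      (fun a ha b hb => by
        have := orth_Fix_Ker (B := polarBilin Q) hTB hr0 hb ha
        rw [polar_comm]
        exact this)
  have hAQ : ∀ v, (Q.comp U.subtype) (A v) = (Q.comp U.subtype) v := by
    intro v
    change Q ((A v : U) : ι' → F) = Q (v : ι' → F)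
    rw [hA, hTQ]
  have hfree : ∀ v, A v = v → v = 0 := by
    intro v hv
    have h1 : T (v : ι' → F) = v := by
      rw [← hA, hv]
    have h2 : (v : ι' → F) ∈ Fix T ⊓ Ker T r := by
      refine Submodule.mem_inf.2 ⟨mem_Fix.2 h1, ?_⟩
      rw [← hUdef]
      exact v.2
    rw [Fix_inf_Ker hr0] at h2
    exact Subtype.ext ((Submodule.mem_bot F).1 h2)
  obtain ⟨k', hk', hc', hd⟩ := free_model H hr hrp (Q.comp U.subtype) hQU A hAQ hAr hfree
  obtain ⟨hl1, hl2⟩ := lag_model H hr2 hF k' hk' (Q.comp U.subtype) hQU A hAQ hAr hc' hd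
  have hfix := finrank_Fix_of_polyOf H hr hrp T hTr hcT
  have hadd := finrank_Fix_add hr0 hTr
  rw [Module.finrank_fintype_fun_eq_card, ← hUdef] at hadd
  obtain ⟨k₁, hk₁, hk₁0, hcx, hk₁s⟩ := exists_tuple H hr hrp Q hQ x hx
  have hle : i * ∑ d, k d ≤ Fintype.card ι' := by
    have h3 : polyOf D i (Fintype.card ι') k₁ = polyOf D i (Fintype.card ι') k := by
      rw [← hcx, hc]
    have h4 := polyOf_injective H.hD h3
    rw [← h4]
    exact hk₁
  have hsum : ∑ d, k' d = ∑ d, k d := by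
    have h5 : i * ∑ d, k' d = i * ∑ d, k d := by omega
    exact Nat.eq_of_mul_eq_mul_left H.hipos h5
  rw [hsum] at hl2
  by_cases hev : Even i
  · rw [hl2 hev]
    simp [hev]
  · simp [hev, hl1 hev]

/-- If the fixed part is hyperbolic, the type of the whole space is that of the moved part. -/
theorem lag_of_lag_fix (H : Data q r i t D) (hF : Fintype.card F = q) (hr : r.Prime) (hr2 : r ≠ 2) (hrp : r ≠ p)
    (Q : QuadraticForm F (ι' → F)) (hQ : PolarNondeg Q) (x : ↥(Cfsg.isometryGroup F ⇑Q)) (hx : orderOf x = r) {k : D → ℕ}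
    (hc : ((x : GL ι' F) : Matrix ι' ι' F).charpoly = polyOf D i (Fintype.card ι') k)
    (hL : Lag (Q.comp (Fix (Matrix.toLin' ((x : GL ι' F) : Matrix ι' ι' F))).subtype)) :
    Lag Q ↔ (¬ Even i ∨ Even (∑ d, k d)) := by
  obtain ⟨T, hTdef⟩ : ∃ T, T = Matrix.toLin' ((x : GL ι' F) : Matrix ι' ι' F) := ⟨_, rfl⟩
  have hker := lag_ker H hF hr hr2 hrp Q hQ x hx hc
  rw [← hTdef] at hker hL
  have hTr : T ^ r = 1 := by
    rw [hTdef]
    exact toLin_pow_eq_one Q x (by rw [← hx]; exact pow_orderOf_eq_one x)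
  have hr0 : (r : F) ≠ 0 := cast_ne hr hrp
  have hTB : ∀ u v, polarBilin Q (T u) (T v) = polarBilin Q u v := fun u v => by
    rw [hTdef]
    exact polar_toLin Q x u v
  rw [lag_sup_iff hQ (sup_Fix_Ker hr0 hTr) (Fix_inf_Ker hr0) (fun a ha b hb => orth_Fix_Ker (B := polarBilin Q) hTB hr0 ha hb) hL, hker]

/-- An element acting freely has the type of its tuple. -/
theorem lag_of_full (H : Data q r i t D) (hF : Fintype.card F = q) (hr : r.Prime) (hr2 : r ≠ 2) (hrp : r ≠ p)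
    (Q : QuadraticForm F (ι' → F)) (hQ : PolarNondeg Q) (x : ↥(Cfsg.isometryGroup F ⇑Q)) (hx : orderOf x = r) {k : D → ℕ}
    (hc : ((x : GL ι' F) : Matrix ι' ι' F).charpoly = polyOf D i (Fintype.card ι') k)
    (hfull : i * ∑ d, k d = Fintype.card ι') : Lag Q ↔ (¬ Even i ∨ Even (∑ d, k d)) := by
  refine lag_of_lag_fix H hF hr hr2 hrp Q hQ x hx hc (lag_of_finrank_zero _ ?_)
  have hTr := toLin_pow_eq_one Q x (r := r) (by rw [← hx]; exact pow_orderOf_eq_one x)
  have h1 := finrank_Fix_of_polyOf H hr hrp _ hTr (n := Fintype.card ι') (k := k) (by rw [Matrix.charpoly_toLin', hc])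
  rw [h1, hfull, Nat.sub_self]

end Cfsg.Agent.Lib.Classical.OSemi.EvenX
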