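import Mathlib
import Cfsg.Agent.Lib.Classical.OSemi.Clause

/-!
# Totally singular subspaces of the odd dimensional form, for odd `r ≠ p`
-/

set_option autoImplicit false
set_option linter.unusedSectionVars false
set_option linter.unusedSimpArgs false
set_option linter.unusedVariables false
set_option linter.style.haveILetI false
set_option maxHeartbeats 1000000

open Polynomial Module QuadraticMap Matrix
open Cfsg Cfsg.Agent.Lib.Classical.Herm.CycTuples Cfsg.Agent.Lib.Classical.Witt.Hyp Cfsg.Agent.Lib.Linalg.OrthModels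
open Cfsg.Agent.Lib.Classical.Herm.OrthFinal Cfsg.Agent.Lib.Classical.OSemi.Lag Cfsg.Agent.Lib.Classical.OSemi.Nondeg
open Cfsg.Agent.Lib.Classical.OSemi.Split Cfsg.Agent.Lib.Classical.OSemi.TsModel
open Cfsg.Agent.Lib.Classical.OSemi.OddForm Cfsg.Agent.Lib.Classical.OSemi.Coprime Cfsg.Agent.Lib.Classical.OSemi.Clause

namespace Cfsg.Agent.Lib.Classical.OSemi.SingOdd

universe u

variable {F : Type u} [Field F] [Fintype F] {p : ℕ} [Fact p.Prime] [CharP F p] {q r i t : ℕ} {D : Finset F[X]}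

theorem sum_star (H : Data q r i t D) (v : D → ℕ) : ∑ d, v (starD H d) = ∑ d, v d :=
  Equiv.sum_comp (Function.Involutive.toPerm (starD H) (starD_starD H)) v

/-- Every element of order `r` fixes a totally singular subspace, under the numerical conditions. -/
theorem sing_backward [Fact r.Prime] (H : Data q r i t D) (hF : Fintype.card F = q) (hr2 : r ≠ 2) (hrp : r ≠ p) (h2 : (2 : F) ≠ 0) (d : ℕ)
    {c : ℕ} (hc : c = if Even i then i else 2 * i) {m : ℕ} (hmd : m ≤ d)
    (h1 : 2 * (m % i) < (2 * d + 1) % c) (h3 : Odd i ∨ t + 2 * (m / i) ≤ (2 * d + 1) / i)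
    (x : ↥(Cfsg.isometryGroup F ⇑(oddQ d F))) (hx : orderOf x = r) :
    ∃ U : Submodule F (Unit ⊕ (Fin d ⊕ Fin d) → F), finrank F U = m ∧ (∀ u ∈ U, oddQ d F u = 0) ∧
      U.map (Matrix.toLin' ((x : GL (Unit ⊕ (Fin d ⊕ Fin d)) F) : Matrix (Unit ⊕ (Fin d ⊕ Fin d)) (Unit ⊕ (Fin d ⊕ Fin d)) F)) ≤ U := by
  classical
  have hr : r.Prime := Fact.out
  have hi0 := H.hipos
  have hcpos := c_pos hi0 hc
  obtain ⟨k, hkle, hk0, hcx, hk⟩ := exists_tuple H hr hrp (oddQ d F) (polarNondeg_oddQ d h2) x hx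
  have hcard := card_odd_index d
  rw [hcard] at hkle
  obtain ⟨s, hs⟩ : ∃ s, s = ∑ d, k d := ⟨_, rfl⟩
  rw [← hs] at hkle
  have hevs : Even (i * s) := by
    rw [hs]
    exact even_mul_sum H k hk
  have hdm := Nat.div_add_mod m i
  have hdn := Nat.div_add_mod (2 * d + 1) c
  have hlt' := Nat.mod_lt (2 * d + 1) hcpos
  obtain ⟨z, hz⟩ := hevs
  -- the tuple `v`
  obtain ⟨a, v, hv, hva, ham, hbd⟩ : ∃ (a : ℕ) (v : D → ℕ), (∀ d, v d + v (starD H d) ≤ k d) ∧ ∑ d, v d = a ∧ a * i ≤ m ∧
      i * s + 2 * (m - a * i) ≤ 2 * d + 1 := by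
    by_cases hev : Even i
    · have hci : c = i := by rw [hc, if_pos hev]
      subst hci
      have h3' : t + 2 * (m / c) ≤ (2 * d + 1) / c := h3.resolve_left (Nat.not_odd_iff_even.2 hev)
      obtain ⟨a₀, ha₀⟩ : ∃ a₀, a₀ = ∑ d, k d / 2 := ⟨_, rfl⟩
      have hs2 : s ≤ 2 * a₀ + t := by
        have h5 : ∑ d, k d ≤ ∑ d : D, (2 * (k d / 2) + 1) := Finset.sum_le_sum fun d _ => by omega
        rw [Finset.sum_add_distrib, ← Finset.mul_sum, ← ha₀] at h5
        have h6 : ∑ _d : D, 1 = t := by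
          simp [H.hcard]
        rw [h6] at h5
        omega
      have hsK : s ≤ (2 * d + 1) / c := by
        rw [Nat.le_div_iff_mul_le hcpos, mul_comm]
        exact hkle
      have hsK' : c * s ≤ c * ((2 * d + 1) / c) := Nat.mul_le_mul_left c hsK
      by_cases hle : a₀ ≤ m / c
      · obtain ⟨v, hv, hva⟩ := exists_sub (fun d => k d / 2) (a := a₀) (by rw [ha₀])
        refine ⟨a₀, v, fun d => ?_, hva, ?_, ?_⟩
        · rw [starD_eq_self_iff H hev d]
          have h9 : v d ≤ k d / 2 := hv d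
          omega
        · have h5 : a₀ * c ≤ m / c * c := Nat.mul_le_mul_right c hle
          rw [mul_comm (m / c)] at h5
          omega
        · have h5 : c * s ≤ c * (2 * a₀ + t) := Nat.mul_le_mul_left c hs2
          have h6 : c * (t + 2 * (m / c)) ≤ c * ((2 * d + 1) / c) := Nat.mul_le_mul_left c h3'
          have h7 : a₀ * c ≤ m / c * c := Nat.mul_le_mul_right c hle
          rw [mul_comm (m / c)] at h7
          rw [mul_add, mul_left_comm] at h5
          rw [mul_add, mul_left_comm] at h6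
          rw [mul_comm a₀ c] at h7 ⊢
          omega
      · obtain ⟨v, hv, hva⟩ := exists_sub (fun d => k d / 2) (a := m / c) (by rw [← ha₀]; omega)
        refine ⟨m / c, v, fun d => ?_, hva, ?_, ?_⟩
        · rw [starD_eq_self_iff H hev d]
          have h9 : v d ≤ k d / 2 := hv d
          omega
        · rw [mul_comm]
          omega
        · have h5 : m - m / c * c = m % c := by
            rw [mul_comm]
            omega
          rw [h5]
          omega
    · have hci : c = 2 * i := by rw [hc, if_neg hev]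
      have hfp : ∀ a, starD H a ≠ a := fun a ha => hev ((H.hstar a.1 a.2).1 (congrArg Subtype.val ha))
      obtain ⟨T, hT⟩ := exists_transversal (starD H) (starD_starD H) hfp
      have h5 := sum_eq_two_mul (starD H) (starD_starD H) hT k hk
      rw [← hs] at h5
      obtain ⟨b, hb⟩ : ∃ b, b = ∑ d ∈ T, k d := ⟨_, rfl⟩
      rw [← hb] at h5
      have hsb : i * s = c * b := by
        rw [h5, hci]
        ring
      have hbK : b ≤ (2 * d + 1) / c := by
        rw [Nat.le_div_iff_mul_le hcpos, mul_comm]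
        omega
      have hbK' : c * b ≤ c * ((2 * d + 1) / c) := Nat.mul_le_mul_left c hbK
      have h1' : 2 * (m % i) < (2 * d + 1) % c := h1
      by_cases hle : b ≤ m / i
      · obtain ⟨v, hv, hva⟩ := exists_half_odd (starD H) (starD_starD H) hfp k hk (a := b) (by omega)
        refine ⟨b, v, hv, hva, ?_, ?_⟩
        · have h6 : b * i ≤ m / i * i := Nat.mul_le_mul_right i hle
          rw [mul_comm (m / i)] at h6
          omega
        · have h6 : b * i ≤ m / i * i := Nat.mul_le_mul_right i hle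
          rw [mul_comm (m / i)] at h6
          have h7 : i * s = 2 * (b * i) := by
            rw [h5]
            ring
          omega
      · obtain ⟨v, hv, hva⟩ := exists_half_odd (starD H) (starD_starD H) hfp k hk (a := m / i) (by omega)
        refine ⟨m / i, v, hv, hva, ?_, ?_⟩
        · rw [mul_comm]
          omega
        · have h5' : m - m / i * i = m % i := by
            rw [mul_comm]
            omega
          rw [h5']
          omega
  obtain ⟨k'', hk''def⟩ : ∃ k'' : D → ℕ, k'' = fun d => k d - (v d + v (starD H d)) := ⟨_, rfl⟩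
  have hk''s : ∀ d, k'' (starD H d) = k'' d := by
    intro d
    rw [hk''def]
    show k (starD H d) - (v (starD H d) + v (starD H (starD H d))) = k d - (v d + v (starD H d))
    rw [hk d, starD_starD, add_comm]
  have hkeq : (fun d => v d + v (starD H d) + k'' d) = k := by
    funext d
    rw [hk''def]
    show v d + v (starD H d) + (k d - (v d + v (starD H d))) = k d
    have := hv d
    omega
  have hsumk : 2 * ∑ d, v d + ∑ d, k'' d = s := by
    have h5 : ∑ d, (v d + v (starD H d) + k'' d) = ∑ d, k d := Finset.sum_congr rfl fun d _ => congrFun hkeq d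
    rw [Finset.sum_add_distrib, Finset.sum_add_distrib, sum_star H v, ← hs] at h5
    omega
  have hdimN : i * (2 * ∑ d, v d + ∑ d, k'' d) + 2 * (m - a * i) ≤ 2 * d + 1 := by
    rw [hsumk]
    exact hbd
  obtain ⟨U, hU1, hU2, hU3⟩ := exists_inv_ts H hF hr hr2 hrp (oddQ d F) (polarNondeg_oddQ d h2) x hx v k'' hk''s (m - a * i)
    (by rw [hkeq]; exact hcx) (by rw [hcard]; exact hdimN) (fun W _ _ _ QW hQW hdimW => by
      rw [hsumk] at hdimW
      exact emb_odd d QW hQW hdimW (by omega) ⟨z + (m - a * i), by omega⟩)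
  refine ⟨U, ?_, hU2, hU3⟩
  rw [hU1, hva, mul_comm i a]
  omega

/-- Elements made of `K` blocks. -/
theorem exists_blocks (H : Data q r i t D) (ht : 0 < t) {c : ℕ} (hc : c = if Even i then i else 2 * i) {K : ℕ} (hK : 0 < K) :
    ∃ k₀ : D → ℕ, (∀ d, k₀ (starD H d) = k₀ d) ∧ k₀ ≠ 0 ∧ i * ∑ d, k₀ d = c * K := by
  classical
  have hD : D.Nonempty := by
    rw [← Finset.card_pos, H.hcard]
    exact ht
  obtain ⟨d₀, hd₀⟩ := hD
  by_cases hev : Even i
  · refine ⟨fun d => if d = ⟨d₀, hd₀⟩ then K else 0, fun d => ?_, ?_, ?_⟩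
    · rw [starD_eq_self_iff H hev d]
    · intro h
      have := congrFun h ⟨d₀, hd₀⟩
      simp at this
      omega
    · rw [Finset.sum_ite_eq' Finset.univ (⟨d₀, hd₀⟩ : D), if_pos (Finset.mem_univ _), hc, if_pos hev]
  · obtain ⟨e₀, he₀⟩ : ∃ e₀ : D, e₀ = ⟨d₀, hd₀⟩ := ⟨_, rfl⟩
    have hfp : starD H e₀ ≠ e₀ := fun ha => hev ((H.hstar e₀.1 e₀.2).1 (congrArg Subtype.val ha))
    refine ⟨fun d => (if d = e₀ then K else 0) + (if d = starD H e₀ then K else 0), fun d => ?_, ?_, ?_⟩
    · have h5 : starD H d = e₀ ↔ d = starD H e₀ := by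
        constructor
        · intro h
          rw [← h, starD_starD]
        · intro h
          rw [h, starD_starD]
      have h6 : starD H d = starD H e₀ ↔ d = e₀ := by
        constructor
        · intro h
          have := congrArg (starD H) h
          rwa [starD_starD, starD_starD] at this
        · intro h
          rw [h]
      simp only [h5, h6]
      ring
    · intro h
      have := congrFun h e₀
      simp only [if_true, Pi.zero_apply] at this
      omega
    · rw [Finset.sum_add_distrib, Finset.sum_ite_eq' Finset.univ e₀, Finset.sum_ite_eq' Finset.univ (starD H e₀),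
        if_pos (Finset.mem_univ _), if_pos (Finset.mem_univ _), hc, if_neg hev]
      ring

/-- The shape of an invariant totally singular subspace of an element with a given tuple. -/
theorem exists_f_a [Fact r.Prime] (H : Data q r i t D) (ht : t * i = r - 1) (hF : Fintype.card F = q) (hr2 : r ≠ 2) (hrp : r ≠ p) (h2 : (2 : F) ≠ 0) (d : ℕ) {m : ℕ}
    (hH : ∀ x : ↥(Cfsg.isometryGroup F ⇑(oddQ d F)), x ∈ Cfsg.Omega F ⇑(oddQ d F) → orderOf x = r →
      ∃ U : Submodule F (Unit ⊕ (Fin d ⊕ Fin d) → F), finrank F U = m ∧ (∀ u ∈ U, oddQ d F u = 0) ∧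
      U.map (Matrix.toLin' ((x : GL (Unit ⊕ (Fin d ⊕ Fin d)) F) : Matrix (Unit ⊕ (Fin d ⊕ Fin d)) (Unit ⊕ (Fin d ⊕ Fin d)) F)) ≤ U)
    (u : D → ℕ) (hu : ∀ d, u (starD H d) = u d) (hu0 : u ≠ 0) (hle : i * ∑ d, u d ≤ 2 * d) :
    ∃ f a : ℕ, m = f + i * a ∧ 2 * f < 2 * d + 1 - i * ∑ d, u d ∧ (Even i → a ≤ ∑ d, u d / 2) := by
  have hr : r.Prime := Fact.out
  obtain ⟨x, hxΩ, hxo, hxc⟩ := exists_x_of_tuple H hF hr hr2 hrp h2 d u hu hu0 hle
  obtain ⟨W, hWm, hWt, hWi⟩ := hH x hxΩ hxo
  obtain ⟨f, a, h1, h3, h4⟩ := ts_split H ht hF hr hr2 hrp (oddQ d F) (polarNondeg_oddQ d h2) x hxo hxc W hWt hWi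
  rw [card_odd_index] at h3
  obtain ⟨z, hz⟩ := even_mul_sum H u hu
  refine ⟨f, a, by omega, by omega, h4⟩

/-- The forward direction. -/
theorem sing_forward [Fact r.Prime] (H : Data q r i t D) (ht : t * i = r - 1) (ht0 : 0 < t) (hF : Fintype.card F = q) (hr2 : r ≠ 2) (hrp : r ≠ p) (h2 : (2 : F) ≠ 0)
    (hi : i = orderOf (q : ZMod r)) (d : ℕ) {c : ℕ} (hc : c = if Even i then i else 2 * i) {m : ℕ} (hm1 : 1 ≤ m) (hmd : m ≤ d)
    (hrΩ : r ∣ Nat.card {W : Submodule F (Unit ⊕ (Fin d ⊕ Fin d) → F) // finrank F W = m ∧ ∀ w ∈ W, oddQ d F w = 0})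
    (hH : ∀ x : ↥(Cfsg.isometryGroup F ⇑(oddQ d F)), x ∈ Cfsg.Omega F ⇑(oddQ d F) → orderOf x = r →
      ∃ U : Submodule F (Unit ⊕ (Fin d ⊕ Fin d) → F), finrank F U = m ∧ (∀ u ∈ U, oddQ d F u = 0) ∧
      U.map (Matrix.toLin' ((x : GL (Unit ⊕ (Fin d ⊕ Fin d)) F) : Matrix (Unit ⊕ (Fin d ⊕ Fin d)) (Unit ⊕ (Fin d ⊕ Fin d)) F)) ≤ U) :
    i ≤ m ∧ 2 * (m % i) < (2 * d + 1) % c ∧ (Odd i ∨ t + 2 * (m / i) ≤ (2 * d + 1) / i) := by
  classical
  have hi0 := H.hipos
  have hcpos := c_pos hi0 hc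
  obtain ⟨c', hc'⟩ := c_even hc
  obtain ⟨K, hKdef⟩ : ∃ K, K = (2 * d + 1) / c := ⟨_, rfl⟩
  have hdn := Nat.div_add_mod (2 * d + 1) c
  rw [← hKdef] at hdn
  have hlt' := Nat.mod_lt (2 * d + 1) hcpos
  have hcK : c * K ≤ 2 * d := by
    have h5 : Even (c * K) := ⟨c' * K, by rw [hc']; ring⟩
    obtain ⟨z, hz⟩ := h5
    omega
  have hk₁ : K = 0 → (2 * d + 1) % c = 2 * d + 1 := by
    intro h0
    rw [h0] at hdn
    simpa using hdn
  have hfa : 0 < K → ∃ f a : ℕ, m = f + i * a ∧ 2 * f < (2 * d + 1) % c := by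
    intro hK
    obtain ⟨k₀, h5, h6, h7⟩ := exists_blocks H ht0 hc hK
    obtain ⟨f, a, h8, h9, -⟩ := exists_f_a H ht hF hr2 hrp h2 d hH k₀ h5 h6 (by omega)
    rw [h7] at h9
    exact ⟨f, a, h8, by omega⟩
  have hcle : c ≤ 2 * i := by
    rw [hc]
    split_ifs <;> omega
  have him : i ≤ m := by
    by_contra hlt
    push Not at hlt
    have hi1 : i ≠ 1 := by omega
    by_cases h2m : 2 * m < (2 * d + 1) % c
    · exact not_dvd_ts hF hrp h2 hi hi1 d hc hcpos h2m hrΩ
    · have hK : 0 < K := by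
        by_contra h0
        have h5 := hk₁ (by omega)
        omega
      obtain ⟨f, a, h5, h6⟩ := hfa hK
      have ha0 : a = 0 := by
        by_contra h7
        have h8 : i * 1 ≤ i * a := Nat.mul_le_mul_left i (by omega)
        omega
      rw [ha0, mul_zero, add_zero] at h5
      omega
  have hl : 2 * (m % i) < (2 * d + 1) % c := by
    by_cases hK : 0 < K
    · obtain ⟨f, a, h5, h6⟩ := hfa hK
      have hfi : f < i := by omega
      have h7 : m % i = f := by
        rw [h5, Nat.add_mul_mod_self_left, Nat.mod_eq_of_lt hfi]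
      omega
    · have h5 := hk₁ (by omega)
      have h6 : m % i ≤ m := Nat.mod_le m i
      omega
  refine ⟨him, hl, ?_⟩
  rcases Nat.even_or_odd i with hev | hodd
  swap
  · exact Or.inl hodd
  right
  have hci : c = i := by rw [hc, if_pos hev]
  subst hci
  rw [← hKdef]
  have hK : 0 < K := by
    rw [hKdef]
    exact Nat.div_pos (by omega) hi0
  have hm' : 0 < m / c := Nat.div_pos him hi0
  have hdm := Nat.div_add_mod m c
  have hmlt := Nat.mod_lt m hi0
  by_contra hcon
  push Not at hcon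
  have hD : D.Nonempty := by
    rw [← Finset.card_pos, H.hcard]
    exact ht0
  obtain ⟨d₁, hd₁⟩ := hD
  obtain ⟨d₀, hd₀⟩ : ∃ d₀ : D, d₀ = ⟨d₁, hd₁⟩ := ⟨_, rfl⟩
  have htup : ∀ (w₀ : ℕ) (S : Finset D), d₀ ∉ S → 0 < w₀ → c * (w₀ + S.card) ≤ 2 * d →
      ∃ f a : ℕ, m = f + c * a ∧ 2 * f < 2 * d + 1 - c * (w₀ + S.card) ∧ a ≤ w₀ / 2 := by
    intro w₀ S hS hw hle
    let u : D → ℕ := fun x => if x = d₀ then w₀ else if x ∈ S then 1 else 0
    have hu0 : u ≠ 0 := by
      intro h
      have := congrFun h d₀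
      simp only [u, if_true, Pi.zero_apply] at this
      omega
    have hsum : ∑ x, u x = w₀ + S.card := by
      have h5 : ∀ x, u x = (if x = d₀ then w₀ else 0) + (if x ∈ S then 1 else 0) := by
        intro x
        show (if x = d₀ then w₀ else if x ∈ S then 1 else 0) = _
        by_cases hx : x = d₀
        · subst hx
          simp [hS]
        · simp [hx]
      simp only [h5]
      rw [Finset.sum_add_distrib, Finset.sum_ite_eq' Finset.univ d₀, if_pos (Finset.mem_univ _), Finset.sum_ite_mem, Finset.univ_inter,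
        Finset.sum_const, smul_eq_mul, mul_one]
    have hsum2 : ∑ x, u x / 2 = w₀ / 2 := by
      rw [Finset.sum_eq_single d₀]
      · simp [u]
      · intro x _ hx
        show (if x = d₀ then w₀ else if x ∈ S then 1 else 0) / 2 = 0
        rw [if_neg hx]
        split_ifs <;> rfl
      · intro h0
        exact absurd (Finset.mem_univ _) h0
    obtain ⟨f, a, h5, h6, h7⟩ := exists_f_a H ht hF hr2 hrp h2 d hH u (fun x => by
      rw [starD_eq_self_iff H hev x]) hu0 (by rw [hsum]; exact hle)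
    rw [hsum] at h6
    refine ⟨f, a, h5, h6, ?_⟩
    have h8 := h7 hev
    rwa [hsum2] at h8
  -- the block element gives `2 m' ≤ K`
  have h2K : 2 * (m / c) ≤ K := by
    obtain ⟨f, a, h5, h6, h7⟩ := htup K ∅ (Finset.notMem_empty _) hK (by simpa using hcK)
    simp only [Finset.card_empty, add_zero] at h6
    have hfi : f < c := by omega
    have h8 : m / c = a := by
      rw [h5, Nat.add_mul_div_left _ _ hi0, Nat.div_eq_of_lt hfi, zero_add]
    omega
  obtain ⟨δ, hδ⟩ : ∃ δ, δ = K - 2 * (m / c) := ⟨_, rfl⟩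
  have hδt : δ < t := by omega
  obtain ⟨j, hj⟩ : ∃ j, j = min (δ + 1) (t - 1) := ⟨_, rfl⟩
  have hcardE : (Finset.univ.erase d₀).card = t - 1 := by
    rw [Finset.card_erase_of_mem (Finset.mem_univ _), Finset.card_univ, Fintype.card_coe, H.hcard]
  obtain ⟨S, hS, hSc⟩ := Finset.exists_subset_card_eq (s := Finset.univ.erase d₀) (n := j) (by rw [hcardE]; omega)
  have hd₀S : d₀ ∉ S := fun h => by
    have := hS h
    simp at this
  have hw1 : 2 * (m / c) - 1 + j ≤ K := by omega
  have hw2 : K - 1 ≤ 2 * (m / c) - 1 + j := by omega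
  have hw3 : c * (2 * (m / c) - 1 + j) ≤ c * K := Nat.mul_le_mul_left c hw1
  have hw4 : c * (K - 1) ≤ c * (2 * (m / c) - 1 + j) := Nat.mul_le_mul_left c hw2
  have hw5 : c * (K - 1) + c = c * K := by
    rw [← Nat.mul_succ]
    congr 1
    omega
  obtain ⟨f, a, h5, h6, h7⟩ := htup (2 * (m / c) - 1) S hd₀S (by omega) (by rw [hSc]; omega)
  rw [hSc] at h6
  have h8 : a ≤ m / c - 1 := by omega
  have h9 : c * a ≤ c * (m / c - 1) := Nat.mul_le_mul_left c h8
  have h10 : c * (m / c - 1) + c = c * (m / c) := by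
    rw [← Nat.mul_succ]
    congr 1
    omega
  omega

end Cfsg.Agent.Lib.Classical.OSemi.SingOdd
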