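import Mathlib
import Cfsg.Agent.Lib.Classical.OSemi.EvenX
import Cfsg.Agent.Lib.Classical.OSemi.SingOdd

/-!
# Totally singular subspaces of a form of even dimension: the backward direction, for odd `r ≠ p`
-/

set_option autoImplicit false
set_option linter.unusedSectionVars false
set_option linter.unusedSimpArgs false
set_option linter.unusedVariables false
set_option linter.style.haveILetI false
set_option maxHeartbeats 1000000

open Polynomial Module QuadraticMap Matrix
open Cfsg Cfsg.Agent.Lib.Classical.Herm.CycTuples Cfsg.Agent.Lib.Classical.Witt.Hyp Cfsg.Agent.Lib.Linalg.OrthModels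
open Cfsg.Agent.Lib.Classical.Herm.OrthFinal Cfsg.Agent.Lib.Classical.OSemi.Lag Cfsg.Agent.Lib.Classical.OSemi.Nondeg
open Cfsg.Agent.Lib.Classical.OSemi.Split Cfsg.Agent.Lib.Classical.OSemi.TsModel
open Cfsg.Agent.Lib.Classical.OSemi.OddForm Cfsg.Agent.Lib.Classical.OSemi.Coprime Cfsg.Agent.Lib.Classical.OSemi.Clause
open Cfsg.Agent.Lib.Classical.OSemi.SingOdd Cfsg.Agent.Lib.Classical.OSemi.LagFree Cfsg.Agent.Lib.Classical.OSemi.EvenX

namespace Cfsg.Agent.Lib.Classical.OSemi.SingEven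

universe u

theorem even_sum_iff {s b o : ℕ} (h : s = 2 * b + o) : Even s ↔ Even o := by
  rw [h, Nat.even_add]
  simp

/-- The arithmetic of the even case. -/
theorem arith_even {i K k₁ m' l t s a₀ : ℕ} {τ : Prop} (hi0 : 0 < i) (hk : k₁ < i) (hl : l < i) (hs1 : s ≤ 2 * a₀ + t) (hs2 : 2 * a₀ ≤ s)
    (hsK : s ≤ K) (hfs : i * s = i * K + k₁ → (τ ↔ Even s)) (hcl : t + 2 * m' ≤ K)
    (hcl2 : (2 * l ≤ i ∧ k₁ = 0 ∧ ¬ (τ ↔ Even K) ∧ t + 2 * m' < K) ∨ (2 * l ≤ k₁ ∧ (τ ↔ Even K)) ∨ (2 * l < k₁ ∧ ¬ (τ ↔ Even K))) :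
    ∃ a : ℕ, a ≤ a₀ ∧ a ≤ m' ∧ i * s + 2 * ((i * m' + l) - a * i) ≤ i * K + k₁ ∧
      (i * s + 2 * ((i * m' + l) - a * i) = i * K + k₁ → (τ ↔ Even s)) := by
  by_cases hle : m' ≤ a₀
  · refine ⟨m', hle, le_rfl, ?_⟩
    have h0 : (i * m' + l) - m' * i = l := by
      rw [mul_comm m' i]
      omega
    rw [h0]
    rcases Nat.lt_or_ge s K with hlt | hge
    · -- `s < K`
      obtain ⟨z, hz⟩ : ∃ z, K = s + 1 + z := ⟨K - s - 1, by omega⟩
      have h1 : i * K = i * s + i + i * z := by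
        rw [hz]
        ring
      rcases Nat.eq_zero_or_pos z with rfl | hzp
      · -- `s + 1 = K`
        have hEv : Even K ↔ ¬ Even s := by
          rw [hz]
          simp [Nat.even_add_one]
        rcases hcl2 with ⟨h3, h4, h5, -⟩ | ⟨h3, -⟩ | ⟨h3, -⟩
        · refine ⟨by simp at h1; omega, fun _ => ?_⟩
          clear h1 hz hfs
          tauto
        · refine ⟨by simp at h1; omega, fun h => ?_⟩
          simp at h1
          omega
        · refine ⟨by simp at h1; omega, fun h => ?_⟩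
          simp at h1
          omega
      · have h3 : i * 1 ≤ i * z := Nat.mul_le_mul_left i hzp
        exact ⟨by omega, fun h => by omega⟩
    · have hsKe : s = K := by omega
      subst hsKe
      rcases hcl2 with ⟨h3, h4, h5, -⟩ | ⟨h3, h4⟩ | ⟨h3, h4⟩
      · exact absurd (hfs (by omega)) h5
      · exact ⟨by omega, fun _ => h4⟩
      · exact ⟨by omega, fun h => by omega⟩
  · have hlt : a₀ < m' := by omega
    refine ⟨a₀, le_rfl, hlt.le, ?_⟩
    obtain ⟨o, ho⟩ : ∃ o, s = 2 * a₀ + o := ⟨s - 2 * a₀, by omega⟩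
    have hot : o ≤ t := by omega
    have h1 : a₀ * i ≤ m' * i := Nat.mul_le_mul_right i hlt.le
    have h2 : i * s + 2 * ((i * m' + l) - a₀ * i) = i * (o + 2 * m') + 2 * l := by
      have h3 : i * s = 2 * (a₀ * i) + i * o := by
        rw [ho]
        ring
      have h4 : m' * i = i * m' := mul_comm _ _
      have h5 : i * (o + 2 * m') = i * o + 2 * (i * m') := by ring
      omega
    rw [h2]
    have hEo := even_sum_iff ho
    have hK' : o + 2 * m' ≤ K := by omega
    rcases Nat.lt_or_ge (o + 2 * m') K with hlt' | hge'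
    · obtain ⟨z, hz⟩ : ∃ z, K = o + 2 * m' + 1 + z := ⟨K - (o + 2 * m') - 1, by omega⟩
      have h3 : i * K = i * (o + 2 * m') + i + i * z := by
        rw [hz]
        ring
      rcases Nat.eq_zero_or_pos z with rfl | hzp
      · have hEv : Even K ↔ ¬ Even o := by
          rw [hz, add_zero, Nat.even_add_one, Nat.even_add]
          simp
        rcases hcl2 with ⟨h4, h5, h6, -⟩ | ⟨h4, -⟩ | ⟨h4, -⟩
        · refine ⟨by simp at h3; omega, fun _ => ?_⟩
          rw [hEo]
          clear h3 hz hfs h2 h1 ho hK' hlt'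
          tauto
        · refine ⟨by simp at h3; omega, fun h => ?_⟩
          simp at h3
          omega
        · refine ⟨by simp at h3; omega, fun h => ?_⟩
          simp at h3
          omega
      · have h4 : i * 1 ≤ i * z := Nat.mul_le_mul_left i hzp
        exact ⟨by omega, fun h => by omega⟩
    · have hKe : K = o + 2 * m' := by omega
      have hEv : Even K ↔ Even o := by
        rw [hKe, Nat.even_add]
        simp
      rcases hcl2 with ⟨h4, h5, h6, h7⟩ | ⟨h4, h5⟩ | ⟨h4, h5⟩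
      · omega
      · refine ⟨by rw [← hKe]; omega, fun _ => ?_⟩
        rw [hEo, ← hEv]
        exact h5
      · refine ⟨by rw [← hKe]; omega, fun h => ?_⟩
        rw [← hKe] at h
        omega

variable {F : Type u} [Field F] [Fintype F] {p : ℕ} [Fact p.Prime] [CharP F p] {q r i t : ℕ} {D : Finset F[X]}
variable {ι' : Type} [Fintype ι'] [DecidableEq ι']

/-- The construction of the invariant subspace. -/
theorem sing_of_v [Fact r.Prime] (H : Data q r i t D) (hF : Fintype.card F = q) (hr2 : r ≠ 2) (hrp : r ≠ p)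
    (Q : QuadraticForm F (ι' → F)) (hQ : PolarNondeg Q) {d : ℕ} (hcard : Fintype.card ι' = 2 * d)
    (x : ↥(Cfsg.isometryGroup F ⇑Q)) (hx : orderOf x = r) {k : D → ℕ} (hk : ∀ d, k (starD H d) = k d)
    (hcx : ((x : GL ι' F) : Matrix ι' ι' F).charpoly = polyOf D i (Fintype.card ι') k) (v : D → ℕ) (hv : ∀ d, v d + v (starD H d) ≤ k d)
    {a m : ℕ} (hva : ∑ d, v d = a) (ham : a * i ≤ m) (hN : i * ∑ d, k d + 2 * (m - a * i) ≤ 2 * d)
    (hfull : i * ∑ d, k d + 2 * (m - a * i) = 2 * d → (Lag Q ↔ (¬ Even i ∨ Even (∑ d, k d)))) :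
    ∃ U : Submodule F (ι' → F), finrank F U = m ∧ (∀ u ∈ U, Q u = 0) ∧
      U.map (Matrix.toLin' ((x : GL ι' F) : Matrix ι' ι' F)) ≤ U := by
  classical
  have hr : r.Prime := Fact.out
  obtain ⟨s, hs⟩ : ∃ s, s = ∑ d, k d := ⟨_, rfl⟩
  rw [← hs] at hN hfull
  obtain ⟨z, hz⟩ : Even (i * s) := by
    rw [hs]
    exact even_mul_sum H k hk
  obtain ⟨k'', hk''def⟩ : ∃ k'' : D → ℕ, k'' = fun d => k d - (v d + v (starD H d)) := ⟨_, rfl⟩
  have hk''s : ∀ d, k'' (starD H d) = k'' d := by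
    intro d
    rw [hk''def]
    show k (starD H d) - (v (starD H d) + v (starD H (starD H d))) = k d - (v d + v (starD H d))
    rw [hk d, starD_starD, add_comm]
  have hkeq : (fun d => v d + v (starD H d) + k'' d) = k := by
    funext d
    rw [hk''def]
    show v d + v (starD H d) + (k d - (v d + v (starD H d))) = k d
    have := hv d
    omega
  have hsumk : 2 * ∑ d, v d + ∑ d, k'' d = s := by
    have h5 : ∑ d, (v d + v (starD H d) + k'' d) = ∑ d, k d := Finset.sum_congr rfl fun d _ => congrFun hkeq d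
    rw [Finset.sum_add_distrib, Finset.sum_add_distrib, sum_star H v, ← hs] at h5
    omega
  have hpar : Even (∑ d, k'' d) ↔ Even s := (even_sum_iff hsumk.symm).symm
  obtain ⟨U, hU1, hU2, hU3⟩ := exists_inv_ts' H hF hr hr2 hrp Q hQ x hx v k'' hk''s (m - a * i)
    (by rw [hkeq]; exact hcx) (by rw [hcard, hsumk]; omega) (fun W _ _ _ QW hQW hdimW hLag => by
      rw [hsumk] at hdimW
      refine emb_even hQ hcard QW hQW hdimW hN ⟨z + (m - a * i), by omega⟩ (fun h => ?_)
      rw [hLag, hpar, hfull h])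
  refine ⟨U, ?_, hU2, hU3⟩
  rw [hU1, hva, mul_comm i a]
  omega

/-- The backward direction, `i` odd. -/
theorem sing_back_odd [Fact r.Prime] (H : Data q r i t D) (hF : Fintype.card F = q) (hr2 : r ≠ 2) (hrp : r ≠ p)
    (Q : QuadraticForm F (ι' → F)) (hQ : PolarNondeg Q) {d : ℕ} (hcard : Fintype.card ι' = 2 * d)
    (hev : ¬ Even i) {c : ℕ} (hc : c = 2 * i) {m : ℕ} (hm : m < d)
    (h1 : Lag Q → 2 * (m % i) ≤ (2 * d) % c) (h3 : ¬ Lag Q → (2 * d) % c = 0 ∨ 2 * (m % i) < (2 * d) % c)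
    (x : ↥(Cfsg.isometryGroup F ⇑Q)) (hx : orderOf x = r) :
    ∃ U : Submodule F (ι' → F), finrank F U = m ∧ (∀ u ∈ U, Q u = 0) ∧
      U.map (Matrix.toLin' ((x : GL ι' F) : Matrix ι' ι' F)) ≤ U := by
  classical
  have hr : r.Prime := Fact.out
  have hi0 := H.hipos
  have hcpos : 0 < c := by omega
  obtain ⟨k, hkle, hk0, hcx, hk⟩ := exists_tuple H hr hrp Q hQ x hx
  rw [hcard] at hkle
  have hfp : ∀ a, starD H a ≠ a := fun a ha => hev ((H.hstar a.1 a.2).1 (congrArg Subtype.val ha))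
  obtain ⟨T, hT⟩ := exists_transversal (starD H) (starD_starD H) hfp
  have h5 := sum_eq_two_mul (starD H) (starD_starD H) hT k hk
  obtain ⟨b, hb⟩ : ∃ b, b = ∑ d ∈ T, k d := ⟨_, rfl⟩
  rw [← hb] at h5
  rw [h5] at hkle
  have hsb : i * (2 * b) = c * b := by
    rw [hc]
    ring
  rw [hsb] at hkle
  have hdm := Nat.div_add_mod m i
  have hdn := Nat.div_add_mod (2 * d) c
  have hlt' := Nat.mod_lt (2 * d) hcpos
  have hlm := Nat.mod_lt m hi0
  have hbK : b ≤ (2 * d) / c := by
    rw [Nat.le_div_iff_mul_le hcpos, mul_comm]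
    omega
  have hbK' : c * b ≤ c * ((2 * d) / c) := Nat.mul_le_mul_left c hbK
  have hfull0 : c * b = 2 * d → Lag Q := by
    intro h
    have h6 := lag_of_full H hF hr hr2 hrp Q hQ x hx hcx (by rw [hcard, h5, hsb, h])
    exact h6.2 (Or.inl hev)
  by_cases hle : b ≤ m / i
  · obtain ⟨v, hv, hva⟩ := exists_half_odd (starD H) (starD_starD H) hfp k hk (a := b) (by omega)
    have h6 : b * i ≤ m / i * i := Nat.mul_le_mul_right i hle
    rw [mul_comm (m / i)] at h6
    have h7 : i * ∑ d, k d = 2 * (b * i) := by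
      rw [h5]
      ring
    refine sing_of_v H hF hr2 hrp Q hQ hcard x hx hk hcx v hv hva (by omega) ?_ (fun h => by omega)
    rw [h7]
    omega
  · obtain ⟨v, hv, hva⟩ := exists_half_odd (starD H) (starD_starD H) hfp k hk (a := m / i) (by omega)
    have h7 : i * ∑ d, k d = c * b := by
      rw [h5, hsb]
    have h8 : m - m / i * i = m % i := by
      rw [mul_comm]
      omega
    refine sing_of_v H hF hr2 hrp Q hQ hcard x hx hk hcx v hv hva (by rw [mul_comm]; omega) ?_ (fun h => ?_)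
    · rw [h7, h8]
      by_cases hL : Lag Q
      · have := h1 hL
        omega
      · rcases h3 hL with h9 | h9
        · rcases Nat.lt_or_ge b ((2 * d) / c) with hlt | hge
          · have h10 : c * (b + 1) ≤ c * ((2 * d) / c) := Nat.mul_le_mul_left c hlt
            rw [mul_add, mul_one] at h10
            omega
          · have hbe : b = (2 * d) / c := by omega
            exfalso
            apply hL
            apply hfull0
            rw [hbe]
            omega
        · omega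
    · rw [h7, h8] at h
      have hL : Lag Q := by
        by_contra hL
        rcases h3 hL with h9 | h9
        · rcases Nat.lt_or_ge b ((2 * d) / c) with hlt | hge
          · have h10 : c * (b + 1) ≤ c * ((2 * d) / c) := Nat.mul_le_mul_left c hlt
            rw [mul_add, mul_one] at h10
            omega
          · have hbe : b = (2 * d) / c := by omega
            apply hL
            apply hfull0
            rw [hbe]
            omega
        · omega
      exact iff_of_true hL (Or.inl hev)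

/-- The backward direction, `i` even. -/
theorem sing_back_even [Fact r.Prime] (H : Data q r i t D) (hF : Fintype.card F = q) (hr2 : r ≠ 2) (hrp : r ≠ p)
    (Q : QuadraticForm F (ι' → F)) (hQ : PolarNondeg Q) {d : ℕ} (hcard : Fintype.card ι' = 2 * d)
    (hev : Even i) {m : ℕ} (hcl : t + 2 * (m / i) ≤ (2 * d) / i)
    (hcl2 : (2 * (m % i) ≤ i ∧ (2 * d) % i = 0 ∧ ¬ (Lag Q ↔ Even ((2 * d) / i)) ∧ t + 2 * (m / i) < (2 * d) / i) ∨
      (2 * (m % i) ≤ (2 * d) % i ∧ (Lag Q ↔ Even ((2 * d) / i))) ∨ (2 * (m % i) < (2 * d) % i ∧ ¬ (Lag Q ↔ Even ((2 * d) / i))))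
    (x : ↥(Cfsg.isometryGroup F ⇑Q)) (hx : orderOf x = r) :
    ∃ U : Submodule F (ι' → F), finrank F U = m ∧ (∀ u ∈ U, Q u = 0) ∧
      U.map (Matrix.toLin' ((x : GL ι' F) : Matrix ι' ι' F)) ≤ U := by
  classical
  have hr : r.Prime := Fact.out
  have hi0 := H.hipos
  obtain ⟨k, hkle, hk0, hcx, hk⟩ := exists_tuple H hr hrp Q hQ x hx
  rw [hcard] at hkle
  obtain ⟨s, hs⟩ : ∃ s, s = ∑ d, k d := ⟨_, rfl⟩
  rw [← hs] at hkle
  obtain ⟨a₀, ha₀⟩ : ∃ a₀, a₀ = ∑ d, k d / 2 := ⟨_, rfl⟩
  have hs2 : s ≤ 2 * a₀ + t := by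
    have h5 : ∑ d, k d ≤ ∑ d : D, (2 * (k d / 2) + 1) := Finset.sum_le_sum fun d _ => by omega
    rw [Finset.sum_add_distrib, ← Finset.mul_sum, ← ha₀] at h5
    have h6 : ∑ _d : D, 1 = t := by
      simp [H.hcard]
    rw [h6] at h5
    omega
  have hs3 : 2 * a₀ ≤ s := by
    have h5 : ∑ d : D, 2 * (k d / 2) ≤ ∑ d, k d := Finset.sum_le_sum fun d _ => by omega
    rw [← Finset.mul_sum, ← ha₀] at h5
    omega
  have hsK : s ≤ (2 * d) / i := by
    rw [Nat.le_div_iff_mul_le hi0, mul_comm]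
    exact hkle
  have hdm := Nat.div_add_mod m i
  have hdn := Nat.div_add_mod (2 * d) i
  have hk₁ := Nat.mod_lt (2 * d) hi0
  have hl := Nat.mod_lt m hi0
  have hfs : i * s = i * ((2 * d) / i) + (2 * d) % i → (Lag Q ↔ Even s) := by
    intro h
    have h6 := lag_of_full H hF hr hr2 hrp Q hQ x hx hcx (by rw [hcard, ← hs]; omega)
    rw [h6, ← hs]
    simp [hev]
  obtain ⟨a, ha1, ha2, ha3, ha4⟩ := arith_even hi0 hk₁ hl hs2 hs3 hsK hfs hcl hcl2
  obtain ⟨v, hv, hva⟩ := exists_sub (fun d => k d / 2) (a := a) (by rw [← ha₀]; exact ha1)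
  have hma : i * (m / i) + m % i = m := hdm
  rw [hma, hdn] at ha3
  rw [hma, hdn] at ha4
  refine sing_of_v H hF hr2 hrp Q hQ hcard x hx hk hcx v (fun d => ?_) hva ?_ ?_ (fun h => ?_)
  · rw [starD_eq_self_iff H hev d]
    have h9 : v d ≤ k d / 2 := hv d
    omega
  · have h5 : a * i ≤ m / i * i := Nat.mul_le_mul_right i ha2
    rw [mul_comm (m / i)] at h5
    omega
  · rw [← hs]
    omega
  · rw [← hs] at h ⊢
    have h5 := ha4 h
    rw [h5]
    simp [hev]

end Cfsg.Agent.Lib.Classical.OSemi.SingEven
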