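import Mathlib
import Cfsg.Agent.Lib.Classical.OSemi.SingEven
import Cfsg.Agent.Lib.Classical.Witt.Parity

/-!
# Totally singular subspaces of a form of even dimension: the forward direction, for odd `r ≠ p`
-/

set_option autoImplicit false
set_option linter.unusedSectionVars false
set_option linter.unusedSimpArgs false
set_option linter.unusedVariables false
set_option linter.style.haveILetI false
set_option maxHeartbeats 1000000

open Polynomial Module QuadraticMap Matrix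
open Cfsg Cfsg.Agent.Lib.Classical.Herm.CycTuples Cfsg.Agent.Lib.Classical.Witt.Hyp Cfsg.Agent.Lib.Linalg.OrthModels
open Cfsg.Agent.Lib.Classical.Herm.OrthFinal Cfsg.Agent.Lib.Classical.Herm.OrthType Cfsg.Agent.Lib.Classical.Witt.Index
open Cfsg.Agent.Lib.Classical.Herm.OrthEmbed
open Cfsg.Agent.Lib.Classical.OSemi.Lag Cfsg.Agent.Lib.Classical.OSemi.Nondeg
open Cfsg.Agent.Lib.Classical.OSemi.Split Cfsg.Agent.Lib.Classical.OSemi.TsModel Cfsg.Agent.Lib.Classical.OSemi.Decomp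
open Cfsg.Agent.Lib.Classical.OSemi.OddForm Cfsg.Agent.Lib.Classical.OSemi.Coprime Cfsg.Agent.Lib.Classical.OSemi.Clause
open Cfsg.Agent.Lib.Classical.OSemi.SylowFix
open Cfsg.Agent.Lib.Classical.OSemi.SingOdd Cfsg.Agent.Lib.Classical.OSemi.LagFree Cfsg.Agent.Lib.Classical.OSemi.EvenX
open Cfsg.Agent.Lib.Classical.Elusive.Inv
open Cfsg.Agent.Lib.Classical.Witt.TS
open Cfsg.Agent.Lib.Classical.Orth.Basic Cfsg.Agent.Lib.Classical.Orth.Classes Cfsg.Agent.Lib.Classical.Orth.Adjust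

namespace Cfsg.Agent.Lib.Classical.OSemi.SingEvenF

universe u

section Sub

variable {ι' : Type} [Fintype ι'] [DecidableEq ι'] {F : Type u} [Field F] [Fintype F]
variable {Q : QuadraticForm F (ι' → F)}

theorem exists_ts_even (hQ : PolarNondeg Q) {d m : ℕ} (hcard : Fintype.card ι' = 2 * d) (hm : m < d) :
    ∃ W : Submodule F (ι' → F), finrank F W = m ∧ ∀ w ∈ W, Q w = 0 := by
  have hdP : finrank F (Fin m ⊕ Fin m → F) = 2 * m := by
    rw [Module.finrank_fintype_fun_eq_card]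
    simp [Fintype.card_sum]
    ring
  obtain ⟨ι₀, hι₀⟩ := emb_even hQ hcard (plusQ m F) (polarNondeg_plusQ m) hdP (by omega) (even_two_mul m) (fun h => by omega)
  have hinj := injective_of_isometric (polarNondeg_plusQ (F := F) m) ι₀ hι₀
  obtain ⟨X, hX, hXd⟩ := lag_plusQ (F := F) m
  rw [hdP] at hXd
  refine ⟨X.map ι₀, ?_, ?_⟩
  · rw [← (Submodule.equivMapOfInjective ι₀ hinj X).finrank_eq]
    omega
  · rintro _ ⟨x, hx, rfl⟩
    rw [hι₀, hX x hx]

variable {p : ℕ} [Fact p.Prime] [CharP F p]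

/-- The main theorem on fixed spaces, in every characteristic. -/
theorem fix_facts_even {q : ℕ} (hF : Fintype.card F = q) (hQ : PolarNondeg Q) {r : ℕ} [Fact r.Prime] (hrp : r ≠ p)
    {S : Subgroup ↥(Cfsg.isometryGroup F ⇑Q)} (hS : IsPGroup r S) (hi1 : orderOf (q : ZMod r) ≠ 1) :
    ∃ Y : Submodule F (ι' → F), (∀ v, v ∈ Y ↔ ∀ g ∈ S, act g v = v) ∧ PolarNondeg (Q.comp Y.subtype) ∧
      finrank F Y ≤ Fintype.card ι' ∧ orderOf (q : ZMod r) ∣ Fintype.card ι' - finrank F Y ∧ Even (Fintype.card ι' - finrank F Y) := by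
  classical
  by_cases h2 : (2 : F) = 0
  swap
  · exact fix_facts (p := p) hF h2 hQ hrp hS hi1
  have hr : r.Prime := Fact.out
  let Y : Submodule F (ι' → F) :=
    { carrier := {v | ∀ g ∈ S, act g v = v}
      add_mem' := fun {a b} ha hb g hg => by rw [act_add, ha g hg, hb g hg]
      zero_mem' := fun g _ => act_zero g
      smul_mem' := fun c x hx g hg => by rw [act_smul, hx g hg] }
  have hY : ∀ v, v ∈ Y ↔ ∀ g ∈ S, act g v = v := fun v => Iff.rfl
  let B : LinearMap.BilinForm F (ι' → F) := polarBilin Q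
  have hBa : ∀ a b, B a b = polar (⇑Q) a b := fun _ _ => rfl
  have hBn : B.Nondegenerate := nondeg_of_polarNondeg Q hQ
  obtain ⟨U, hUdef⟩ : ∃ U, U = B.orthogonal Y := ⟨_, rfl⟩
  have hUmem : ∀ u, u ∈ U ↔ ∀ y ∈ Y, polar (⇑Q) y u = 0 := fun u => by
    rw [hUdef]
    exact Iff.rfl
  obtain ⟨a, ha⟩ := (IsPGroup.iff_card.1 hS)
  have hr0 : (r : F) ≠ 0 := cast_ne hr hrp
  haveI : Fintype ↥S := Fintype.ofFinite _
  have hN0 : ((Nat.card ↥S : ℕ) : F) ≠ 0 := by
    rw [ha]
    push_cast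
    exact pow_ne_zero _ hr0
  -- averaging
  have hYU : ∀ v, v ∈ Y → v ∈ U → v = 0 := by
    intro v hvY hvU
    apply hQ
    intro w
    have hfixw : (∑ g : ↥S, act g.1 w) ∈ Y := by
      intro h hh
      have h1 : act h (∑ g : ↥S, act g.1 w) = ∑ g : ↥S, act (⟨h, hh⟩ * g : ↥S).1 w := by
        simp only [act, Matrix.mulVec_sum]
        refine Finset.sum_congr rfl fun g _ => ?_
        exact congrArg (fun z : ↥(Cfsg.isometryGroup F ⇑Q) => ((z : GL ι' F) : Matrix ι' ι' F) *ᵥ w) (rfl : h * g.1 = (⟨h, hh⟩ * g : ↥S).1) |>.symm ▸ by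
          simp [Matrix.mulVec_mulVec]
      rw [h1]
      exact Fintype.sum_equiv (Equiv.mulLeft (⟨h, hh⟩ : ↥S)) _ _ (fun g => rfl)
    have h1 := (hUmem v).1 hvU _ hfixw
    have h3 : polar (⇑Q) (∑ g : ↥S, act g.1 w) v = ((Nat.card ↥S : ℕ) : F) * polar (⇑Q) w v := by
      have h4 : B (∑ g : ↥S, act g.1 w) v = ∑ g : ↥S, B (act g.1 w) v := by
        rw [map_sum, LinearMap.sum_apply]
      have h5 : ∀ g : ↥S, B (act g.1 w) v = polar (⇑Q) w v := by
        intro g
        rw [hBa, polar_act_left, (hY v).1 hvY _ (S.inv_mem g.2)]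
      rw [← hBa, h4, Finset.sum_congr rfl fun g _ => h5 g, Finset.sum_const, Nat.card_eq_fintype_card]
      simp
    rw [h1] at h3
    have h6 := (mul_eq_zero.1 h3.symm).resolve_left hN0
    rw [polar_comm]
    exact h6
  have hdim := LinearMap.BilinForm.finrank_orthogonal hBn Y
  rw [← hUdef, Module.finrank_fintype_fun_eq_card] at hdim
  have hinf : Y ⊓ U = ⊥ := by
    rw [eq_bot_iff]
    intro v hv
    exact (Submodule.mem_bot F).2 (hYU v hv.1 hv.2)
  have hYle : finrank F Y ≤ Fintype.card ι' := by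
    have := Submodule.finrank_le Y
    rwa [Module.finrank_fintype_fun_eq_card] at this
  have hsup : Y ⊔ U = ⊤ := by
    apply Submodule.eq_top_of_finrank_eq
    have h1 := Submodule.finrank_sup_add_finrank_inf_eq Y U
    rw [hinf, finrank_bot, add_zero] at h1
    rw [h1, hdim, Module.finrank_fintype_fun_eq_card]
    omega
  have hYU0 : ∀ a ∈ Y, ∀ b ∈ U, polar (⇑Q) a b = 0 := fun a ha b hb => (hUmem b).1 hb a ha
  have hYn : PolarNondeg (Q.comp Y.subtype) := nondeg_of_orth_sup hQ hsup hYU0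
  have hUn : PolarNondeg (Q.comp U.subtype) := nondeg_of_orth_sup hQ (by rw [sup_comm]; exact hsup)
    (fun a ha b hb => by rw [polar_comm]; exact hYU0 b hb a ha)
  -- invariance of the complement
  have hUinv : ∀ g ∈ S, ∀ u ∈ U, act g u ∈ U := by
    intro g hg u hu
    rw [hUmem]
    intro y hy
    have h1 := polar_act g (act g⁻¹ y) u
    rw [act_act_inv] at h1
    rw [h1, (hY y).1 hy _ (S.inv_mem hg)]
    exact (hUmem u).1 hu y hy
  -- the congruences
  have hc1 := card_modEq_fixed hS (U : Set (ι' → F)) hUinv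
  have hfix1 : Nat.card {v : ι' → F // v ∈ (U : Set (ι' → F)) ∧ ∀ g ∈ S, act g v = v} = 1 := by
    rw [Nat.card_eq_one_iff_unique]
    refine ⟨⟨?_⟩, ⟨⟨0, U.zero_mem, fun g _ => act_zero g⟩⟩⟩
    rintro ⟨x, hx1, hx2⟩ ⟨y, hy1, hy2⟩
    have e : x = y := by rw [hYU x hx2 hx1, hYU y hy2 hy1]
    exact Subtype.ext e
  rw [hfix1] at hc1
  have hcardU : Nat.card (U : Set (ι' → F)) = q ^ finrank F U := by
    have h1 : Nat.card (U : Set (ι' → F)) = Nat.card U := rfl
    rw [h1, Nat.card_eq_fintype_card, Module.card_eq_pow_finrank (K := F) (V := U), hF]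
  rw [hcardU] at hc1
  have hzq : ((q : ZMod r)) ^ finrank F U = 1 := by
    have h1 := (ZMod.natCast_eq_natCast_iff _ _ _).2 hc1
    push_cast at h1
    exact h1
  have hUd : finrank F U = Fintype.card ι' - finrank F Y := hdim
  have hiU : orderOf (q : ZMod r) ∣ finrank F U := orderOf_dvd_of_pow_eq_one hzq
  refine ⟨Y, hY, hYn, hYle, by rw [← hUd]; exact hiU, ?_⟩
  rw [← hUd]
  refine Cfsg.Agent.Lib.Classical.Witt.Parity.even_finrank_of_alt (polarBilin (Q.comp U.subtype)) (fun x => ?_) (fun x hx => hUn x hx)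
  show polar _ x x = 0
  rw [Cfsg.Agent.Lib.Classical.Witt.Hyp.polar_self, h2, zero_mul]

/-- A group acting freely on the nonzero vectors determines the type. -/
theorem free_type {q : ℕ} (hF : Fintype.card F = q) (hQ : PolarNondeg Q) {d : ℕ} (hcard : Fintype.card ι' = 2 * d) (hd : 1 ≤ d)
    {r : ℕ} [Fact r.Prime] (hr2 : r ≠ 2) (hx0 : (q : ZMod r) ≠ 0) {S : Subgroup ↥(Cfsg.isometryGroup F ⇑Q)} (hS : IsPGroup r S)
    (hfree : ∀ v, (∀ g ∈ S, act g v = v) → v = 0) {i : ℕ} (hi : i = orderOf (q : ZMod r)) (hi1 : i ≠ 1) :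
    (∀ j a : ℕ, i = j + j → d = j * a → (Lag Q ↔ Even a)) ∧ (¬ Even i → i ∣ d → Lag Q) := by
  classical
  have hV : finrank F (ι' → F) = 2 * d := by rw [Module.finrank_fintype_fun_eq_card, hcard]
  have hc := card_modEq_fixed hS ({v | Q v = 0} : Set (ι' → F)) (fun g hg v hv => by
    show Q (act g v) = 0
    rw [Q_act]
    exact hv)
  have hfix : Nat.card {v : ι' → F // v ∈ ({v | Q v = 0} : Set (ι' → F)) ∧ ∀ g ∈ S, act g v = v} = 1 := by
    rw [Nat.card_eq_one_iff_unique]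
    refine ⟨⟨?_⟩, ⟨⟨0, by simp, fun g _ => act_zero g⟩⟩⟩
    rintro ⟨x, hx1, hx2⟩ ⟨y, hy1, hy2⟩
    have e : x = y := by rw [hfree x hx2, hfree y hy2]
    exact Subtype.ext e
  rw [hfix] at hc
  have hq1 : 1 ≤ q := by rw [← hF]; exact Fintype.card_pos
  have hx1 : (q : ZMod r) ≠ 1 := by
    intro h
    rw [h, orderOf_one] at hi
    exact hi1 hi
  rcases exists_isometry_plus_or_minus hd hV Q (nondeg_of_polarNondeg _ hQ) with ⟨g, hg⟩ | ⟨ζ, hζ, g, hg⟩
  · have hL : Lag Q := lag_of_plus g hg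
    refine ⟨fun j a hj hda => ?_, fun _ _ => hL⟩
    have e : ({v | Q v = 0} : Set (ι' → F)) ≃ {v : Fin d ⊕ Fin d → F // Cfsg.quadFormPlus d F v = 0} :=
      Equiv.subtypeEquiv g.toEquiv (fun v => by
        change Q v = 0 ↔ plusQ d F (g v) = 0
        rw [hg])
    rw [Nat.card_congr e, Cfsg.Agent.S0289.result hF d hd] at hc
    have h2 := (ZMod.natCast_eq_natCast_iff _ _ _).2 hc
    have hle : q ^ (d - 1) ≤ q ^ (2 * d - 1) + q ^ d := le_add_of_le_right (Nat.pow_le_pow_right hq1 (by omega))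
    rw [Nat.cast_sub hle] at h2
    push_cast at h2
    have hj' : orderOf (q : ZMod r) = j + j := by rw [← hi, hj]
    exact iff_of_true hL (arith_plus hr2 hx1 (pow_half_eq hx0 hj') hda hd h2)
  · have hac := anisotropic_no_root hζ
    have hnL : ¬ Lag Q := by
      obtain ⟨s, rfl⟩ : ∃ s, d = s + 1 := ⟨d - 1, by omega⟩
      obtain ⟨g', hg'⟩ : ∃ g' : (ι' → F) ≃ₗ[F] ((Fin s ⊕ Fin s) ⊕ Fin 2 → F), ∀ v, minusQ s F 1 ζ (g' v) = Q v := ⟨g, hg⟩
      rintro ⟨X, hX, hdX⟩
      have h1 := finrank_le_of_ts hac g' hg' X hX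
      rw [hV] at hdX
      omega
    have e : ({v | Q v = 0} : Set (ι' → F)) ≃ {v : (Fin (d - 1) ⊕ Fin (d - 1)) ⊕ Fin 2 → F // Cfsg.quadFormMinus (d - 1) F 1 ζ v = 0} :=
      Equiv.subtypeEquiv g.toEquiv (fun v => by
        change Q v = 0 ↔ minusQ (d - 1) F 1 ζ (g v) = 0
        rw [hg])
    rw [Nat.card_congr e, Cfsg.Agent.S0290.result hF d hd 1 ζ hac] at hc
    have h2 := (ZMod.natCast_eq_natCast_iff _ _ _).2 hc
    have hle : q ^ d ≤ q ^ (2 * d - 1) + q ^ (d - 1) := le_add_of_le_left (Nat.pow_le_pow_right hq1 (by omega))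
    rw [Nat.cast_sub hle] at h2
    push_cast at h2
    refine ⟨fun j a hj hda => ?_, fun hev hid => ?_⟩
    · have hj' : orderOf (q : ZMod r) = j + j := by rw [← hi, hj]
      exact iff_of_false hnL (Nat.not_even_iff_odd.2 (arith_minus hr2 hx1 (pow_half_eq hx0 hj') hda hd h2))
    · exfalso
      have h1 : (q : ZMod r) ^ d = 1 := by
        obtain ⟨b, hb⟩ := hid
        rw [hb, pow_mul, hi, pow_orderOf_eq_one, one_pow]
      have h2ne : (2 : ZMod r) ≠ 0 := by
        intro h2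
        have h3 : ((2 : ℕ) : ZMod r) = 0 := by exact_mod_cast h2
        rw [ZMod.natCast_eq_zero_iff] at h3
        exact hr2 ((Nat.prime_dvd_prime_iff_eq Fact.out Nat.prime_two).1 h3)
      obtain ⟨y, hy⟩ : ∃ y, y = (q : ZMod r) ^ (d - 1) := ⟨_, rfl⟩
      have hyx : y * (q : ZMod r) = 1 := by
        rw [hy, ← pow_succ, Nat.sub_add_cancel hd, h1]
      have h3 : (q : ZMod r) ^ (2 * d - 1) = (q : ZMod r) ^ d * y := by
        rw [hy, ← pow_add]
        congr 1
        omega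
      rw [h3, ← hy, h1] at h2
      have h4 : 2 * (y - 1) = 0 := by linear_combination h2
      have h5 : y = 1 := by
        have := (mul_eq_zero.1 h4).resolve_left h2ne
        linear_combination this
      apply hx1
      rw [h5] at hyx
      linear_combination hyx

/-- A Sylow subgroup fixing a totally singular subspace. -/
theorem not_dvd_of_fixed (hQ : PolarNondeg Q) {r : ℕ} [Fact r.Prime] {m : ℕ} (S : Sylow r ↥(Cfsg.isometryGroup F ⇑Q))
    (U : Submodule F (ι' → F)) (hUd : finrank F U = m) (hUs : ∀ u ∈ U, Q u = 0) (hfix : ∀ g ∈ (S : Subgroup ↥(Cfsg.isometryGroup F ⇑Q)), ∀ u ∈ U, act g u = u) :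
    ¬ r ∣ Nat.card {W : Submodule F (ι' → F) // finrank F W = m ∧ ∀ w ∈ W, Q w = 0} := by
  refine not_dvd_card Q (nondeg_of_polarNondeg _ hQ) _ ?_ ?_ S U ⟨hUd, hUs⟩ ?_
  · rintro g W ⟨h1, h3⟩
    exact ⟨by rw [finrank_gMap, h1], isTS_gMap g h3⟩
  · rintro W W' ⟨h1, h3⟩ ⟨h5, h6⟩
    exact ⟨LinearEquiv.ofFinrankEq _ _ (by rw [h1, h5]), fun x => by rw [h3 _ x.2, h6 _ (Subtype.coe_prop _)]⟩
  · intro g hg
    apply gMap_eq_of_le
    intro v hv
    rw [hfix g hg v hv]
    exact hv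

/-- The numbers that can be dimensions of fixed spaces of `r`-groups. -/
def FixNum (i d : ℕ) (τ : Prop) (y : ℕ) : Prop :=
  y ≤ 2 * d ∧ i ∣ 2 * d - y ∧ Even (2 * d - y) ∧ (y = 0 → (∀ j a : ℕ, i = j + j → d = j * a → (τ ↔ Even a)) ∧ (¬ Even i → i ∣ d → τ))

theorem fixNum_of {q : ℕ} (hF : Fintype.card F = q) (hQ : PolarNondeg Q) {d : ℕ} (hcard : Fintype.card ι' = 2 * d) (hd : 1 ≤ d)
    {r : ℕ} [Fact r.Prime] (hr2 : r ≠ 2) (hrp : r ≠ p) (hx0 : (q : ZMod r) ≠ 0) {S : Subgroup ↥(Cfsg.isometryGroup F ⇑Q)} (hS : IsPGroup r S)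
    {i : ℕ} (hi : i = orderOf (q : ZMod r)) (hi1 : i ≠ 1) {Y : Submodule F (ι' → F)} (hY : ∀ v, v ∈ Y ↔ ∀ g ∈ S, act g v = v)
    (h1 : i ∣ Fintype.card ι' - finrank F Y) (h3 : Even (Fintype.card ι' - finrank F Y)) (h4 : finrank F Y ≤ Fintype.card ι') :
    FixNum i d (Lag Q) (finrank F Y) := by
  rw [hcard] at h1 h3 h4
  refine ⟨h4, h1, h3, fun h0 => ?_⟩
  refine free_type hF hQ hcard hd hr2 hx0 hS (fun v hv => ?_) hi hi1
  have h5 : v ∈ Y := (hY v).2 hv
  have h6 : Y = ⊥ := Submodule.finrank_eq_zero.1 h0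
  rw [h6] at h5
  exact (Submodule.mem_bot F).1 h5

/-- If all fixed spaces are everything. -/
theorem small_top {q : ℕ} (hF : Fintype.card F = q) (hQ : PolarNondeg Q) {d : ℕ} (hcard : Fintype.card ι' = 2 * d) (hd : 1 ≤ d)
    {r : ℕ} [Fact r.Prime] (hr2 : r ≠ 2) (hrp : r ≠ p) (hx0 : (q : ZMod r) ≠ 0)
    {i : ℕ} (hi : i = orderOf (q : ZMod r)) (hi1 : i ≠ 1) {m : ℕ} (hm : m < d)
    (hy : ∀ y, FixNum i d (Lag Q) y → 2 * d ≤ y) :
    ¬ r ∣ Nat.card {W : Submodule F (ι' → F) // finrank F W = m ∧ ∀ w ∈ W, Q w = 0} := by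
  classical
  let S : Sylow r ↥(Cfsg.isometryGroup F ⇑Q) := default
  obtain ⟨Y, hY, hYn, h4, h1, h3⟩ := fix_facts_even (p := p) hF hQ hrp S.isPGroup' (by rw [← hi]; exact hi1)
  rw [← hi] at h1
  have hyY := hy _ (fixNum_of (p := p) hF hQ hcard hd hr2 hrp hx0 S.isPGroup' hi hi1 hY h1 h3 h4)
  have hYt : Y = ⊤ := by
    apply Submodule.eq_top_of_finrank_eq
    rw [Module.finrank_fintype_fun_eq_card]
    omega
  obtain ⟨U, hU1, hU2⟩ := exists_ts_even hQ hcard hm
  refine not_dvd_of_fixed hQ S U hU1 hU2 (fun g hg u _ => ?_)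
  have h5 : u ∈ Y := by
    rw [hYt]
    exact Submodule.mem_top
  exact (hY u).1 h5 g hg

variable {q r i t : ℕ} {D : Finset F[X]}

/-- The shape of an invariant totally singular subspace of an element with a given tuple. -/
theorem exists_f_a_even [Fact r.Prime] (H : Data q r i t D) (ht : t * i = r - 1) (hF : Fintype.card F = q) (hr2 : r ≠ 2) (hrp : r ≠ p)
    (hQ : PolarNondeg Q) {d : ℕ} (hcard : Fintype.card ι' = 2 * d) (hc4 : Fintype.card ι' ≠ 4) (hne : Nonempty ι') {m : ℕ}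
    (hH : ∀ x : ↥(Cfsg.isometryGroup F ⇑Q), x ∈ Cfsg.Omega F ⇑Q → orderOf x = r →
      ∃ U : Submodule F (ι' → F), finrank F U = m ∧ (∀ u ∈ U, Q u = 0) ∧
      U.map (Matrix.toLin' ((x : GL ι' F) : Matrix ι' ι' F)) ≤ U)
    (u : D → ℕ) (hu : ∀ d, u (starD H d) = u d) (hu0 : u ≠ 0) (hle : i * ∑ d, u d ≤ 2 * d)
    (hfull : i * ∑ d, u d = 2 * d → (Lag Q ↔ (¬ Even i ∨ Even (∑ d, u d)))) :
    ∃ f a : ℕ, m = f + i * a ∧ 2 * f ≤ 2 * d - i * ∑ d, u d ∧ (Even i → a ≤ ∑ d, u d / 2) ∧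
      (2 * f = 2 * d - i * ∑ d, u d → (Lag Q ↔ (¬ Even i ∨ Even (∑ d, u d)))) := by
  have hr : r.Prime := Fact.out
  obtain ⟨x, hxΩ, hxo, hxc⟩ := exists_x_even H hF hr hr2 hrp Q hQ hcard hc4 hne u hu hu0 hle hfull
  obtain ⟨W, hWm, hWt, hWi⟩ := hH x hxΩ hxo
  obtain ⟨a, h1, h3, h4, h5⟩ := ts_split' H ht hF hr hr2 hrp Q hQ x hxo hxc W hWt hWi
  rw [hcard] at h3 h5
  exact ⟨_, a, by rw [← hWm]; exact h1, h3, h4, fun h => lag_of_lag_fix H hF hr hr2 hrp Q hQ x hxo hxc (h5 h)⟩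

/-- An element whose fixed space is that of a Sylow subgroup. -/
theorem small_of_x [Fact r.Prime] (H : Data q r i t D) (ht : t * i = r - 1) (hF : Fintype.card F = q) (hr2 : r ≠ 2) (hrp : r ≠ p)
    (hi : i = orderOf (q : ZMod r)) (hi1 : i ≠ 1)
    (hQ : PolarNondeg Q) {d : ℕ} (hcard : Fintype.card ι' = 2 * d) (hd : 1 ≤ d) (hc4 : Fintype.card ι' ≠ 4) (hne : Nonempty ι') {m : ℕ} (hmi : m < i)
    (hH : ∀ x : ↥(Cfsg.isometryGroup F ⇑Q), x ∈ Cfsg.Omega F ⇑Q → orderOf x = r →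
      ∃ U : Submodule F (ι' → F), finrank F U = m ∧ (∀ u ∈ U, Q u = 0) ∧
      U.map (Matrix.toLin' ((x : GL ι' F) : Matrix ι' ι' F)) ≤ U)
    (u : D → ℕ) (hu : ∀ d, u (starD H d) = u d) (hu0 : u ≠ 0) (hle : i * ∑ d, u d ≤ 2 * d)
    (hfull : i * ∑ d, u d = 2 * d → (Lag Q ↔ (¬ Even i ∨ Even (∑ d, u d))))
    (hy : ∀ y, FixNum i d (Lag Q) y → 2 * d - i * ∑ d, u d ≤ y) :
    ¬ r ∣ Nat.card {W : Submodule F (ι' → F) // finrank F W = m ∧ ∀ w ∈ W, Q w = 0} := by
  classical
  have hr : r.Prime := Fact.out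
  obtain ⟨x, hxΩ, hxo, hxc⟩ := exists_x_even H hF hr hr2 hrp Q hQ hcard hc4 hne u hu hu0 hle hfull
  obtain ⟨W, hWm, hWt, hWi⟩ := hH x hxΩ hxo
  obtain ⟨a, h1, -, -, -⟩ := ts_split' H ht hF hr hr2 hrp Q hQ x hxo hxc W hWt hWi
  obtain ⟨T, hTdef⟩ : ∃ T, T = Matrix.toLin' ((x : GL ι' F) : Matrix ι' ι' F) := ⟨_, rfl⟩
  rw [← hTdef] at h1 hWi
  have hTr : T ^ r = 1 := by
    rw [hTdef]
    exact toLin_pow_eq_one Q x (by rw [← hxo]; exact pow_orderOf_eq_one x)
  have hcT : LinearMap.charpoly T = polyOf D i (Fintype.card ι') u := by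
    rw [hTdef, Matrix.charpoly_toLin', hxc]
  have hfix := finrank_Fix_of_polyOf H hr hrp T hTr hcT
  rw [hcard] at hfix
  have ha0 : a = 0 := by
    by_contra h0
    have h5 : i * 1 ≤ i * a := Nat.mul_le_mul_left i (by omega)
    omega
  rw [ha0, mul_zero, add_zero] at h1
  have hWle : W ≤ Fix T := by
    have h5 : W ⊓ Fix T = W := Submodule.eq_of_le_of_finrank_eq inf_le_left h1.symm
    exact inf_eq_left.1 h5
  -- the Sylow subgroup
  have hP : IsPGroup r (Subgroup.zpowers x) := by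
    apply IsPGroup.of_card (n := 1)
    rw [Nat.card_zpowers, hxo, pow_one]
  obtain ⟨S, hS⟩ := hP.exists_le_sylow
  have hxS : x ∈ (S : Subgroup ↥(Cfsg.isometryGroup F ⇑Q)) := hS (Subgroup.mem_zpowers x)
  obtain ⟨Y, hY, hYn, h4, h5, h3⟩ := fix_facts_even (p := p) hF hQ hrp S.isPGroup' (by rw [← hi]; exact hi1)
  rw [← hi] at h5
  have hyY := hy _ (fixNum_of (p := p) hF hQ hcard hd hr2 hrp H.hQr.ne_zero S.isPGroup' hi hi1 hY h5 h3 h4)
  have hYT : Y ≤ Fix T := by
    intro v hv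
    rw [mem_Fix, hTdef, Matrix.toLin'_apply]
    exact (hY v).1 hv x hxS
  have hYe : Y = Fix T := Submodule.eq_of_le_of_finrank_le hYT (by rw [hfix]; exact hyY)
  refine not_dvd_of_fixed hQ S W hWm hWt (fun g hg w hw => ?_)
  have h6 : w ∈ Y := by
    rw [hYe]
    exact hWle hw
  exact (hY w).1 h6 g hg

/-- An element of order `r` fixes some space only if `i ≤ m`. -/
theorem no_small [Fact r.Prime] (H : Data q r i t D) (ht : t * i = r - 1) (ht0 : 0 < t) (hF : Fintype.card F = q) (hr2 : r ≠ 2) (hrp : r ≠ p)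
    (hi : i = orderOf (q : ZMod r))
    (hQ : PolarNondeg Q) {d : ℕ} (hcard : Fintype.card ι' = 2 * d) (hc4 : Fintype.card ι' ≠ 4) (hne : Nonempty ι') {c : ℕ} (hc : c = if Even i then i else 2 * i)
    {m : ℕ} (hm1 : 1 ≤ m) (hmd : m < d) (hmi : m < i)
    (hrΩ : r ∣ Nat.card {W : Submodule F (ι' → F) // finrank F W = m ∧ ∀ w ∈ W, Q w = 0})
    (hH : ∀ x : ↥(Cfsg.isometryGroup F ⇑Q), x ∈ Cfsg.Omega F ⇑Q → orderOf x = r →
      ∃ U : Submodule F (ι' → F), finrank F U = m ∧ (∀ u ∈ U, Q u = 0) ∧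
      U.map (Matrix.toLin' ((x : GL ι' F) : Matrix ι' ι' F)) ≤ U) : False := by
  classical
  have hi0 := H.hipos
  have hi1 : i ≠ 1 := by omega
  have hd : 1 ≤ d := by omega
  have hcpos := c_pos hi0 hc
  obtain ⟨K, hKdef⟩ : ∃ K, K = (2 * d) / c := ⟨_, rfl⟩
  obtain ⟨k₁, hk₁def⟩ : ∃ k₁, k₁ = (2 * d) % c := ⟨_, rfl⟩
  have hdn : c * K + k₁ = 2 * d := by
    rw [hKdef, hk₁def]
    exact Nat.div_add_mod _ _
  have hk₁lt : k₁ < c := by
    rw [hk₁def]
    exact Nat.mod_lt _ hcpos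
  -- the numbers
  have hnum : ∀ y, FixNum i d (Lag Q) y → ∃ b, y = c * b + k₁ ∧ b ≤ K := by
    rintro y ⟨h1, h3, h4, -⟩
    have hcd : c ∣ 2 * d - y := by
      by_cases hev : Even i
      · rw [hc, if_pos hev]
        exact h3
      · rw [hc, if_neg hev]
        have hcop : Nat.Coprime 2 i := by
          rw [Nat.coprime_two_left]
          exact Nat.not_even_iff_odd.1 hev
        exact hcop.mul_dvd_of_dvd_of_dvd h4.two_dvd h3
    obtain ⟨e, he⟩ := hcd
    have hle : e ≤ K := by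
      by_contra hlt
      have h5 : c * (K + 1) ≤ c * e := Nat.mul_le_mul_left c (by omega)
      rw [mul_add, mul_one] at h5
      omega
    refine ⟨K - e, ?_, by omega⟩
    have h5 : c * (K - e) + c * e = c * K := by
      rw [← mul_add]
      congr 1
      omega
    omega
  rcases Nat.eq_zero_or_pos K with hK0 | hK
  · refine small_top (p := p) hF hQ hcard hd hr2 hrp H.hQr.ne_zero hi hi1 hmd (fun y hy => ?_) hrΩ
    obtain ⟨b, h1, h3⟩ := hnum y hy
    have hb : b = 0 := by omega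
    rw [hb, mul_zero, zero_add] at h1
    rw [hK0, mul_zero, zero_add] at hdn
    omega
  obtain ⟨k₀, h5, h6, h7⟩ := exists_blocks H ht0 hc hK
  have hk₀K : Even i → ∑ d, k₀ d = K := by
    intro hev
    rw [hc, if_pos hev] at h7
    exact Nat.eq_of_mul_eq_mul_left hi0 h7
  by_cases hgood : 0 < k₁ ∨ (Lag Q ↔ (¬ Even i ∨ Even (∑ d, k₀ d)))
  · refine small_of_x H ht hF hr2 hrp hi hi1 hQ hcard hd hc4 hne hmi hH k₀ h5 h6 (by rw [h7]; omega) (fun h => ?_) (fun y hy => ?_) hrΩ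
    · rcases hgood with h8 | h8
      · omega
      · exact h8
    · obtain ⟨b, h1, h3⟩ := hnum y hy
      rw [h7]
      omega
  · obtain ⟨hk₁0, hbad⟩ := not_or.1 hgood
    have hk₁e : k₁ = 0 := by omega
    -- the fixed spaces are nonzero
    have hy0 : ∀ y, FixNum i d (Lag Q) y → y ≠ 0 := by
      intro y hy h0
      obtain ⟨-, -, -, h8⟩ := hy
      obtain ⟨h9, h10⟩ := h8 h0
      apply hbad
      by_cases hev : Even i
      · obtain ⟨j, hj⟩ := hev
        have h11 : d = j * K := by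
          have h12 := hk₀K ⟨j, hj⟩
          have hci : c = j + j := by
            rw [hc, if_pos ⟨j, hj⟩, hj]
          rw [hk₁e, add_zero, hci] at hdn
          have h13 : (j + j) * K = 2 * (j * K) := by ring
          omega
        rw [h9 j K hj h11, hk₀K ⟨j, hj⟩]
        have hev' : Even i := ⟨j, hj⟩
        simp only [hev', not_true_eq_false, false_or]
      · have h11 : i ∣ d := by
          have hci : c = 2 * i := by
            rw [hc, if_neg hev]
          rw [hk₁e, add_zero, hci] at hdn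
          have h13 : 2 * i * K = 2 * (i * K) := by ring
          exact ⟨K, by omega⟩
        exact iff_of_true (h10 hev h11) (Or.inl hev)
    rcases Nat.lt_or_ge 1 K with hK2 | hK1
    · obtain ⟨K', rfl⟩ : ∃ K', K = K' + 1 := ⟨K - 1, by omega⟩
      obtain ⟨k₂, h8, h9, h10⟩ := exists_blocks H ht0 hc (K := K') (by omega)
      have hcK : c * (K' + 1) = c * K' + c := by ring
      refine small_of_x H ht hF hr2 hrp hi hi1 hQ hcard hd hc4 hne hmi hH k₂ h8 h9 (by rw [h10]; omega) (fun h => by omega) (fun y hy => ?_) hrΩ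
      obtain ⟨b, h1, h3⟩ := hnum y hy
      have h11 := hy0 y hy
      rw [h10]
      have hb : 1 ≤ b := by
        by_contra h0
        have hb0 : b = 0 := by omega
        rw [hb0, mul_zero, zero_add] at h1
        omega
      have h12 : c * 1 ≤ c * b := Nat.mul_le_mul_left c hb
      omega
    · have hKe : K = 1 := by omega
      refine small_top (p := p) hF hQ hcard hd hr2 hrp H.hQr.ne_zero hi hi1 hmd (fun y hy => ?_) hrΩ
      obtain ⟨b, h1, h3⟩ := hnum y hy
      have h11 := hy0 y hy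
      have hb : b = 1 := by
        by_contra h0
        have hb0 : b = 0 := by omega
        rw [hb0, mul_zero, zero_add] at h1
        omega
      rw [hb, mul_one] at h1
      rw [hKe, mul_one] at hdn
      omega

/-- The forward direction. -/
theorem sing_forward_even [Fact r.Prime] (H : Data q r i t D) (ht : t * i = r - 1) (ht0 : 0 < t) (hF : Fintype.card F = q) (hr2 : r ≠ 2) (hrp : r ≠ p)
    (hi : i = orderOf (q : ZMod r))
    (hQ : PolarNondeg Q) {d : ℕ} (hcard : Fintype.card ι' = 2 * d) (hc4 : Fintype.card ι' ≠ 4) (hne : Nonempty ι') {c : ℕ} (hc : c = if Even i then i else 2 * i)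
    {m : ℕ} (hm1 : 1 ≤ m) (hmd : m < d)
    (hrΩ : r ∣ Nat.card {W : Submodule F (ι' → F) // finrank F W = m ∧ ∀ w ∈ W, Q w = 0})
    (hH : ∀ x : ↥(Cfsg.isometryGroup F ⇑Q), x ∈ Cfsg.Omega F ⇑Q → orderOf x = r →
      ∃ U : Submodule F (ι' → F), finrank F U = m ∧ (∀ u ∈ U, Q u = 0) ∧
      U.map (Matrix.toLin' ((x : GL ι' F) : Matrix ι' ι' F)) ≤ U) :
    i ≤ m ∧ (¬ Even i → (Lag Q → 2 * (m % i) ≤ (2 * d) % c) ∧ (¬ Lag Q → (2 * d) % c = 0 ∨ 2 * (m % i) < (2 * d) % c)) ∧
      (Even i → t + 2 * (m / i) ≤ (2 * d) / i ∧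
        ((2 * (m % i) ≤ i ∧ (2 * d) % i = 0 ∧ ¬ (Lag Q ↔ Even ((2 * d) / i)) ∧ t + 2 * (m / i) < (2 * d) / i) ∨
          (2 * (m % i) ≤ (2 * d) % i ∧ (Lag Q ↔ Even ((2 * d) / i))) ∨ (2 * (m % i) < (2 * d) % i ∧ ¬ (Lag Q ↔ Even ((2 * d) / i))))) := by
  classical
  have hi0 := H.hipos
  have him : i ≤ m := by
    by_contra hlt
    exact no_small H ht ht0 hF hr2 hrp hi hQ hcard hc4 hne hc hm1 hmd (by omega) hrΩ hH
  have hd : 1 ≤ d := by omega
  have hcpos := c_pos hi0 hc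
  refine ⟨him, fun hev => ?_, fun hev => ?_⟩
  · -- `i` odd
    have hci : c = 2 * i := by rw [hc, if_neg hev]
    obtain ⟨K, hKdef⟩ : ∃ K, K = (2 * d) / c := ⟨_, rfl⟩
    obtain ⟨k₁, hk₁def⟩ : ∃ k₁, k₁ = (2 * d) % c := ⟨_, rfl⟩
    rw [← hk₁def]
    have hdn : c * K + k₁ = 2 * d := by
      rw [hKdef, hk₁def]
      exact Nat.div_add_mod _ _
    have hk₁lt : k₁ < c := by
      rw [hk₁def]
      exact Nat.mod_lt _ hcpos
    have hmod : m % i ≤ m := Nat.mod_le m i
    rcases Nat.eq_zero_or_pos K with hK0 | hK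
    · rw [hK0, mul_zero, zero_add] at hdn
      exact ⟨fun _ => by omega, fun _ => Or.inr (by omega)⟩
    obtain ⟨k₀, h5, h6, h7⟩ := exists_blocks H ht0 hc hK
    by_cases hk0 : k₁ = 0
    · refine ⟨fun hL => ?_, fun _ => Or.inl hk0⟩
      obtain ⟨f, a, h8, h9, -, -⟩ := exists_f_a_even H ht hF hr2 hrp hQ hcard hc4 hne hH k₀ h5 h6 (by rw [h7]; omega)
        (fun _ => iff_of_true hL (Or.inl hev))
      rw [h7] at h9
      have hf : f = 0 := by omega
      rw [hf, zero_add] at h8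
      rw [h8, Nat.mul_mod_right]
      omega
    · obtain ⟨f, a, h8, h9, -, h10⟩ := exists_f_a_even H ht hF hr2 hrp hQ hcard hc4 hne hH k₀ h5 h6 (by rw [h7]; omega)
        (fun h => by omega)
      rw [h7] at h9 h10
      have hf : f < i := by omega
      have h11 : m % i = f := by
        rw [h8, Nat.add_mul_mod_self_left, Nat.mod_eq_of_lt hf]
      rw [h11]
      refine ⟨fun _ => by omega, fun hL => Or.inr ?_⟩
      by_contra hcon
      have h12 : 2 * f = 2 * d - c * K := by omega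
      exact hL ((h10 h12).2 (Or.inl hev))
  · -- `i` even
    have hci : c = i := by rw [hc, if_pos hev]
    obtain ⟨K, hKdef⟩ : ∃ K, K = (2 * d) / i := ⟨_, rfl⟩
    obtain ⟨k₁, hk₁def⟩ : ∃ k₁, k₁ = (2 * d) % i := ⟨_, rfl⟩
    obtain ⟨m', hm'def⟩ : ∃ m', m' = m / i := ⟨_, rfl⟩
    obtain ⟨l, hldef⟩ : ∃ l, l = m % i := ⟨_, rfl⟩
    rw [← hKdef, ← hk₁def, ← hm'def, ← hldef]
    have hdn : i * K + k₁ = 2 * d := by
      rw [hKdef, hk₁def]
      exact Nat.div_add_mod _ _
    have hdm : i * m' + l = m := by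
      rw [hm'def, hldef]
      exact Nat.div_add_mod _ _
    have hk₁lt : k₁ < i := by
      rw [hk₁def]
      exact Nat.mod_lt _ hi0
    have hllt : l < i := by
      rw [hldef]
      exact Nat.mod_lt _ hi0
    have hm' : 0 < m' := by
      rw [hm'def]
      exact Nat.div_pos him hi0
    have hK2 : 2 ≤ K := by
      by_contra hcon
      have h5 : K ≤ 1 := by omega
      have h6 : i * K ≤ i * 1 := Nat.mul_le_mul_left i h5
      omega
    have hK3 : k₁ = 0 → 2 < K := by
      intro hk0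
      by_contra hcon
      have h5 : K ≤ 2 := by omega
      have h6 : i * K ≤ i * 2 := Nat.mul_le_mul_left i h5
      omega
    have hD : D.Nonempty := by
      rw [← Finset.card_pos, H.hcard]
      exact ht0
    obtain ⟨d₁, hd₁⟩ := hD
    obtain ⟨d₀, hd₀⟩ : ∃ d₀ : D, d₀ = ⟨d₁, hd₁⟩ := ⟨_, rfl⟩
    have htup : ∀ (w₀ : ℕ) (S : Finset D), d₀ ∉ S → 0 < w₀ → i * (w₀ + S.card) ≤ 2 * d →
        (i * (w₀ + S.card) = 2 * d → (Lag Q ↔ Even (w₀ + S.card))) →
        ∃ f a : ℕ, m = f + i * a ∧ 2 * f ≤ 2 * d - i * (w₀ + S.card) ∧ a ≤ w₀ / 2 ∧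
          (2 * f = 2 * d - i * (w₀ + S.card) → (Lag Q ↔ Even (w₀ + S.card))) := by
      intro w₀ S hS hw hle hfull
      let u : D → ℕ := fun x => if x = d₀ then w₀ else if x ∈ S then 1 else 0
      have hu0 : u ≠ 0 := by
        intro h
        have := congrFun h d₀
        simp only [u, if_true, Pi.zero_apply] at this
        omega
      have hsum : ∑ x, u x = w₀ + S.card := by
        have h5 : ∀ x, u x = (if x = d₀ then w₀ else 0) + (if x ∈ S then 1 else 0) := by
          intro x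
          show (if x = d₀ then w₀ else if x ∈ S then 1 else 0) = _
          by_cases hx : x = d₀
          · subst hx
            simp [hS]
          · simp [hx]
        simp only [h5]
        rw [Finset.sum_add_distrib, Finset.sum_ite_eq' Finset.univ d₀, if_pos (Finset.mem_univ _), Finset.sum_ite_mem, Finset.univ_inter,
          Finset.sum_const, smul_eq_mul, mul_one]
      have hsum2 : ∑ x, u x / 2 = w₀ / 2 := by
        rw [Finset.sum_eq_single d₀]
        · simp [u]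
        · intro x _ hx
          show (if x = d₀ then w₀ else if x ∈ S then 1 else 0) / 2 = 0
          rw [if_neg hx]
          split_ifs <;> rfl
        · intro h0
          exact absurd (Finset.mem_univ _) h0
      have hne' : ∀ e : Prop, (e ↔ Even (w₀ + S.card)) ↔ (e ↔ (¬ Even i ∨ Even (w₀ + S.card))) := by
        intro e
        simp [hev]
      obtain ⟨f, a, h5, h6, h7, h8⟩ := exists_f_a_even H ht hF hr2 hrp hQ hcard hc4 hne hH u (fun x => by
        rw [starD_eq_self_iff H hev x]) hu0 (by rw [hsum]; exact hle) (fun h => by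
          rw [hsum] at h ⊢
          exact (hne' _).1 (hfull h))
      rw [hsum] at h6 h8
      refine ⟨f, a, h5, h6, ?_, fun h => (hne' _).2 (h8 h)⟩
      have h9 := h7 hev
      rwa [hsum2] at h9
    have hiK : i * (K - 1) + i = i * K := by
      rw [← Nat.mul_succ]
      congr 1
      omega
    have hiK2 : i * (K - 2) + i + i = i * K := by
      have h5 : K = K - 2 + 2 := by omega
      conv_rhs => rw [h5]
      ring
    -- an element of `K` or `K - 1` blocks
    have hcases : ((2 * l ≤ k₁ ∧ (k₁ = 2 * l → (Lag Q ↔ Even K))) ∨ (k₁ = 0 ∧ ¬ (Lag Q ↔ Even K) ∧ 2 * l ≤ i ∧ 2 * m' ≤ K - 1)) ∧ 2 * m' ≤ K := by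
      by_cases hgood : 0 < k₁ ∨ (Lag Q ↔ Even K)
      · obtain ⟨f, a, h5, h6, h7, h8⟩ := htup K ∅ (Finset.notMem_empty _) (by omega) (by simpa using by omega) (fun h => by
          simp only [Finset.card_empty, add_zero] at h ⊢
          rcases hgood with h9 | h9
          · omega
          · exact h9)
        simp only [Finset.card_empty, add_zero] at h6 h8
        have hf : f < i := by omega
        have hfl : f = l := by
          rw [hldef, h5, Nat.add_mul_mod_self_left, Nat.mod_eq_of_lt hf]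
        have ham : a = m' := by
          rw [hm'def, h5, Nat.add_mul_div_left _ _ hi0, Nat.div_eq_of_lt hf, zero_add]
        refine ⟨Or.inl ⟨by omega, fun h => h8 (by omega)⟩, by omega⟩
      · obtain ⟨h5, h6⟩ := not_or.1 hgood
        have hk0 : k₁ = 0 := by omega
        have hK3' := hK3 hk0
        obtain ⟨f, a, h7, h8, h9, -⟩ := htup (K - 1) ∅ (Finset.notMem_empty _) (by omega) (by simp; omega) (fun h => by
          simp only [Finset.card_empty, add_zero] at h
          omega)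
        simp only [Finset.card_empty, add_zero] at h8
        have hf : f < i := by omega
        have hfl : f = l := by
          rw [hldef, h7, Nat.add_mul_mod_self_left, Nat.mod_eq_of_lt hf]
        have ham : a = m' := by
          rw [hm'def, h7, Nat.add_mul_div_left _ _ hi0, Nat.div_eq_of_lt hf, zero_add]
        have h10 : 2 * m' ≤ K - 1 := by omega
        exact ⟨Or.inr ⟨hk0, h6, by omega, h10⟩, by omega⟩
    obtain ⟨hcases, h2K⟩ := hcases
    have hcardE : (Finset.univ.erase d₀).card = t - 1 := by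
      rw [Finset.card_erase_of_mem (Finset.mem_univ _), Finset.card_univ, Fintype.card_coe, H.hcard]
    have hm'i : i * (m' - 1) + i = i * m' := by
      rw [← Nat.mul_succ]
      congr 1
      omega
    -- the bound `t + 2 m' ≤ K`
    have hT : t + 2 * m' ≤ K := by
      by_contra hcon
      push Not at hcon
      obtain ⟨δ, hδ⟩ : ∃ δ, δ = K - 2 * m' := ⟨_, rfl⟩
      have hδt : δ ≤ t - 1 := by omega
      obtain ⟨S, hS, hSc⟩ := Finset.exists_subset_card_eq (s := Finset.univ.erase d₀) (n := δ) (by rw [hcardE]; exact hδt)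
      have hd₀S : d₀ ∉ S := fun h => by
        have := hS h
        simp at this
      have hs : 2 * m' - 1 + S.card = K - 1 := by omega
      obtain ⟨f, a, h5, h6, h7, -⟩ := htup (2 * m' - 1) S hd₀S (by omega) (by rw [hs]; omega) (fun h => by
        rw [hs] at h
        omega)
      rw [hs] at h6
      have h8 : a ≤ m' - 1 := by omega
      have h9 : i * a ≤ i * (m' - 1) := Nat.mul_le_mul_left i h8
      omega
    refine ⟨hT, ?_⟩
    rcases hcases with ⟨h5, h6⟩ | ⟨h5, h6, h7, h8⟩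
    · by_cases hρ : Lag Q ↔ Even K
      · exact Or.inr (Or.inl ⟨h5, hρ⟩)
      · refine Or.inr (Or.inr ⟨?_, hρ⟩)
        by_contra hcon
        exact hρ (h6 (by omega))
    · refine Or.inl ⟨h7, h5, h6, ?_⟩
      by_contra hcon
      have hTe : t + 2 * m' = K := by omega
      have hK3' := hK3 h5
      obtain ⟨S, hS, hSc⟩ := Finset.exists_subset_card_eq (s := Finset.univ.erase d₀) (n := t - 1) (by rw [hcardE])
      have hd₀S : d₀ ∉ S := fun h => by
        have := hS h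
        simp at this
      have hs : 2 * m' - 1 + S.card = K - 2 := by omega
      obtain ⟨f, a, h9, h10, h11, h12⟩ := htup (2 * m' - 1) S hd₀S (by omega) (by rw [hs]; omega) (fun h => by
        rw [hs] at h
        omega)
      rw [hs] at h10 h12
      have h13 : a ≤ m' - 1 := by omega
      have h14 : i * a ≤ i * (m' - 1) := Nat.mul_le_mul_left i h13
      have h15 := h12 (by omega)
      apply h6
      rw [h15]
      have hK' : K = K - 2 + 2 := by omega
      conv_rhs => rw [hK']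
      rw [Nat.even_add]
      simp

end Sub

end Cfsg.Agent.Lib.Classical.OSemi.SingEvenF
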