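import Mathlib
import Cfsg.Agent.Lib.Classical.OSemi.SingEvenF

/-!
# The number of totally singular subspaces is prime to the characteristic (every characteristic)
-/

set_option autoImplicit false
set_option linter.unusedSectionVars false
set_option linter.unusedSimpArgs false
set_option linter.unusedVariables false
set_option linter.style.haveILetI false
set_option maxHeartbeats 1000000

open Module QuadraticMap Matrix
open Cfsg Cfsg.Agent.Lib.Classical.Witt.Hyp Cfsg.Agent.Lib.Linalg.OrthModels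
open Cfsg.Agent.Lib.Classical.Witt.Index
open Cfsg.Agent.Lib.Classical.OSemi.Lag
open Cfsg.Agent.Lib.Classical.OSemi.Decomp
open Cfsg.Agent.Lib.Classical.OSemi.SylowFix
open Cfsg.Agent.Lib.Classical.OSemi.SingEvenF
open Cfsg.Agent.Lib.Classical.Witt.TS
open Cfsg.Agent.Lib.Classical.Orth.Basic Cfsg.Agent.Lib.Classical.Orth.Classes Cfsg.Agent.Lib.Classical.Orth.Adjust

namespace Cfsg.Agent.Lib.Classical.OSemi.SingStep

universe u

variable {F : Type u} [Field F] [Fintype F] {p : ℕ} [Fact p.Prime] [CharP F p]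

/-- The number of singular vectors of a nondegenerate space of Witt index large enough is divisible by `p`. -/
theorem card_sing_dvd {W : Type*} [AddCommGroup W] [Module F W] [FiniteDimensional F W] (QW : QuadraticForm F W) (hn : PolarNondeg QW)
    {e : ℕ} (he : 2 ≤ e) (hd : finrank F W = 2 * e) : p ∣ Nat.card {v // QW v = 0} := by
  classical
  obtain ⟨n, hpp, hn'⟩ := FiniteField.card F p
  have hpq : p ∣ Fintype.card F := by
    rw [hn']
    exact dvd_pow_self p n.ne_zero
  have hdv : ∀ j, 1 ≤ j → p ∣ Fintype.card F ^ j := fun j hj => hpq.trans (dvd_pow_self _ (by omega))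
  rcases exists_isometry_plus_or_minus (by omega) hd QW (nondeg_of_polarNondeg _ hn) with ⟨g, hg⟩ | ⟨ζ, hζ, g, hg⟩
  · have e' : {v // QW v = 0} ≃ {v : Fin e ⊕ Fin e → F // Cfsg.quadFormPlus e F v = 0} :=
      Equiv.subtypeEquiv g.toEquiv (fun v => by
        change QW v = 0 ↔ plusQ e F (g v) = 0
        rw [hg])
    rw [Nat.card_congr e', Cfsg.Agent.S0289.result rfl e (by omega)]
    exact Nat.dvd_sub (dvd_add (hdv _ (by omega)) (hdv _ (by omega))) (hdv _ (by omega))
  · have hac := anisotropic_no_root hζ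
    have e' : {v // QW v = 0} ≃ {v : (Fin (e - 1) ⊕ Fin (e - 1)) ⊕ Fin 2 → F // Cfsg.quadFormMinus (e - 1) F 1 ζ v = 0} :=
      Equiv.subtypeEquiv g.toEquiv (fun v => by
        change QW v = 0 ↔ minusQ (e - 1) F 1 ζ (g v) = 0
        rw [hg])
    rw [Nat.card_congr e', Cfsg.Agent.S0290.result rfl e (by omega) 1 ζ hac]
    exact Nat.dvd_sub (dvd_add (hdv _ (by omega)) (hdv _ (by omega))) (hdv _ (by omega))

variable {ι' : Type} [Fintype ι'] [DecidableEq ι']
variable {Q : QuadraticForm F (ι' → F)}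

/-- The inductive step for chains of invariant totally singular subspaces. -/
theorem exists_ts_step_even (hQ : PolarNondeg Q) {d : ℕ} (hcard : Fintype.card ι' = 2 * d) {S : Subgroup ↥(Cfsg.isometryGroup F ⇑Q)} (hS : IsPGroup p S)
    {U : Submodule F (ι' → F)} (hU : IsTS Q U) (hUS : ∀ g ∈ S, ∀ u ∈ U, act g u ∈ U) (hu : finrank F U + 2 ≤ d) :
    ∃ U' : Submodule F (ι' → F), finrank F U' = finrank F U + 1 ∧ IsTS Q U' ∧ ∀ g ∈ S, ∀ u ∈ U', act g u ∈ U' := by
  classical
  have hp : p.Prime := Fact.out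
  let B : LinearMap.BilinForm F (ι' → F) := polarBilin Q
  have hBa : ∀ a b, B a b = polar (⇑Q) a b := fun _ _ => rfl
  have hBn : B.Nondegenerate := nondeg_of_polarNondeg Q hQ
  obtain ⟨P, hPdef⟩ : ∃ P, P = B.orthogonal U := ⟨_, rfl⟩
  have hPmem : ∀ v, v ∈ P ↔ ∀ u ∈ U, polar (⇑Q) u v = 0 := fun v => by
    rw [hPdef]
    exact Iff.rfl
  have hUP : U ≤ P := fun v hv => (hPmem v).2 fun u hu => hU.polar_eq_zero hu hv
  have hPS : ∀ g ∈ S, ∀ v ∈ P, act g v ∈ P := by
    intro g hg v hv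
    rw [hPmem]
    intro u hu
    have h1 := polar_act g (act g⁻¹ u) v
    rw [act_act_inv] at h1
    rw [h1]
    exact (hPmem v).1 hv _ (hUS _ (S.inv_mem hg) u hu)
  have hdP := LinearMap.BilinForm.finrank_orthogonal hBn U
  rw [← hPdef, Module.finrank_fintype_fun_eq_card, hcard] at hdP
  have hUle : finrank F U ≤ 2 * d := by omega
  -- a complement
  obtain ⟨C, hC⟩ := Submodule.exists_isCompl U
  obtain ⟨W₀, hW₀def⟩ : ∃ W₀, W₀ = C ⊓ P := ⟨_, rfl⟩
  have hW₀P : W₀ ≤ P := by
    rw [hW₀def]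
    exact inf_le_right
  have hsup : U ⊔ W₀ = P := by
    have h1 := sup_inf_assoc_of_le C hUP
    rw [hC.sup_eq_top, top_inf_eq] at h1
    rw [hW₀def]
    exact h1.symm
  have hinf : U ⊓ W₀ = ⊥ := by
    rw [eq_bot_iff, ← hC.inf_eq_bot]
    rw [hW₀def]
    exact inf_le_inf_left _ inf_le_left
  have hd₀ : finrank F W₀ = 2 * (d - finrank F U) := by
    have h1 := Submodule.finrank_sup_add_finrank_inf_eq U W₀
    rw [hsup, hinf, finrank_bot, add_zero] at h1
    omega
  -- the orthogonal of `P`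
  have hOU : B.orthogonal P = U := by
    symm
    apply Submodule.eq_of_le_of_finrank_eq
    · intro u hu
      intro w hw
      show polar (⇑Q) w u = 0
      rw [polar_comm]
      exact (hPmem w).1 hw u hu
    · have h1 := LinearMap.BilinForm.finrank_orthogonal hBn P
      rw [Module.finrank_fintype_fun_eq_card, hcard] at h1
      omega
  have hW₀n : PolarNondeg (Q.comp W₀.subtype) := by
    intro a ha
    have h1 : (a : ι' → F) ∈ B.orthogonal P := by
      intro y hy
      rw [← hsup] at hy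
      obtain ⟨u, hu, w, hw, rfl⟩ := Submodule.mem_sup.1 hy
      show polar (⇑Q) (u + w) (a : ι' → F) = 0
      have h3 : B (u + w) (a : ι' → F) = B u a + B w a := by
        rw [map_add, LinearMap.add_apply]
      rw [hBa, hBa, hBa] at h3
      rw [h3, (hPmem _).1 (hW₀P a.2) u hu, zero_add, polar_comm]
      have h4 := ha ⟨w, hw⟩
      rwa [polar_comp_subtype] at h4
    rw [hOU] at h1
    have h3 : (a : ι' → F) ∈ U ⊓ W₀ := ⟨h1, a.2⟩
    rw [hinf] at h3
    exact Subtype.ext ((Submodule.mem_bot F).1 h3)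
  have hcount : p ∣ Nat.card {v : W₀ // (Q.comp W₀.subtype) v = 0} := card_sing_dvd (p := p) _ hW₀n (by omega) hd₀
  -- the quotient
  let M := (ι' → F) ⧸ U
  let mk : (ι' → F) →ₗ[F] M := U.mkQ
  let m : ↥S → M →ₗ[F] M := fun g => U.mapQ U (Matrix.mulVecLin ((g.1 : GL ι' F) : Matrix ι' ι' F)) (fun v hv => hUS g.1 g.2 v hv)
  have hm : ∀ (g : ↥S) (v : ι' → F), m g (mk v) = mk (act g.1 v) := fun g v => rfl
  have hsurj : Function.Surjective mk := Submodule.mkQ_surjective _
  let X : Set M := {y | ∃ v ∈ P, Q v = 0 ∧ mk v = y}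
  have hX : ∀ (g : ↥S) (y : M), y ∈ X → m g y ∈ X := by
    rintro g _ ⟨v, hv, hQv, rfl⟩
    rw [hm]
    exact ⟨act g.1 v, hPS g.1 g.2 v hv, by rw [Q_act]; exact hQv, rfl⟩
  letI : MulAction ↥S X :=
    { smul := fun g y => ⟨m g y.1, hX g y.1 y.2⟩
      one_smul := fun y => by
        apply Subtype.ext
        obtain ⟨v, hv⟩ := hsurj y.1
        change m 1 y.1 = y.1
        rw [← hv, hm]
        congr 1
        exact act_one v
      mul_smul := fun g g' y => by
        apply Subtype.ext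
        obtain ⟨v, hv⟩ := hsurj y.1
        change m (g * g') y.1 = m g (m g' y.1)
        rw [← hv, hm, hm, hm]
        congr 1
        exact act_mul g.1 g'.1 v }
  have hsm : ∀ (g : ↥S) (y : X), ((g • y : X) : M) = m g y.1 := fun _ _ => rfl
  have h1 := hS.card_modEq_card_fixedPoints X
  haveI : Finite M := inferInstance
  -- the bijection
  let f : {v : W₀ // (Q.comp W₀.subtype) v = 0} → X := fun w => ⟨mk (w.1 : ι' → F), (w.1 : ι' → F), hW₀P w.1.2, w.2, rfl⟩
  have hf : Function.Bijective f := by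
    constructor
    · rintro ⟨a, ha⟩ ⟨b, hb⟩ hab
      have h3 : mk (a : ι' → F) = mk (b : ι' → F) := congrArg Subtype.val hab
      have h4 : (a : ι' → F) - b ∈ U := (Submodule.Quotient.eq U).1 h3
      have h5 : (a : ι' → F) - b ∈ U ⊓ W₀ := ⟨h4, W₀.sub_mem a.2 b.2⟩
      rw [hinf] at h5
      have h6 : (a : ι' → F) = b := sub_eq_zero.1 ((Submodule.mem_bot F).1 h5)
      exact Subtype.ext (Subtype.ext h6)
    · rintro ⟨_, v, hv, hQv, rfl⟩
      rw [← hsup] at hv
      obtain ⟨u, hu, w, hw, rfl⟩ := Submodule.mem_sup.1 hv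
      have h3 : polar (⇑Q) u w = 0 := (hPmem w).1 (hW₀P hw) u hu
      have h4 : Q w = 0 := by
        rw [Q_add, hU u hu, h3] at hQv
        simpa using hQv
      refine ⟨⟨⟨w, hw⟩, h4⟩, ?_⟩
      apply Subtype.ext
      show mk w = mk (u + w)
      rw [map_add]
      have h5 : mk u = 0 := (Submodule.Quotient.mk_eq_zero U).2 hu
      rw [h5, zero_add]
  have hcardX : p ∣ Nat.card X := by
    rw [← Nat.card_congr (Equiv.ofBijective f hf)]
    exact hcount
  have h0X : (0 : M) ∈ X := ⟨0, P.zero_mem, by simp, by simp⟩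
  have h2 : ∃ y ∈ MulAction.fixedPoints ↥S X, y.1 ≠ 0 := by
    by_contra hcon
    push Not at hcon
    have h3 : Nat.card (MulAction.fixedPoints ↥S X) = 1 := by
      rw [Nat.card_eq_one_iff_unique]
      refine ⟨⟨?_⟩, ⟨⟨⟨0, h0X⟩, ?_⟩⟩⟩
      · rintro ⟨a, ha⟩ ⟨b, hb⟩
        have e : a = b := Subtype.ext (by rw [hcon a ha, hcon b hb])
        exact Subtype.ext e
      · intro g
        apply Subtype.ext
        rw [hsm]
        simp
    rw [h3] at h1
    have h4 : 0 ≡ 1 [MOD p] := (Nat.modEq_zero_iff_dvd.2 hcardX).symm.trans h1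
    have h5 : p ∣ 1 := (Nat.modEq_iff_dvd' (by omega)).1 h4
    exact hp.one_lt.ne' (Nat.dvd_one.1 h5)
  obtain ⟨⟨y, hy⟩, hfix, hy0⟩ := h2
  obtain ⟨v, hv, hQv, rfl⟩ := hy
  have hvU : v ∉ U := fun hv0 => hy0 ((Submodule.Quotient.mk_eq_zero U).2 hv0)
  have hvS : ∀ g ∈ S, act g v - v ∈ U := by
    intro g hg
    have h3 := hfix ⟨g, hg⟩
    have h4 := congrArg Subtype.val h3
    rw [hsm] at h4
    change m ⟨g, hg⟩ (mk v) = mk v at h4
    rw [hm] at h4
    exact (Submodule.Quotient.eq U).1 h4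
  refine ⟨U ⊔ Submodule.span F {v}, finrank_sup_span_add U hvU, hU.sup_span hQv ((hPmem v).1 hv), fun g hg w hw => ?_⟩
  obtain ⟨u, hu, z, hz, rfl⟩ := Submodule.mem_sup.1 hw
  obtain ⟨c, rfl⟩ := Submodule.mem_span_singleton.1 hz
  rw [act_add, act_smul]
  refine Submodule.add_mem _ (Submodule.mem_sup_left (hUS g hg u hu)) ?_
  have h3 : act g v = (act g v - v) + v := by abel
  rw [h3, smul_add]
  exact Submodule.add_mem _ (Submodule.mem_sup_left (U.smul_mem _ (hvS g hg)))
    (Submodule.mem_sup_right (Submodule.smul_mem _ _ (Submodule.mem_span_singleton_self v)))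

/-- Chains of invariant totally singular subspaces. -/
theorem exists_ts_inv_even (hQ : PolarNondeg Q) {d : ℕ} (hcard : Fintype.card ι' = 2 * d) {S : Subgroup ↥(Cfsg.isometryGroup F ⇑Q)} (hS : IsPGroup p S)
    {j : ℕ} (hj : j + 1 ≤ d) :
    ∃ U : Submodule F (ι' → F), finrank F U = j ∧ IsTS Q U ∧ ∀ g ∈ S, ∀ u ∈ U, act g u ∈ U := by
  induction j with
  | zero =>
    refine ⟨⊥, by simp, fun w hw => ?_, fun g _ u hu => ?_⟩
    · rw [(Submodule.mem_bot F).1 hw]
      simp
    · rw [(Submodule.mem_bot F).1 hu, act_zero]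
      exact Submodule.zero_mem _
  | succ j ih =>
    obtain ⟨U, hUd, hUt, hUS⟩ := ih (by omega)
    obtain ⟨U', h3, h4, h5⟩ := exists_ts_step_even (p := p) hQ hcard hS hUt hUS (by omega)
    exact ⟨U', by rw [h3, hUd], h4, h5⟩

/-- The number of totally singular subspaces is prime to the characteristic. -/
theorem not_dvd_ts_char_even (hQ : PolarNondeg Q) {d m : ℕ} (hcard : Fintype.card ι' = 2 * d) (hm : m < d) :
    ¬ p ∣ Nat.card {W : Submodule F (ι' → F) // finrank F W = m ∧ ∀ w ∈ W, Q w = 0} := by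
  classical
  let S : Sylow p ↥(Cfsg.isometryGroup F ⇑Q) := default
  obtain ⟨U, hUd, hUt, hUS⟩ := exists_ts_inv_even (p := p) hQ hcard S.isPGroup' (j := m) (by omega)
  refine not_dvd_card Q (nondeg_of_polarNondeg _ hQ) _ ?_ ?_ S U ⟨hUd, hUt⟩ ?_
  · rintro g W ⟨h1, h3⟩
    exact ⟨by rw [finrank_gMap, h1], isTS_gMap g h3⟩
  · rintro W W' ⟨h1, h3⟩ ⟨h5, h6⟩
    exact ⟨LinearEquiv.ofFinrankEq _ _ (by rw [h1, h5]), fun x => by rw [h3 _ x.2, h6 _ (Subtype.coe_prop _)]⟩
  · intro g hg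
    exact gMap_eq_of_le (fun x hx => hUS g hg x hx)

end Cfsg.Agent.Lib.Classical.OSemi.SingStep
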