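import Mathlib
import Cfsg.Agent.Lib.Classical.OSemi.SingStep
import Cfsg.Agent.Lib.Classical.OSemi.SingInvol

/-!
# Isometries with square `-1`
-/

set_option autoImplicit false
set_option linter.unusedSectionVars false
set_option linter.unusedSimpArgs false
set_option linter.unusedVariables false
set_option linter.style.haveILetI false
set_option maxHeartbeats 1000000

open Module QuadraticMap Matrix
open Cfsg Cfsg.Agent.Lib.Classical.Witt.Hyp Cfsg.Agent.Lib.Linalg.OrthModels Cfsg.Agent.Lib.Linalg.Bridge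
open Cfsg.Agent.Lib.Classical.Witt.Index
open Cfsg.Agent.Lib.Classical.OSemi.Lag
open Cfsg.Agent.Lib.Classical.OSemi.Decomp
open Cfsg.Agent.Lib.Classical.OSemi.SylowFix
open Cfsg.Agent.Lib.Classical.OSemi.SingEvenF
open Cfsg.Agent.Lib.Classical.OSemi.LagFree
open Cfsg.Agent.Lib.Classical.OSemi.SingInvol
open Cfsg.Agent.Lib.Classical.Witt.TS
open Cfsg.Agent.Lib.Classical.Orth.Basic Cfsg.Agent.Lib.Classical.Orth.Classes Cfsg.Agent.Lib.Classical.Orth.Adjust
open Cfsg.Agent.Lib.Classical.Orth.Spinor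

namespace Cfsg.Agent.Lib.Classical.OSemi.SingJ

universe u

variable {ι' : Type} [Fintype ι'] [DecidableEq ι'] {F : Type u} [Field F]
variable {Q : QuadraticForm F (ι' → F)}

variable [Fintype F]

theorem polar_J (h2 : (2 : F) ≠ 0) (x : ↥(Cfsg.isometryGroup F ⇑Q)) (hxx : ∀ v, act x (act x v) = -v) (v : ι' → F) :
    polar (⇑Q) v (act x v) = 0 := by
  have h3 := polar_act x v (act x v)
  rw [hxx, polar_neg_right, polar_comm] at h3
  have h5 : (2 : F) * polar (⇑Q) v (act x v) = 0 := by linear_combination -h3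
  exact (mul_eq_zero.1 h5).resolve_left h2

theorem Q_J (h2 : (2 : F) ≠ 0) (x : ↥(Cfsg.isometryGroup F ⇑Q)) (hxx : ∀ v, act x (act x v) = -v) (v : ι' → F) (a b : F) :
    Q (a • v + b • act x v) = (a ^ 2 + b ^ 2) * Q v := by
  rw [Q_add, Q_smul, Q_smul, polar_smul_left', polar_smul_right', polar_J h2 x hxx, Q_act]
  ring

theorem sum_sq_zero (hns : ¬ IsSquare (-1 : F)) {a b : F} (h : a ^ 2 + b ^ 2 = 0) : a = 0 ∧ b = 0 := by
  by_cases hb : b = 0
  · subst hb
    simp at h
    exact ⟨h, rfl⟩
  · exfalso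
    apply hns
    refine ⟨a / b, ?_⟩
    field_simp
    linear_combination -h

/-- The decomposition into planes, by induction. -/
theorem J_decomp (h2 : (2 : F) ≠ 0) (x : ↥(Cfsg.isometryGroup F ⇑Q)) (hxx : ∀ v, act x (act x v) = -v) :
    ∀ (e : ℕ) (A : Submodule F (ι' → F)), (∀ v ∈ A, act x v ∈ A) → PolarNondeg (Q.comp A.subtype) → finrank F A = 2 * e →
      (¬ IsSquare (-1 : F) → (Lag (Q.comp A.subtype) ↔ Even e)) ∧
      ∃ vs : List (ι' → F), (∀ v ∈ vs, Q v ≠ 0) ∧ (∀ v ∈ vs, v ∈ A) ∧ vs.length = 2 * e ∧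
        (∃ c : F, c ≠ 0 ∧ (vs.map (fun v => Q v)).prod = 2 ^ e * c ^ 2) ∧
        (∀ y ∈ A, (vs.map (fun v => Cfsg.reflectionMatrix (⇑Q) v)).prod *ᵥ y = act x y) ∧
        (∀ y, (∀ a ∈ A, polar (⇑Q) a y = 0) → (vs.map (fun v => Cfsg.reflectionMatrix (⇑Q) v)).prod *ᵥ y = y) := by
  classical
  intro e
  induction e with
  | zero =>
    intro A hAx hAn hd
    have hA0 : A = ⊥ := Submodule.finrank_eq_zero.1 (by omega)
    subst hA0
    refine ⟨fun _ => iff_of_true (lag_of_finrank_zero _ (by simpa using hd)) (by simp), [], by simp, by simp, by simp, ⟨1, one_ne_zero, by simp⟩, ?_, ?_⟩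
    · intro y hy
      rw [(Submodule.mem_bot F).1 hy]
      simp
    · intro y _
      simp
  | succ e ih =>
    intro A hAx hAn hd
    -- a nonsingular vector
    have hex : ∃ a : A, Q (a : ι' → F) ≠ 0 := by
      by_contra hcon
      push Not at hcon
      have h0 : ∀ a : A, a = 0 := fun a => hAn a (fun y => by
        rw [polar_comp_subtype]
        have h5 : Q ((a : ι' → F) + y) = 0 := hcon (a + y)
        rw [polar, h5, hcon a, hcon y]
        ring)
      haveI : Subsingleton A := ⟨fun a b => by rw [h0 a, h0 b]⟩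
      have := Module.finrank_zero_of_subsingleton (R := F) (M := A)
      omega
    obtain ⟨⟨v, hvA⟩, hv⟩ := hex
    simp only at hv
    obtain ⟨w, hwdef⟩ : ∃ w, w = act x v := ⟨_, rfl⟩
    have hwA : w ∈ A := by
      rw [hwdef]
      exact hAx v hvA
    have hQw : Q w = Q v := by
      rw [hwdef, Q_act]
    have hxw : act x w = -v := by
      rw [hwdef, hxx]
    have hvw : polar (⇑Q) v w = 0 := by
      rw [hwdef]
      exact polar_J h2 x hxx v
    have hwv : polar (⇑Q) w v = 0 := by
      rw [polar_comm]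
      exact hvw
    have hvv : polar (⇑Q) v v = 2 * Q v := polar_self_eq Q v
    have hww : polar (⇑Q) w w = 2 * Q v := by
      rw [polar_self_eq Q w, hQw]
    have h2c : 2 * Q v ≠ 0 := mul_ne_zero h2 hv
    -- the complement
    let B : LinearMap.BilinForm F (ι' → F) := polarBilin Q
    have hBa : ∀ a b, B a b = polar (⇑Q) a b := fun _ _ => rfl
    obtain ⟨A', hA'def⟩ : ∃ A', A' = A ⊓ (LinearMap.ker (B v) ⊓ LinearMap.ker (B w)) := ⟨_, rfl⟩
    have hA'mem : ∀ y, y ∈ A' ↔ y ∈ A ∧ polar (⇑Q) v y = 0 ∧ polar (⇑Q) w y = 0 := fun y => by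
      rw [hA'def]
      exact Iff.rfl
    have hA'le : A' ≤ A := fun y hy => ((hA'mem y).1 hy).1
    obtain ⟨P, hPdef⟩ : ∃ P, P = Submodule.span F {v} ⊔ Submodule.span F {w} := ⟨_, rfl⟩
    have hPmem : ∀ y, y ∈ P ↔ ∃ a b : F, y = a • v + b • w := fun y => by
      rw [hPdef, Submodule.mem_sup]
      constructor
      · rintro ⟨p, hp, q', hq', rfl⟩
        obtain ⟨a, rfl⟩ := Submodule.mem_span_singleton.1 hp
        obtain ⟨b, rfl⟩ := Submodule.mem_span_singleton.1 hq'
        exact ⟨a, b, rfl⟩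
      · rintro ⟨a, b, rfl⟩
        exact ⟨_, Submodule.smul_mem _ a (Submodule.mem_span_singleton_self v), _, Submodule.smul_mem _ b (Submodule.mem_span_singleton_self w), rfl⟩
    have hPle : P ≤ A := by
      intro y hy
      obtain ⟨a, b, rfl⟩ := (hPmem y).1 hy
      exact A.add_mem (A.smul_mem _ hvA) (A.smul_mem _ hwA)
    have hpolv : ∀ a b : F, polar (⇑Q) v (a • v + b • w) = a * (2 * Q v) := by
      intro a b
      have h3 : B v (a • v + b • w) = a * B v v + b * B v w := by
        simp only [map_add, map_smul, smul_eq_mul]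
      rw [hBa, hBa, hBa, hvv, hvw] at h3
      rw [h3]
      ring
    have hpolw : ∀ a b : F, polar (⇑Q) w (a • v + b • w) = b * (2 * Q v) := by
      intro a b
      have h3 : B w (a • v + b • w) = a * B w v + b * B w w := by
        simp only [map_add, map_smul, smul_eq_mul]
      rw [hBa, hBa, hBa, hww, hwv] at h3
      rw [h3]
      ring
    have hPA' : ∀ p ∈ P, ∀ z ∈ A', polar (⇑Q) p z = 0 := by
      intro p hp z hz
      obtain ⟨a, b, rfl⟩ := (hPmem p).1 hp
      obtain ⟨-, h3, h4⟩ := (hA'mem z).1 hz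
      have h5 : B (a • v + b • w) z = a * B v z + b * B w z := by
        simp only [map_add, map_smul, smul_eq_mul, LinearMap.add_apply, LinearMap.smul_apply]
      rw [hBa, hBa, hBa, h3, h4] at h5
      rw [h5]
      ring
    have hinf : P ⊓ A' = ⊥ := by
      rw [eq_bot_iff]
      rintro y ⟨hy1, hy2⟩
      obtain ⟨a, b, rfl⟩ := (hPmem y).1 hy1
      obtain ⟨-, h3, h4⟩ := (hA'mem _).1 hy2
      rw [hpolv] at h3
      rw [hpolw] at h4
      have ha := (mul_eq_zero.1 h3).resolve_right h2c
      have hb := (mul_eq_zero.1 h4).resolve_right h2c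
      rw [ha, hb]
      simp
    -- decomposition of the vectors of `A`
    have hdecomp : ∀ y ∈ A, ∃ (a b : F) (y' : ι' → F), y' ∈ A' ∧ y = a • v + b • w + y' := by
      intro y hy
      obtain ⟨a, ha⟩ : ∃ a, a = polar (⇑Q) v y / (2 * Q v) := ⟨_, rfl⟩
      obtain ⟨b, hb⟩ : ∃ b, b = polar (⇑Q) w y / (2 * Q v) := ⟨_, rfl⟩
      refine ⟨a, b, y - (a • v + b • w), ?_, by abel⟩
      rw [hA'mem]
      refine ⟨A.sub_mem hy (hPle ((hPmem _).2 ⟨a, b, rfl⟩)), ?_, ?_⟩
      · rw [polar_sub_right, hpolv, ha]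
        field_simp
        ring
      · rw [polar_sub_right, hpolw, hb]
        field_simp
        ring
    have hsup : P ⊔ A' = A := by
      apply le_antisymm (sup_le hPle hA'le)
      intro y hy
      obtain ⟨a, b, y', hy', rfl⟩ := hdecomp y hy
      exact Submodule.add_mem _ (Submodule.mem_sup_left ((hPmem _).2 ⟨a, b, rfl⟩)) (Submodule.mem_sup_right hy')
    -- dimensions
    have hv0 : v ≠ 0 := by
      rintro rfl
      simp at hv
    have hwsp : w ∉ Submodule.span F {v} := by
      intro h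
      obtain ⟨a, ha⟩ := Submodule.mem_span_singleton.1 h
      have h3 := hvw
      rw [← ha, polar_smul_right', hvv] at h3
      have h4 := (mul_eq_zero.1 h3).resolve_right h2c
      rw [h4, zero_smul] at ha
      rw [← ha, QuadraticMap.map_zero] at hQw
      exact hv hQw.symm
    have hdP : finrank F P = 2 := by
      rw [hPdef, finrank_sup_span_add _ hwsp, finrank_span_singleton hv0]
    have hdA' : finrank F A' = 2 * e := by
      have h3 := Submodule.finrank_sup_add_finrank_inf_eq P A'
      rw [hsup, hinf, finrank_bot, add_zero, hd, hdP] at h3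
      omega
    -- the invariance
    have hA'x : ∀ y ∈ A', act x y ∈ A' := by
      intro y hy
      obtain ⟨h3, h4, h5⟩ := (hA'mem y).1 hy
      rw [hA'mem]
      refine ⟨hAx y h3, ?_, ?_⟩
      · have h6 := polar_act x w y
        rw [hxw, polar_neg_left, h5] at h6
        simpa using h6
      · have h6 := polar_act x v y
        rw [← hwdef, h4] at h6
        exact h6
    have hA'n : PolarNondeg (Q.comp A'.subtype) := by
      intro y hy
      have h3 : (y : ι' → F) ∈ A ⊓ A' := ⟨hA'le y.2, y.2⟩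
      have h4 : (⟨y, hA'le y.2⟩ : A) = 0 := by
        apply hAn
        rintro ⟨z, hz⟩
        rw [polar_comp_subtype]
        obtain ⟨a, b, y', hy', rfl⟩ := hdecomp z hz
        have h5 : polar (⇑Q) (y : ι' → F) (a • v + b • w + y') = polar (⇑Q) (y : ι' → F) (a • v + b • w) + polar (⇑Q) (y : ι' → F) y' :=
          polar_add_right _ _ _ _
        show polar (⇑Q) (y : ι' → F) (a • v + b • w + y') = 0
        rw [h5, polar_comm, hPA' _ ((hPmem _).2 ⟨a, b, rfl⟩) _ y.2, zero_add]
        have h6 := hy ⟨y', hy'⟩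
        rwa [polar_comp_subtype] at h6
      have h5 : (y : ι' → F) = 0 := congrArg Subtype.val h4
      exact Subtype.ext h5
    obtain ⟨hL, vs, h1, h3, h4, ⟨k, hk, hprod⟩, h5, h6⟩ := ih A' hA'x hA'n hdA'
    have hu : Q (v + w) = 2 * Q v := by
      rw [Q_add, hQw, hvw]
      ring
    constructor
    · -- the type
      intro hns
      rw [Nat.even_add_one, ← hL hns]
      have hPn : PolarNondeg (Q.comp P.subtype) := by
        rintro ⟨y, hy⟩ hh
        have hy' := hy
        obtain ⟨a, b, rfl⟩ := (hPmem y).1 hy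
        have h7 := hh ⟨v, (hPmem v).2 ⟨1, 0, by simp⟩⟩
        have h8 := hh ⟨w, (hPmem w).2 ⟨0, 1, by simp⟩⟩
        rw [polar_comp_subtype] at h7 h8
        change polar (⇑Q) (a • v + b • w) v = 0 at h7
        change polar (⇑Q) (a • v + b • w) w = 0 at h8
        rw [polar_comm, hpolv] at h7
        rw [polar_comm, hpolw] at h8
        have ha := (mul_eq_zero.1 h7).resolve_right h2c
        have hb := (mul_eq_zero.1 h8).resolve_right h2c
        apply Subtype.ext
        show a • v + b • w = 0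
        rw [ha, hb]
        simp
      have hPL : ¬ Lag (Q.comp P.subtype) := by
        rintro ⟨X, hX, hdX⟩
        rw [hdP] at hdX
        have hX0 : X ≠ ⊥ := by
          rintro rfl
          simp at hdX
        obtain ⟨z, hz, hz0⟩ := Submodule.exists_mem_ne_zero_of_ne_bot hX0
        have h7 := hX z hz
        obtain ⟨a, b, hab⟩ := (hPmem z).1 z.2
        have h8 : Q (z : ι' → F) = 0 := h7
        rw [hab, hwdef, Q_J h2 x hxx] at h8
        have h9 := (mul_eq_zero.1 h8).resolve_right hv
        obtain ⟨h10, h11⟩ := sum_sq_zero hns h9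
        apply hz0
        apply Subtype.ext
        rw [hab, h10, h11]
        simp
      -- the isometry
      let φ₀ : (P × A') →ₗ[F] (ι' → F) := P.subtype ∘ₗ LinearMap.fst F P A' + A'.subtype ∘ₗ LinearMap.snd F P A'
      have hφ₀ : ∀ z, φ₀ z = (z.1 : ι' → F) + (z.2 : ι' → F) := fun _ => rfl
      let φ₁ : (P × A') →ₗ[F] A := LinearMap.codRestrict A φ₀ (fun z => by
        rw [hφ₀]
        exact A.add_mem (hPle z.1.2) (hA'le z.2.2))
      have hφ₁ : ∀ z, (φ₁ z : ι' → F) = (z.1 : ι' → F) + (z.2 : ι' → F) := fun _ => rfl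
      have hbij : Function.Bijective φ₁ := by
        constructor
        · rw [injective_iff_map_eq_zero]
          rintro ⟨a, b⟩ hab
          have h7 : (a : ι' → F) + (b : ι' → F) = 0 := by
            have := congrArg Subtype.val hab
            rwa [hφ₁] at this
          have h8 : (a : ι' → F) = -(b : ι' → F) := eq_neg_of_add_eq_zero_left h7
          have h9 : (a : ι' → F) ∈ P ⊓ A' := ⟨a.2, by
            rw [h8]
            exact A'.neg_mem b.2⟩
          rw [hinf] at h9
          have h10 : (a : ι' → F) = 0 := (Submodule.mem_bot F).1 h9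
          have h11 : (b : ι' → F) = 0 := by
            rw [h10, zero_add] at h7
            exact h7
          exact Prod.ext (Subtype.ext h10) (Subtype.ext h11)
        · rintro ⟨y, hy⟩
          obtain ⟨a, b, y', hy', rfl⟩ := hdecomp y hy
          exact ⟨(⟨_, (hPmem _).2 ⟨a, b, rfl⟩⟩, ⟨y', hy'⟩), rfl⟩
      let φ : (P × A') ≃ₗ[F] A := LinearEquiv.ofBijective φ₁ hbij
      have hφ : ∀ z, (Q.comp A.subtype) (φ z) = ((Q.comp P.subtype).prod (Q.comp A'.subtype)) z := by
        intro z
        have h7 : (Q.comp A.subtype) (φ z) = Q ((z.1 : ι' → F) + (z.2 : ι' → F)) := rfl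
        rw [h7, Q_add, hPA' _ z.1.2 _ z.2.2, add_zero]
        rfl
      rw [← lag_congr_iff φ hφ, lag_prod h2 hPn hA'n (m₁ := 1) (m₂ := e) (by omega) hdA']
      exact iff_congr (iff_of_false hPL hPL) Iff.rfl |>.trans (by
        constructor
        · intro h7 h8
          exact hPL (h7.2 h8)
        · intro h7
          exact ⟨fun h8 => absurd h8 hPL, fun h8 => absurd h8 h7⟩)
    · -- the list
      refine ⟨(v + w) :: v :: vs, ?_, ?_, ?_, ⟨Q v * k, mul_ne_zero hv hk, ?_⟩, ?_, ?_⟩
      · intro z hz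
        simp only [List.mem_cons] at hz
        rcases hz with rfl | rfl | hz
        · rw [hu]
          exact h2c
        · exact hv
        · exact h1 z hz
      · intro z hz
        simp only [List.mem_cons] at hz
        rcases hz with rfl | rfl | hz
        · exact A.add_mem hvA hwA
        · exact hvA
        · exact hA'le (h3 z hz)
      · simp only [List.length_cons, h4]
        ring
      · simp only [List.map_cons, List.prod_cons]
        rw [hprod, hu]
        ring
      all_goals
        have hRv : ∀ z, polar (⇑Q) v z = 0 → Cfsg.reflectionMatrix (⇑Q) v *ᵥ z = z := fun z hz =>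
          reflectionMatrix_mulVec_of_polar_eq_zero Q v z hz
        have hpu : ∀ z, polar (⇑Q) (v + w) z = polar (⇑Q) v z + polar (⇑Q) w z := fun z => polar_add_left _ _ _ _
        have hRu : ∀ z, polar (⇑Q) v z = 0 → polar (⇑Q) w z = 0 → Cfsg.reflectionMatrix (⇑Q) (v + w) *ᵥ z = z := fun z h7 h8 =>
          reflectionMatrix_mulVec_of_polar_eq_zero Q _ z (by rw [hpu, h7, h8, add_zero])
        have hNperp : ∀ z, polar (⇑Q) v z = 0 → polar (⇑Q) w z = 0 →
            Cfsg.reflectionMatrix (⇑Q) (v + w) *ᵥ (Cfsg.reflectionMatrix (⇑Q) v *ᵥ z) = z := fun z h7 h8 => by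
          rw [hRv z h7, hRu z h7 h8]
        have hRuv : Cfsg.reflectionMatrix (⇑Q) (v + w) *ᵥ v = -w := by
          rw [reflectionMatrix_mulVec, hu, hpu, hvv, hwv, add_zero, inv_mul_cancel₀ h2c, one_smul]
          abel
        have hRuw : Cfsg.reflectionMatrix (⇑Q) (v + w) *ᵥ w = -v := by
          rw [reflectionMatrix_mulVec, hu, hpu, hww, hvw, zero_add, inv_mul_cancel₀ h2c, one_smul]
          abel
        have hNv : Cfsg.reflectionMatrix (⇑Q) (v + w) *ᵥ (Cfsg.reflectionMatrix (⇑Q) v *ᵥ v) = w := by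
          rw [reflectionMatrix_mulVec_self Q v hv, Matrix.mulVec_neg, hRuv, neg_neg]
        have hNw : Cfsg.reflectionMatrix (⇑Q) (v + w) *ᵥ (Cfsg.reflectionMatrix (⇑Q) v *ᵥ w) = -v := by
          rw [hRv w hvw, hRuw]
      · intro y hy
        obtain ⟨a, b, y', hy', rfl⟩ := hdecomp y hy
        have hMv : (vs.map (fun v => Cfsg.reflectionMatrix (⇑Q) v)).prod *ᵥ v = v :=
          h6 v (fun z hz => by rw [polar_comm]; exact ((hA'mem z).1 hz).2.1)
        have hMw : (vs.map (fun v => Cfsg.reflectionMatrix (⇑Q) v)).prod *ᵥ w = w :=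
          h6 w (fun z hz => by rw [polar_comm]; exact ((hA'mem z).1 hz).2.2)
        have hM : (vs.map (fun v => Cfsg.reflectionMatrix (⇑Q) v)).prod *ᵥ (a • v + b • w + y') = a • v + b • w + act x y' := by
          rw [Matrix.mulVec_add, Matrix.mulVec_add, Matrix.mulVec_smul, Matrix.mulVec_smul, hMv, hMw, h5 y' hy']
        simp only [List.map_cons, List.prod_cons]
        rw [← Matrix.mulVec_mulVec, ← Matrix.mulVec_mulVec, hM]
        obtain ⟨-, h7, h8⟩ := (hA'mem _).1 (hA'x y' hy')
        let N : (ι' → F) →ₗ[F] (ι' → F) := (Cfsg.reflectionMatrix (⇑Q) (v + w)).mulVecLin ∘ₗ (Cfsg.reflectionMatrix (⇑Q) v).mulVecLin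
        have hNa : ∀ z, Cfsg.reflectionMatrix (⇑Q) (v + w) *ᵥ (Cfsg.reflectionMatrix (⇑Q) v *ᵥ z) = N z := fun _ => rfl
        rw [hNa, map_add, map_add, map_smul, map_smul, ← hNa, ← hNa, ← hNa, hNv, hNw, hNperp _ h7 h8, act_add, act_add, act_smul, act_smul, hxw, ← hwdef]
      · intro y hy
        have h7 := hy v hvA
        have h8 := hy w hwA
        simp only [List.map_cons, List.prod_cons]
        rw [← Matrix.mulVec_mulVec, ← Matrix.mulVec_mulVec, h6 y (fun a ha => hy a (hA'le ha)), hNperp y h7 h8]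

/-- The type and the spinor norm of an isometry with square `-1`. -/
theorem J_facts (h2 : (2 : F) ≠ 0) (hQ : PolarNondeg Q) {d : ℕ} (hcard : Fintype.card ι' = 2 * d) (x : ↥(Cfsg.isometryGroup F ⇑Q))
    (hxx : ∀ v, act x (act x v) = -v) :
    (¬ IsSquare (-1 : F) → (Lag Q ↔ Even d)) ∧ (x ∈ Cfsg.Omega F ⇑Q ↔ IsSquare ((2 : F) ^ d)) := by
  classical
  have htop : PolarNondeg (Q.comp (⊤ : Submodule F (ι' → F)).subtype) := by
    rintro ⟨a, ha⟩ hh
    apply Subtype.ext
    apply hQ
    intro y
    have := hh ⟨y, trivial⟩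
    rwa [polar_comp_subtype] at this
  obtain ⟨hL, vs, h1, h3, h4, ⟨k, hk, hprod⟩, h5, h6⟩ := J_decomp (Q := Q) h2 x hxx d ⊤ (fun _ _ => trivial) htop
    (by rw [finrank_top, Module.finrank_fintype_fun_eq_card, hcard])
  constructor
  · intro hns
    rw [← hL hns]
    have hφ : ∀ v : ι' → F, (Q.comp (⊤ : Submodule F (ι' → F)).subtype) ((LinearEquiv.ofTop (⊤ : Submodule F (ι' → F)) rfl).symm v) = Q v := fun v => rfl
    exact lag_congr_iff (LinearEquiv.ofTop (⊤ : Submodule F (ι' → F)) rfl).symm hφ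
  · have hg : ((x : GL ι' F) : Matrix ι' ι' F) = (vs.map (fun v => Cfsg.reflectionMatrix (⇑Q) v)).prod := by
      apply matrix_eq_of_mulVec_eq
      intro y
      exact (h5 y trivial).symm
    rw [mem_omega_iff_list Q (nondeg_of_polarNondeg _ hQ) h2 vs h1 x hg, h4, hprod]
    constructor
    · rintro ⟨-, h7⟩
      have h8 : IsSquare (k ^ 2) := ⟨k, by ring⟩
      have h9 : (k ^ 2 : F) ≠ 0 := pow_ne_zero _ hk
      have h10 : (2 : F) ^ d ≠ 0 := pow_ne_zero _ h2
      exact ((isSquare_mul_iff h2 h10 h9).1 h7).2 h8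
    · intro h7
      exact ⟨even_two_mul d, h7.mul ⟨k, by ring⟩⟩

/-- An element with square `-1` when `-1` is a square of the field. -/
theorem J_split (h2 : (2 : F) ≠ 0) (hQ : PolarNondeg Q) {d : ℕ} (hcard : Fintype.card ι' = 2 * d) (x : ↥(Cfsg.isometryGroup F ⇑Q))
    (hxx : ∀ v, act x (act x v) = -v) {s : F} (hs : s * s = -1) :
    Lag Q ∧ ∀ m, m ≤ d → ∃ U : Submodule F (ι' → F), finrank F U = m ∧ (∀ u ∈ U, Q u = 0) ∧ ∀ w ∈ U, act x w ∈ U := by
  classical
  have hs0 : s ≠ 0 := by
    rintro rfl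
    have h3 : (1 : F) = 0 := by linear_combination hs
    exact one_ne_zero h3
  let mkT : F → Submodule F (ι' → F) := fun c =>
    { carrier := {v | act x v = c • v}
      add_mem' := fun {a b} ha hb => by
        show act x (a + b) = c • (a + b)
        rw [act_add, ha, hb, smul_add]
      zero_mem' := by
        show act x 0 = c • 0
        rw [act_zero, smul_zero]
      smul_mem' := fun e v hv => by
        show act x (e • v) = c • (e • v)
        rw [act_smul, hv, smul_comm] }
  have hmk : ∀ c v, v ∈ mkT c ↔ act x v = c • v := fun _ _ => Iff.rfl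
  have hts : ∀ c, c * c = -1 → IsTS Q (mkT c) := by
    intro c hc v hv
    have h3 := Q_act x v
    rw [(hmk c v).1 hv, Q_smul, hc] at h3
    have h5 : (2 : F) * Q v = 0 := by linear_combination -h3
    exact (mul_eq_zero.1 h5).resolve_left h2
  have hs' : (-s) * (-s) = -1 := by linear_combination hs
  have hsup : mkT s ⊔ mkT (-s) = ⊤ := by
    rw [eq_top_iff]
    intro v _
    have h3 : v = (2 : F)⁻¹ • (v - s • act x v) + (2 : F)⁻¹ • (v - (-s) • act x v) := by
      rw [← smul_add]
      have : v - s • act x v + (v - (-s) • act x v) = (2 : F) • v := by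
        rw [two_smul, neg_smul]
        abel
      rw [this, smul_smul, inv_mul_cancel₀ h2, one_smul]
    have key : ∀ c : F, c * c = -1 → v - c • act x v ∈ mkT c := by
      intro c hc
      rw [hmk, act_sub, act_smul, hxx, smul_sub, smul_smul, hc, smul_neg, sub_neg_eq_add, neg_smul, one_smul, sub_neg_eq_add, add_comm]
    rw [h3]
    exact Submodule.add_mem _ (Submodule.mem_sup_left (Submodule.smul_mem _ _ (key s hs))) (Submodule.mem_sup_right (Submodule.smul_mem _ _ (key (-s) hs')))
  have hinf : mkT s ⊓ mkT (-s) = ⊥ := by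
    rw [eq_bot_iff]
    rintro v ⟨h3, h4⟩
    have h5 := (hmk _ _).1 h3
    rw [(hmk _ _).1 h4] at h5
    have h6 : (2 * s) • v = 0 := by
      have h7 : (2 * s) • v = s • v - (-s) • v := by
        rw [neg_smul, sub_neg_eq_add, two_mul, add_smul]
      rw [h7, ← h5, sub_self]
    exact (Submodule.mem_bot F).2 ((smul_eq_zero.1 h6).resolve_left (mul_ne_zero h2 hs0))
  have hdim := Submodule.finrank_sup_add_finrank_inf_eq (mkT s) (mkT (-s))
  rw [hsup, hinf, finrank_top, finrank_bot, add_zero, Module.finrank_fintype_fun_eq_card, hcard] at hdim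
  have hV : finrank F (ι' → F) = 2 * d := by
    rw [Module.finrank_fintype_fun_eq_card, hcard]
  have h5 := (hts s hs).two_mul_finrank_le hQ
  have h6 := (hts (-s) hs').two_mul_finrank_le hQ
  rw [hV] at h5 h6
  refine ⟨⟨mkT s, hts s hs, by rw [hV]; omega⟩, fun m hm => ?_⟩
  obtain ⟨U, hU, hUd⟩ := Cfsg.Agent.Lib.Classical.OSemi.Coprime.exists_sub_finrank (mkT s) (j := m) (by omega)
  refine ⟨U, hUd, fun u hu => hts s hs u (hU hu), fun w hw => ?_⟩
  rw [(hmk s w).1 (hU hw)]
  exact U.smul_mem _ hw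

/-- Invariant subspaces have even dimension. -/
theorem even_of_inv (hns : ¬ IsSquare (-1 : F)) (x : ↥(Cfsg.isometryGroup F ⇑Q))
    (hxx : ∀ v, act x (act x v) = -v) (W : Submodule F (ι' → F)) (hW : ∀ w ∈ W, act x w ∈ W) : Even (finrank F W) := by
  classical
  let T : W →ₗ[F] W := LinearMap.restrict (Matrix.toLin' ((x : GL ι' F) : Matrix ι' ι' F)) (fun w hw => by
    rw [Matrix.toLin'_apply]
    exact hW w hw)
  have hT : ∀ w : W, ((T w : W) : ι' → F) = act x (w : ι' → F) := fun w => rfl
  have hTT : T ∘ₗ T = (-1 : F) • LinearMap.id := by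
    apply LinearMap.ext
    intro w
    apply Subtype.ext
    show ((T (T w) : W) : ι' → F) = (-1 : F) • (w : ι' → F)
    rw [hT, hT, hxx]
    simp
  have h3 := congrArg LinearMap.det hTT
  rw [LinearMap.det_comp, LinearMap.det_smul, LinearMap.det_id, mul_one] at h3
  by_contra hodd
  rw [Nat.not_even_iff_odd] at hodd
  rw [hodd.neg_one_pow] at h3
  exact hns ⟨LinearMap.det T, h3.symm⟩

/-- Invariant totally singular subspaces of even dimension. -/
theorem exists_J_ts (h2 : (2 : F) ≠ 0) (hns : ¬ IsSquare (-1 : F)) (hQ : PolarNondeg Q) {d : ℕ} (hcard : Fintype.card ι' = 2 * d) (x : ↥(Cfsg.isometryGroup F ⇑Q))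
    (hxx : ∀ v, act x (act x v) = -v) {j : ℕ} (hj : 2 * j < d) :
    ∃ U : Submodule F (ι' → F), finrank F U = 2 * j ∧ (∀ u ∈ U, Q u = 0) ∧ ∀ w ∈ U, act x w ∈ U := by
  classical
  induction j with
  | zero =>
    refine ⟨⊥, by simp, fun w hw => ?_, fun u hu => ?_⟩
    · rw [(Submodule.mem_bot F).1 hw]
      simp
    · rw [(Submodule.mem_bot F).1 hu, act_zero]
      exact Submodule.zero_mem _
  | succ j ih =>
    obtain ⟨U, hUd, hUt, hUx⟩ := ih (by omega)
    have hUts : IsTS Q U := hUt
    obtain ⟨W, hWd, hWt⟩ := exists_ts_even hQ hcard (m := d - 1) (by omega)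
    obtain ⟨v, hvU, hQv, hperp⟩ := Cfsg.Agent.Lib.Classical.OSemi.Coprime.exists_singular_perp hQ (W := W) hWt hUts (by omega)
    obtain ⟨w, hwdef⟩ : ∃ w, w = act x v := ⟨_, rfl⟩
    have hQw : Q w = 0 := by
      rw [hwdef, Q_act, hQv]
    have hxw : act x w = -v := by
      rw [hwdef, hxx]
    have hvw : polar (⇑Q) v w = 0 := by
      rw [hwdef]
      exact polar_J h2 x hxx v
    have hUw : ∀ u ∈ U, polar (⇑Q) u w = 0 := by
      intro u hu
      have h3 := polar_act x (-act x u) v
      rw [act_neg, hxx, neg_neg, ← hwdef] at h3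
      rw [h3, polar_neg_left, hperp _ (hUx u hu)]
      simp
    have hU1 : IsTS Q (U ⊔ Submodule.span F {v}) := hUts.sup_span hQv hperp
    have hperp1 : ∀ u ∈ U ⊔ Submodule.span F {v}, polar (⇑Q) u w = 0 := by
      intro u hu
      obtain ⟨a, ha, z, hz, rfl⟩ := Submodule.mem_sup.1 hu
      obtain ⟨c, rfl⟩ := Submodule.mem_span_singleton.1 hz
      rw [polar_add_left, hUw a ha, polar_smul_left', hvw]
      simp
    have hwU : w ∉ U ⊔ Submodule.span F {v} := by
      intro h
      obtain ⟨a, ha, z, hz, haz⟩ := Submodule.mem_sup.1 h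
      obtain ⟨c, rfl⟩ := Submodule.mem_span_singleton.1 hz
      have h3 : act x w = act x a + c • w := by
        conv_lhs => rw [← haz, act_add, act_smul, ← hwdef]
      rw [hxw] at h3
      have h4 : (1 + c * c) • v = -(act x a + c • a) := by
        have h5 : c • w = c • a + (c * c) • v := by
          rw [← haz, smul_add, smul_smul]
        rw [h5] at h3
        rw [add_smul, one_smul]
        apply eq_neg_of_add_eq_zero_left
        have h8 : v + (c * c) • v + (act x a + c • a) = v + (act x a + (c • a + (c * c) • v)) := by abel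
        rw [h8, ← h3]
        abel
      have h1c : 1 + c * c ≠ 0 := by
        intro h0
        apply hns
        refine ⟨c, ?_⟩
        linear_combination -h0
      apply hvU
      have h5 : v = (1 + c * c)⁻¹ • ((1 + c * c) • v) := by
        rw [smul_smul, inv_mul_cancel₀ h1c, one_smul]
      rw [h5, h4]
      exact U.smul_mem _ (U.neg_mem (U.add_mem (hUx a ha) (U.smul_mem _ ha)))
    refine ⟨U ⊔ Submodule.span F {v} ⊔ Submodule.span F {w}, ?_, hU1.sup_span hQw hperp1, ?_⟩
    · rw [finrank_sup_span_add _ hwU, finrank_sup_span_add _ hvU, hUd]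
      ring
    · intro y hy
      obtain ⟨y₁, hy₁, z, hz, rfl⟩ := Submodule.mem_sup.1 hy
      obtain ⟨a, ha, z₁, hz₁, rfl⟩ := Submodule.mem_sup.1 hy₁
      obtain ⟨c, rfl⟩ := Submodule.mem_span_singleton.1 hz
      obtain ⟨e, rfl⟩ := Submodule.mem_span_singleton.1 hz₁
      rw [act_add, act_add, act_smul, act_smul, hxw, ← hwdef]
      refine Submodule.add_mem _ (Submodule.add_mem _ ?_ ?_) ?_
      · exact Submodule.mem_sup_left (Submodule.mem_sup_left (hUx a ha))
      · exact Submodule.mem_sup_right (Submodule.smul_mem _ _ (Submodule.mem_span_singleton_self w))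
      · exact Submodule.mem_sup_left (Submodule.mem_sup_right (Submodule.smul_mem _ _ (Submodule.neg_mem _ (Submodule.mem_span_singleton_self v))))

end Cfsg.Agent.Lib.Classical.OSemi.SingJ
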