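import Mathlib
import Cfsg.Agent.Lib.Classical.OSemi.SingJ

/-!
# Involutions of projective orthogonal groups of even dimension and totally singular subspaces
-/

set_option autoImplicit false
set_option linter.unusedSectionVars false
set_option linter.unusedSimpArgs false
set_option linter.unusedVariables false
set_option linter.style.haveILetI false
set_option maxHeartbeats 1000000

open Module QuadraticMap Matrix
open Cfsg Cfsg.Agent.Lib.Classical.Witt.Hyp Cfsg.Agent.Lib.Linalg.OrthModels Cfsg.Agent.Lib.Linalg.Bridge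
open Cfsg.Agent.Lib.Classical.Witt.Index
open Cfsg.Agent.Lib.Classical.OSemi.Lag
open Cfsg.Agent.Lib.Classical.OSemi.Decomp
open Cfsg.Agent.Lib.Classical.OSemi.SylowFix
open Cfsg.Agent.Lib.Classical.OSemi.SingEvenF
open Cfsg.Agent.Lib.Classical.OSemi.LagFree
open Cfsg.Agent.Lib.Classical.OSemi.SingInvol
open Cfsg.Agent.Lib.Classical.OSemi.SingJ
open Cfsg.Agent.Lib.Classical.Witt.TS
open Cfsg.Agent.Lib.Classical.Orth.Basic Cfsg.Agent.Lib.Classical.Orth.Classes Cfsg.Agent.Lib.Classical.Orth.Adjust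
open Cfsg.Agent.Lib.Classical.Orth.Spinor

namespace Cfsg.Agent.Lib.Classical.OSemi.SingInvE

universe u

variable {ι' : Type} [Fintype ι'] [DecidableEq ι'] {F : Type u} [Field F] [Fintype F]
variable {Q : QuadraticForm F (ι' → F)}

/-- Existence of isometries with square `-1`. -/
theorem exists_J (h2 : (2 : F) ≠ 0) (hns : ¬ IsSquare (-1 : F)) (hQ : PolarNondeg Q) {d : ℕ} (hcard : Fintype.card ι' = 2 * d) (hd : 1 ≤ d)
    (hL : Lag Q ↔ Even d) : ∃ x : ↥(Cfsg.isometryGroup F ⇑Q), ∀ v, act x (act x v) = -v := by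
  classical
  let Q₀ : QuadraticForm F (Fin d ⊕ Fin d → F) := QuadraticMap.weightedSumSquares F (fun _ : Fin d ⊕ Fin d => (1 : F))
  have hQ₀ : ∀ v, Q₀ v = ∑ j, v j * v j := by
    intro v
    show QuadraticMap.weightedSumSquares F (fun _ : Fin d ⊕ Fin d => (1 : F)) v = _
    rw [weightedSumSquares_apply]
    simp
  have hQ₀n : PolarNondeg Q₀ := by
    intro a ha
    funext j
    have h1 := ha (Pi.single j 1)
    have h3 : polar Q₀ a (Pi.single j 1) = 2 * a j := by
      rw [polar, hQ₀, hQ₀, hQ₀, ← Finset.sum_sub_distrib, ← Finset.sum_sub_distrib, Finset.sum_eq_single j]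
      · simp
        ring
      · intro k _ hk
        simp [Pi.single_apply, hk]
      · intro h0
        exact absurd (Finset.mem_univ _) h0
    rw [h3] at h1
    exact (mul_eq_zero.1 h1).resolve_left h2
  let J₀ : (Fin d ⊕ Fin d → F) ≃ₗ[F] (Fin d ⊕ Fin d → F) :=
    { toFun := fun v => Sum.elim (fun j => - v (Sum.inr j)) (fun j => v (Sum.inl j))
      map_add' := fun a b => by
        funext j
        rcases j with j | j <;> simp [add_comm]
      map_smul' := fun c a => by
        funext j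
        rcases j with j | j <;> simp
      invFun := fun v => Sum.elim (fun j => v (Sum.inr j)) (fun j => - v (Sum.inl j))
      left_inv := fun v => by
        funext j
        rcases j with j | j <;> simp
      right_inv := fun v => by
        funext j
        rcases j with j | j <;> simp }
  have hJ₀ : ∀ v j, J₀ v (Sum.inl j) = - v (Sum.inr j) := fun _ _ => rfl
  have hJ₁ : ∀ v j, J₀ v (Sum.inr j) = v (Sum.inl j) := fun _ _ => rfl
  have hJQ : ∀ v, Q₀ (J₀ v) = Q₀ v := by
    intro v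
    rw [hQ₀, hQ₀, Fintype.sum_sum_type, Fintype.sum_sum_type, add_comm]
    simp only [hJ₀, hJ₁, neg_mul_neg]
  have hJJ : ∀ v, J₀ (J₀ v) = -v := by
    intro v
    funext j
    rcases j with j | j
    · rw [hJ₀, hJ₁]
      rfl
    · rw [hJ₁, hJ₀]
      rfl
  let x₀ : ↥(Cfsg.isometryGroup F ⇑Q₀) := ⟨glOfEquiv J₀, (mem_isometryGroup_iff Q₀ _).2 (fun v => by
    rw [glOfEquiv_mulVec]
    exact hJQ v)⟩
  have hx₀ : ∀ v, act x₀ v = J₀ v := fun v => glOfEquiv_mulVec J₀ v
  have hcard₀ : Fintype.card (Fin d ⊕ Fin d) = 2 * d := by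
    simp [Fintype.card_sum]
    ring
  have hL₀ := (J_facts h2 hQ₀n hcard₀ x₀ (fun v => by rw [hx₀, hx₀, hJJ])).1 hns
  have hV₀ : finrank F (Fin d ⊕ Fin d → F) = 2 * d := by
    rw [Module.finrank_fintype_fun_eq_card, hcard₀]
  have hV : finrank F (ι' → F) = 2 * d := by
    rw [Module.finrank_fintype_fun_eq_card, hcard]
  obtain ⟨φ, hφ⟩ := exists_equiv_of_type hQ₀n hQ hd hV₀ hV (by rw [hL₀, hL])
  let g : (ι' → F) ≃ₗ[F] (ι' → F) := φ.symm ≪≫ₗ J₀ ≪≫ₗ φ
  have hg : ∀ v, g v = φ (J₀ (φ.symm v)) := fun _ => rfl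
  have hgQ : ∀ v, Q (g v) = Q v := by
    intro v
    rw [hg, hφ, hJQ]
    conv_rhs => rw [← LinearEquiv.apply_symm_apply φ v, hφ]
  refine ⟨⟨glOfEquiv g, (mem_isometryGroup_iff Q _).2 (fun v => by
    rw [glOfEquiv_mulVec]
    exact hgQ v)⟩, fun v => ?_⟩
  have hact : ∀ w, act (⟨glOfEquiv g, (mem_isometryGroup_iff Q _).2 (fun v => by
    rw [glOfEquiv_mulVec]
    exact hgQ v)⟩ : ↥(Cfsg.isometryGroup F ⇑Q)) w = g w := fun w => glOfEquiv_mulVec g w
  rw [hact, hact, hg, hg, LinearEquiv.symm_apply_apply, hJJ, map_neg, LinearEquiv.apply_symm_apply]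

theorem exists_part (h2 : (2 : F) ≠ 0) {W : Type*} [AddCommGroup W] [Module F W] [FiniteDimensional F W] (Q₀ : QuadraticForm F W) (hn : PolarNondeg Q₀)
    {e' j : ℕ} (hd : finrank F W = 2 * e') (hj : j < e' ∨ (j = e' ∧ Lag Q₀)) : ∃ X : Submodule F W, finrank F X = j ∧ ∀ x ∈ X, Q₀ x = 0 := by
  rcases hj with hj | ⟨hj, X, hX, hdX⟩
  · exact exists_ts_of_lt h2 Q₀ hn (by omega)
  · exact ⟨X, by omega, hX⟩

/-- An involution of `Ω` in even dimension fixes totally singular subspaces. -/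
theorem sing_invol_even (h2 : (2 : F) ≠ 0) (hQ : PolarNondeg Q) {d : ℕ} (hcard : Fintype.card ι' = 2 * d) (x : ↥(Cfsg.isometryGroup F ⇑Q))
    (hxΩ : x ∈ Cfsg.Omega F ⇑Q) (hx : x ^ 2 = 1) {m : ℕ} (hcl : m + 2 ≤ d ∨ (m + 1 ≤ d ∧ ¬ Lag Q) ∨ (m ≤ d ∧ Lag Q ∧ IsSquare (-1 : F))) :
    ∃ U : Submodule F (ι' → F), finrank F U = m ∧ (∀ u ∈ U, Q u = 0) ∧ ∀ w ∈ U, act x w ∈ U := by
  classical
  have hxx : ∀ v, act x (act x v) = v := by
    intro v
    rw [← act_mul, ← pow_two, hx, act_one]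
  let A : Submodule F (ι' → F) :=
    { carrier := {v | act x v = v}
      add_mem' := fun {a b} ha hb => by
        show act x (a + b) = a + b
        rw [act_add, ha, hb]
      zero_mem' := act_zero x
      smul_mem' := fun c v hv => by
        show act x (c • v) = c • v
        rw [act_smul, hv] }
  let B : Submodule F (ι' → F) :=
    { carrier := {v | act x v = -v}
      add_mem' := fun {a b} ha hb => by
        show act x (a + b) = -(a + b)
        rw [act_add, ha, hb, neg_add]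
      zero_mem' := by
        show act x 0 = -0
        rw [act_zero, neg_zero]
      smul_mem' := fun c v hv => by
        show act x (c • v) = -(c • v)
        rw [act_smul, hv, smul_neg] }
  have hA : ∀ v, v ∈ A ↔ act x v = v := fun _ => Iff.rfl
  have hB : ∀ v, v ∈ B ↔ act x v = -v := fun _ => Iff.rfl
  have hs : A ⊔ B = ⊤ := by
    rw [eq_top_iff]
    intro v _
    have h3 : v = (2 : F)⁻¹ • (v + act x v) + (2 : F)⁻¹ • (v - act x v) := by
      rw [← smul_add]
      have : v + act x v + (v - act x v) = (2 : F) • v := by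
        rw [two_smul]
        abel
      rw [this, smul_smul, inv_mul_cancel₀ h2, one_smul]
    rw [h3]
    refine Submodule.add_mem _ (Submodule.mem_sup_left ?_) (Submodule.mem_sup_right ?_)
    · rw [hA, act_smul, act_add, hxx, add_comm]
    · rw [hB, act_smul, act_sub, hxx, ← smul_neg, neg_sub]
  have horth : ∀ a ∈ A, ∀ b ∈ B, polar Q a b = 0 := by
    intro a ha b hb
    have h3 := polar_act x a b
    rw [(hA a).1 ha, (hB b).1 hb, polar_neg_right] at h3
    have h5 : (2 : F) * polar Q a b = 0 := by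
      have h6 : polar Q a b = - polar Q a b := by
        simpa using h3.symm
      linear_combination h6
    exact (mul_eq_zero.1 h5).resolve_left h2
  have hinf : A ⊓ B = ⊥ := by
    rw [eq_bot_iff]
    intro v hv
    have h3 : v = -v := by
      have h4 := (hA v).1 hv.1
      have h5 := (hB v).1 hv.2
      rw [h4] at h5
      exact h5
    have h5 : (2 : F) • v = 0 := by
      rw [two_smul]
      nth_rewrite 1 [h3]
      simp
    exact (Submodule.mem_bot F).2 ((smul_eq_zero.1 h5).resolve_left h2)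
  have hdim : finrank F A + finrank F B = 2 * d := by
    have h3 := Submodule.finrank_sup_add_finrank_inf_eq A B
    rw [hs, hinf, finrank_top, Module.finrank_fintype_fun_eq_card, finrank_bot, add_zero, hcard] at h3
    exact h3.symm
  obtain ⟨hev, hLag⟩ := minus_facts Q h2 hQ x hxΩ hA hB hs horth
  obtain ⟨e, he⟩ := hev
  have hAn : PolarNondeg (Q.comp A.subtype) := nondeg_of_orth_sup hQ hs horth
  have hBn : PolarNondeg (Q.comp B.subtype) := nondeg_of_orth_sup hQ (by rw [sup_comm]; exact hs)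
    (fun b hb a ha => by rw [polar_comm]; exact horth a ha b hb)
  obtain ⟨eA, heA⟩ : ∃ eA, eA = d - e := ⟨_, rfl⟩
  have hdA : finrank F A = 2 * eA := by omega
  have hdB : finrank F B = 2 * e := by omega
  -- the type of the whole space
  have hLQ : Lag Q ↔ (Lag (Q.comp A.subtype) ↔ Lag (Q.comp B.subtype)) := by
    have hcomp : IsCompl A B := ⟨disjoint_iff.2 hinf, codisjoint_iff.2 hs⟩
    let φ : (A × B) ≃ₗ[F] (ι' → F) := Submodule.prodEquivOfIsCompl A B hcomp
    have hφ : ∀ v : A × B, Q (φ v) = ((Q.comp A.subtype).prod (Q.comp B.subtype)) v := by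
      intro v
      have h1 : φ v = (v.1 : ι' → F) + (v.2 : ι' → F) := rfl
      rw [h1, Q_add, horth _ v.1.2 _ v.2.2, add_zero]
      rfl
    rw [← lag_congr_iff φ hφ, lag_prod h2 hAn hBn hdA hdB]
  have hAL0 : ¬ Lag (Q.comp A.subtype) → 1 ≤ eA := by
    intro h
    by_contra h0
    exact h (lag_of_finrank_zero _ (by omega))
  have hBL0 : ¬ Lag (Q.comp B.subtype) → 1 ≤ e := by
    intro h
    by_contra h0
    exact h (lag_of_finrank_zero _ (by omega))
  -- the numerology
  obtain ⟨j₁, j₂, hj, hj₁, hj₂⟩ : ∃ j₁ j₂, j₁ + j₂ = m ∧ (j₁ < eA ∨ (j₁ = eA ∧ Lag (Q.comp A.subtype))) ∧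
      (j₂ < e ∨ (j₂ = e ∧ Lag (Q.comp B.subtype))) := by
    have hnum : ∃ iA iB, iA ≤ eA ∧ (iA = eA → Lag (Q.comp A.subtype)) ∧ iB ≤ e ∧ (iB = e → Lag (Q.comp B.subtype)) ∧ m ≤ iA + iB := by
      by_cases hAL : Lag (Q.comp A.subtype) <;> by_cases hBL : Lag (Q.comp B.subtype)
      · refine ⟨eA, e, le_rfl, fun _ => hAL, le_rfl, fun _ => hBL, ?_⟩
        rcases hcl with h | ⟨h, h'⟩ | ⟨h, -, -⟩
        · omega
        · exact absurd (hLQ.2 (iff_of_true hAL hBL)) h'
        · omega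
      · have h0 := hBL0 hBL
        refine ⟨eA, e - 1, le_rfl, fun _ => hAL, by omega, fun h => by omega, ?_⟩
        rcases hcl with h | ⟨h, -⟩ | ⟨-, -, h⟩
        · omega
        · omega
        · exact absurd (hLag h) hBL
      · have h0 := hAL0 hAL
        refine ⟨eA - 1, e, by omega, fun h => by omega, le_rfl, fun _ => hBL, ?_⟩
        rcases hcl with h | ⟨h, -⟩ | ⟨-, h, -⟩
        · omega
        · omega
        · exact absurd ((hLQ.1 h).2 hBL) hAL
      · have h0 := hAL0 hAL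
        have h0' := hBL0 hBL
        refine ⟨eA - 1, e - 1, by omega, fun h => by omega, by omega, fun h => by omega, ?_⟩
        rcases hcl with h | ⟨-, h⟩ | ⟨-, -, h⟩
        · omega
        · exact absurd (hLQ.2 (iff_of_false hAL hBL)) h
        · exact absurd (hLag h) hBL
    obtain ⟨iA, iB, h1, h3, h4, h5, h6⟩ := hnum
    refine ⟨min m iA, m - min m iA, by omega, ?_, ?_⟩
    · by_cases h : min m iA < eA
      · exact Or.inl h
      · exact Or.inr ⟨by omega, h3 (by omega)⟩
    · by_cases h : m - min m iA < e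
      · exact Or.inl h
      · exact Or.inr ⟨by omega, h5 (by omega)⟩
  obtain ⟨X₁, hX₁, hX₁s⟩ := exists_part h2 (Q.comp A.subtype) hAn hdA hj₁
  obtain ⟨X₂, hX₂, hX₂s⟩ := exists_part h2 (Q.comp B.subtype) hBn hdB hj₂
  obtain ⟨U₁, hU₁⟩ : ∃ U₁, U₁ = X₁.map A.subtype := ⟨_, rfl⟩
  obtain ⟨U₂, hU₂⟩ : ∃ U₂, U₂ = X₂.map B.subtype := ⟨_, rfl⟩
  have hU₁A : U₁ ≤ A := by
    rw [hU₁]
    exact Submodule.map_subtype_le _ _
  have hU₂B : U₂ ≤ B := by
    rw [hU₂]
    exact Submodule.map_subtype_le _ _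
  have hd₁ : finrank F U₁ = j₁ := by
    rw [hU₁, Submodule.finrank_map_subtype_eq, hX₁]
  have hd₂ : finrank F U₂ = j₂ := by
    rw [hU₂, Submodule.finrank_map_subtype_eq, hX₂]
  have hs₁ : ∀ u ∈ U₁, Q u = 0 := by
    rw [hU₁]
    rintro _ ⟨y, hy, rfl⟩
    exact hX₁s y hy
  have hs₂ : ∀ u ∈ U₂, Q u = 0 := by
    rw [hU₂]
    rintro _ ⟨y, hy, rfl⟩
    exact hX₂s y hy
  refine ⟨U₁ ⊔ U₂, ?_, ?_, ?_⟩
  · have h3 := Submodule.finrank_sup_add_finrank_inf_eq U₁ U₂
    have h4 : U₁ ⊓ U₂ = ⊥ := by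
      rw [eq_bot_iff, ← hinf]
      exact inf_le_inf hU₁A hU₂B
    rw [h4, finrank_bot, add_zero, hd₁, hd₂] at h3
    omega
  · intro u hu
    obtain ⟨a, ha, c, hc, rfl⟩ := Submodule.mem_sup.1 hu
    rw [Q_add, hs₁ a ha, hs₂ c hc, horth a (hU₁A ha) c (hU₂B hc)]
    ring
  · intro u hu
    obtain ⟨a, ha, c, hc, rfl⟩ := Submodule.mem_sup.1 hu
    rw [act_add, (hA a).1 (hU₁A ha), (hB c).1 (hU₂B hc)]
    exact Submodule.add_mem _ (Submodule.mem_sup_left ha) (Submodule.mem_sup_right (U₂.neg_mem hc))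

/-- An involution of `Ω` fixing no large totally singular subspace. -/
theorem not_sing_even (h2 : (2 : F) ≠ 0) (hQ : PolarNondeg Q) {d : ℕ} (hcard : Fintype.card ι' = 2 * d) (hd : 2 ≤ d) (hL : Lag Q) {u v : ι' → F} (hu : Q u = 1) (hv : Q v = 1) (huv : polar (⇑Q) u v = 0)
    (hns : ¬ IsSquare (-1 : F)) {m : ℕ} (hm : m + 1 = d) :
    ∃ x : ↥(Cfsg.isometryGroup F ⇑Q), x ∈ Cfsg.Omega F ⇑Q ∧ x ^ 2 = 1 ∧ (∀ z : F, ((x : GL ι' F) : Matrix ι' ι' F) ≠ z • (1 : Matrix ι' ι' F)) ∧
      ∀ W : Submodule F (ι' → F), finrank F W = m → (∀ w ∈ W, Q w = 0) → (∀ w ∈ W, act x w ∈ W) → False := by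
  classical
  have hu0 : Q u ≠ 0 := by rw [hu]; exact one_ne_zero
  have hv0 : Q v ≠ 0 := by rw [hv]; exact one_ne_zero
  let x : ↥(Cfsg.isometryGroup F ⇑Q) := reflectionIso Q u hu0 * reflectionIso Q v hv0
  have hact : ∀ y, act x y = y - polar (⇑Q) v y • v - polar (⇑Q) u y • u := by
    intro y
    rw [act_mul]
    have h3 : ∀ (w : ι' → F) (hw : Q w ≠ 0) (z : ι' → F), act (reflectionIso Q w hw) z = z - ((Q w)⁻¹ * polar (⇑Q) w z) • w := by
      intro w hw z
      exact reflectionMatrix_mulVec Q w z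
    rw [h3, h3, hv, hu, inv_one, one_mul, one_mul, polar_sub_right, polar_smul_right, huv]
    simp
  have hpolvv : polar (⇑Q) v v = 2 := by
    rw [Cfsg.Agent.Lib.Classical.Witt.Hyp.polar_self, hv, mul_one]
  have hpoluu : polar (⇑Q) u u = 2 := by
    rw [Cfsg.Agent.Lib.Classical.Witt.Hyp.polar_self, hu, mul_one]
  have hvu : polar (⇑Q) v u = 0 := by
    rw [polar_comm]
    exact huv
  have hxx : x * x = 1 := by
    apply iso_ext Q
    intro y
    rw [act_mul, act_one, hact, hact, polar_sub_right, polar_sub_right, polar_sub_right, polar_sub_right,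
      polar_smul_right, polar_smul_right, polar_smul_right, polar_smul_right, hpolvv, hpoluu, hvu, huv]
    simp only [smul_eq_mul, mul_zero, sub_zero, zero_sub, neg_smul]
    have h5 : polar (⇑Q) v y - polar (⇑Q) v y * 2 = - polar (⇑Q) v y := by ring
    have h6 : polar (⇑Q) u y - polar (⇑Q) u y * 2 = - polar (⇑Q) u y := by ring
    rw [h5, h6]
    simp only [neg_smul]
    abel
  have hxu : act x u = -u := by
    rw [hact, hvu, hpoluu, zero_smul, sub_zero, two_smul]
    abel
  have hu00 : u ≠ 0 := by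
    rintro rfl
    rw [QuadraticMap.map_zero] at hu
    exact zero_ne_one hu
  have hsq0 : ∀ a b : F, a * a + b * b = 0 → a = 0 ∧ b = 0 := by
    intro a b hab
    by_cases hb : b = 0
    · subst hb
      simp at hab
      exact ⟨hab, rfl⟩
    · exfalso
      apply hns
      refine ⟨a / b, ?_⟩
      field_simp
      linear_combination -hab
  have hBn := nondeg_of_polarNondeg Q hQ
  refine ⟨x, ?_, by rw [pow_two]; exact hxx, ?_, ?_⟩
  · refine (mem_omega_iff_list Q (nondeg_of_polarNondeg _ hQ) h2 [u, v] ?_ x ?_).2 ⟨by simp, ?_⟩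
    · intro w hw
      simp only [List.mem_cons, List.not_mem_nil, or_false] at hw
      rcases hw with rfl | rfl
      · exact hu0
      · exact hv0
    · simp only [List.map_cons, List.map_nil, List.prod_cons, List.prod_nil, mul_one]
      rfl
    · simp [hu, hv]
  · intro z hz
    -- a vector fixed by `x`
    obtain ⟨E, hEdef⟩ : ∃ E, E = LinearMap.BilinForm.orthogonal (polarBilin Q) (Submodule.span F {u} ⊔ Submodule.span F {v}) := ⟨_, rfl⟩
    have hE := LinearMap.BilinForm.finrank_orthogonal hBn (Submodule.span F {u} ⊔ Submodule.span F {v})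
    rw [← hEdef, Module.finrank_fintype_fun_eq_card] at hE
    have hle := Submodule.finrank_add_le_finrank_add_finrank (Submodule.span F {u}) (Submodule.span F {v})
    have h3 := finrank_span_le_card (R := F) ({u} : Set (ι' → F))
    have h4 := finrank_span_le_card (R := F) ({v} : Set (ι' → F))
    simp only [Set.toFinset_singleton, Finset.card_singleton] at h3 h4
    have hE0 : E ≠ ⊥ := by
      rintro rfl
      rw [finrank_bot] at hE
      omega
    obtain ⟨y, hy, hy0⟩ := Submodule.exists_mem_ne_zero_of_ne_bot hE0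
    have h5 : polar (⇑Q) u y = 0 := by
      rw [hEdef] at hy
      exact hy u (Submodule.mem_sup_left (Submodule.mem_span_singleton_self u))
    have h6 : polar (⇑Q) v y = 0 := by
      rw [hEdef] at hy
      exact hy v (Submodule.mem_sup_right (Submodule.mem_span_singleton_self v))
    have h7 : act x y = y := by
      rw [hact, h5, h6]
      simp
    have hact' : ∀ w, act x w = z • w := by
      intro w
      show ((x : GL ι' F) : Matrix ι' ι' F) *ᵥ w = _
      rw [hz, Matrix.smul_mulVec, Matrix.one_mulVec]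
    rw [hact'] at h7 hxu
    have h8 : (z - 1) • y = 0 := by
      rw [sub_smul, h7, one_smul, sub_self]
    have hz1 : z = 1 := sub_eq_zero.1 ((smul_eq_zero.1 h8).resolve_right hy0)
    rw [hz1, one_smul] at hxu
    have h9 : (2 : F) • u = 0 := by
      rw [two_smul]
      nth_rewrite 1 [hxu]
      simp
    exact hu00 ((smul_eq_zero.1 h9).resolve_left h2)
  · intro W hWd hWs hWi
    have hWts : IsTS Q W := hWs
    have hperp : ∀ w ∈ W, polar (⇑Q) v w = 0 ∧ polar (⇑Q) u w = 0 := by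
      intro w hw
      have h3 : polar (⇑Q) v w • v + polar (⇑Q) u w • u ∈ W := by
        have h4 := W.sub_mem hw (hWi w hw)
        rw [hact] at h4
        convert h4 using 1
        abel
      have h4 := hWs _ h3
      rw [Q_add, Q_smul, Q_smul, hv, hu, polar_smul_left', polar_smul_right', hvu] at h4
      exact hsq0 _ _ (by linear_combination h4)
    have huW : u ∉ W := fun h => by
      have := hWs u h
      rw [hu] at this
      exact one_ne_zero this
    have hvW : v ∉ W ⊔ Submodule.span F {u} := by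
      intro h
      obtain ⟨w, hw, z, hz, hwz⟩ := Submodule.mem_sup.1 h
      obtain ⟨a, rfl⟩ := Submodule.mem_span_singleton.1 hz
      have h3 : w = v - a • u := by
        rw [← hwz]
        abel
      have h4 := hWs w hw
      rw [h3, Q_sub, Q_smul, polar_smul_right', hvu, hv, hu] at h4
      have h5 := hsq0 1 a (by linear_combination h4)
      exact one_ne_zero h5.1
    have h5 := LinearMap.BilinForm.finrank_orthogonal hBn W
    rw [Module.finrank_fintype_fun_eq_card] at h5
    have h6 : W ⊔ Submodule.span F {u} ⊔ Submodule.span F {v} ≤ LinearMap.BilinForm.orthogonal (polarBilin Q) W := by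
      refine sup_le (sup_le ?_ ?_) ?_
      · intro w hw w' hw'
        exact hWts.polar_eq_zero hw' hw
      · rw [Submodule.span_singleton_le_iff_mem]
        intro w' hw'
        have := (hperp w' hw').2
        show polar (⇑Q) w' u = 0
        rw [polar_comm]
        exact this
      · rw [Submodule.span_singleton_le_iff_mem]
        intro w' hw'
        have := (hperp w' hw').1
        show polar (⇑Q) w' v = 0
        rw [polar_comm]
        exact this
    have h7 : W ⊔ Submodule.span F {u} ⊔ Submodule.span F {v} = LinearMap.BilinForm.orthogonal (polarBilin Q) W := by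
      apply Submodule.eq_of_le_of_finrank_eq h6
      rw [finrank_sup_span_add _ hvW, finrank_sup_span_add _ huW, h5, hWd]
      omega
    obtain ⟨L, hLs, hLd⟩ := hL
    have hLts : IsTS Q L := hLs
    rw [Module.finrank_fintype_fun_eq_card] at hLd
    obtain ⟨v', hv'W, hQv', hv'p⟩ := Cfsg.Agent.Lib.Classical.OSemi.Coprime.exists_singular_perp hQ hLts hWts (by omega)
    have h8 : v' ∈ LinearMap.BilinForm.orthogonal (polarBilin Q) W := fun w hw => hv'p w hw
    rw [← h7] at h8
    obtain ⟨y₁, hy₁, z₂, hz₂, rfl⟩ := Submodule.mem_sup.1 h8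
    obtain ⟨w, hw, z₁, hz₁, rfl⟩ := Submodule.mem_sup.1 hy₁
    obtain ⟨a, rfl⟩ := Submodule.mem_span_singleton.1 hz₁
    obtain ⟨b, rfl⟩ := Submodule.mem_span_singleton.1 hz₂
    have h9 : polar (⇑Q) w (a • u) = 0 := by
      rw [polar_smul_right', polar_comm, (hperp w hw).2, mul_zero]
    have h10 : polar (⇑Q) w (b • v) = 0 := by
      rw [polar_smul_right', polar_comm, (hperp w hw).1, mul_zero]
    have h11 : polar (⇑Q) (w + a • u) (b • v) = 0 := by
      rw [polar_add_left, h10, polar_smul_left', polar_smul_right', huv]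
      simp
    rw [Q_add, Q_add, h11, h9, hWs w hw, Q_smul, Q_smul, hu, hv] at hQv'
    obtain ⟨ha, hb⟩ := hsq0 a b (by linear_combination hQv')
    apply hv'W
    rw [ha, hb]
    simpa using hw

section Red

/-- A nonsingular vector. -/
theorem exists_nonsing (hQ : PolarNondeg Q) [Nonempty ι'] : ∃ v, Q v ≠ 0 := by
  classical
  by_contra hcon
  push Not at hcon
  obtain ⟨i₀⟩ : Nonempty ι' := inferInstance
  have h1 : (Pi.single i₀ 1 : ι' → F) = 0 := hQ _ (fun y => by
    rw [polar, hcon, hcon, hcon]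
    ring)
  have h3 := congrFun h1 i₀
  simp at h3

/-- Scalar isometries. -/
theorem scalar_sq (hQ : PolarNondeg Q) [Nonempty ι'] {M : Matrix ι' ι' F} {z : F} (hM : M = z • (1 : Matrix ι' ι' F))
    (hMQ : ∀ v, Q (M *ᵥ v) = Q v) : z * z = 1 := by
  obtain ⟨v, hv⟩ := exists_nonsing hQ
  have h1 := hMQ v
  rw [hM, Matrix.smul_mulVec, Matrix.one_mulVec, Q_smul] at h1
  exact mul_right_cancel₀ hv (by rw [h1, one_mul])

/-- From the statement to elements of order `r`. -/
theorem forward_reduce (hQ : PolarNondeg Q) [Nonempty ι'] {r : ℕ} [Fact r.Prime] (hr2 : r ≠ 2) (x : ↥(Cfsg.isometryGroup F ⇑Q)) (hx : orderOf x = r) :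
    (∃ z : F, (((x : GL ι' F) ^ r : GL ι' F) : Matrix ι' ι' F) = z • (1 : Matrix ι' ι' F)) ∧ ∀ z : F, ((x : GL ι' F) : Matrix ι' ι' F) ≠ z • (1 : Matrix ι' ι' F) := by
  have hr : r.Prime := Fact.out
  have hxr : x ^ r = 1 := by
    rw [← hx]
    exact pow_orderOf_eq_one x
  have hxr' : (x : GL ι' F) ^ r = 1 := by
    rw [← Subgroup.coe_pow, hxr]
    rfl
  refine ⟨⟨1, by rw [hxr']; simp⟩, fun z hz => ?_⟩
  have hzz := scalar_sq hQ hz (fun v => Q_act x v)
  have h1 : (((x : GL ι' F) ^ r : GL ι' F) : Matrix ι' ι' F) = z ^ r • (1 : Matrix ι' ι' F) := by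
    rw [Units.val_pow_eq_pow_val, hz, smul_pow, one_pow]
  rw [hxr'] at h1
  obtain ⟨k, hk⟩ := hr.odd_of_ne_two hr2
  have h3 : z ^ r = z := by
    rw [hk, pow_succ, pow_mul, pow_two, hzz, one_pow, one_mul]
  rw [h3] at h1
  have hz1 : z = 1 := by
    obtain ⟨i₀⟩ : Nonempty ι' := inferInstance
    have h4 := congrFun (congrFun h1 i₀) i₀
    simpa using h4.symm
  have hx1 : x = 1 := by
    apply Subtype.ext
    apply Units.ext
    show ((x : GL ι' F) : Matrix ι' ι' F) = 1
    rw [hz, hz1, one_smul]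
  rw [hx1, orderOf_one] at hx
  exact hr.one_lt.ne hx

/-- From elements of order `r` to the statement. -/
theorem backward_reduce (hQ : PolarNondeg Q) [Nonempty ι'] {r : ℕ} [Fact r.Prime] (hr2 : r ≠ 2) {m : ℕ}
    (hH : ∀ x : ↥(Cfsg.isometryGroup F ⇑Q), x ∈ Cfsg.Omega F ⇑Q → orderOf x = r →
      ∃ U : Submodule F (ι' → F), finrank F U = m ∧ (∀ u ∈ U, Q u = 0) ∧
      U.map (Matrix.toLin' ((x : GL ι' F) : Matrix ι' ι' F)) ≤ U)
    (g : ↥(Cfsg.isometryGroup F ⇑Q)) (hg : g ∈ Cfsg.Omega F ⇑Q) {z : F} (hz : (((g : GL ι' F) ^ r : GL ι' F) : Matrix ι' ι' F) = z • (1 : Matrix ι' ι' F))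
    (hns : ∀ z : F, ((g : GL ι' F) : Matrix ι' ι' F) ≠ z • (1 : Matrix ι' ι' F)) :
    ∃ U : Submodule F (ι' → F), finrank F U = m ∧ (∀ u ∈ U, Q u = 0) ∧
      U.map (Matrix.toLin' ((g : GL ι' F) : Matrix ι' ι' F)) ≤ U := by
  have hr : r.Prime := Fact.out
  have hzz : z * z = 1 := scalar_sq hQ hz (fun v => by
    have h1 := Q_act (g ^ r) v
    have h3 : ((((g ^ r : ↥(Cfsg.isometryGroup F ⇑Q)) : GL ι' F)) : Matrix ι' ι' F) = (((g : GL ι' F) ^ r : GL ι' F) : Matrix ι' ι' F) := rfl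
    rw [act, h3] at h1
    exact h1)
  obtain ⟨k, hk⟩ := hr.odd_of_ne_two hr2
  have hy : (((g ^ (r + 1) : ↥(Cfsg.isometryGroup F ⇑Q)) : GL ι' F) : Matrix ι' ι' F) = z • ((g : GL ι' F) : Matrix ι' ι' F) := by
    have h1 : (((g ^ (r + 1) : ↥(Cfsg.isometryGroup F ⇑Q)) : GL ι' F) : Matrix ι' ι' F) = (((g : GL ι' F) ^ r : GL ι' F) : Matrix ι' ι' F) * ((g : GL ι' F) : Matrix ι' ι' F) := by
      rw [pow_succ]
      rfl
    rw [h1, hz, Matrix.smul_mul, Matrix.one_mul]
  have hyr : (g ^ (r + 1)) ^ r = 1 := by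
    apply Subtype.ext
    apply Units.ext
    have h1 : ((((g ^ (r + 1)) ^ r : ↥(Cfsg.isometryGroup F ⇑Q)) : GL ι' F) : Matrix ι' ι' F) = ((((g : GL ι' F) ^ r : GL ι' F) : Matrix ι' ι' F)) ^ (r + 1) := by
      rw [← pow_mul, mul_comm, pow_mul]
      rfl
    rw [h1, hz, smul_pow, one_pow]
    have h3 : z ^ (r + 1) = 1 := by
      rw [hk, show 2 * k + 1 + 1 = 2 * (k + 1) by ring, pow_mul, pow_two, hzz, one_pow]
    rw [h3, one_smul]
    rfl
  have hy1 : g ^ (r + 1) ≠ 1 := by
    intro h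
    have h1 := hy
    rw [h] at h1
    have h3 : ((g : GL ι' F) : Matrix ι' ι' F) = z • (1 : Matrix ι' ι' F) := by
      have h4 : z • (z • ((g : GL ι' F) : Matrix ι' ι' F)) = z • (1 : Matrix ι' ι' F) := by
        rw [← h1]
        rfl
      rw [smul_smul, hzz, one_smul] at h4
      exact h4
    exact hns z h3
  obtain ⟨U, h1, h3, h4⟩ := hH (g ^ (r + 1)) (Subgroup.pow_mem _ hg _) (orderOf_eq_prime hyr hy1)
  refine ⟨U, h1, h3, ?_⟩
  rintro _ ⟨u, hu, rfl⟩
  have h5 : (Matrix.toLin' (((g ^ (r + 1) : ↥(Cfsg.isometryGroup F ⇑Q)) : GL ι' F) : Matrix ι' ι' F)) u ∈ U := h4 ⟨u, hu, rfl⟩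
  rw [hy, Matrix.toLin'_apply, Matrix.smul_mulVec] at h5
  rw [Matrix.toLin'_apply]
  have h6 := U.smul_mem z h5
  rwa [smul_smul, hzz, one_smul] at h6

end Red

end Cfsg.Agent.Lib.Classical.OSemi.SingInvE
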