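import Mathlib
import Cfsg.Agent.Lib.Classical.OSemi.SingInvE

/-!
# The criteria for totally singular subspaces in even dimension
-/

set_option autoImplicit false
set_option linter.unusedSectionVars false
set_option linter.unusedSimpArgs false
set_option linter.unusedVariables false
set_option linter.style.haveILetI false
set_option maxHeartbeats 1000000

open Polynomial Module QuadraticMap Matrix
open Cfsg Cfsg.Agent.Lib.Classical.Witt.Hyp Cfsg.Agent.Lib.Linalg.OrthModels Cfsg.Agent.Lib.Linalg.Bridge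
open Cfsg.Agent.Lib.Classical.Herm.OrthFinal
open Cfsg.Agent.Lib.Classical.OSemi.Lag
open Cfsg.Agent.Lib.Classical.OSemi.OddForm
open Cfsg.Agent.Lib.Classical.OSemi.SingEven
open Cfsg.Agent.Lib.Classical.OSemi.SingEvenF
open Cfsg.Agent.Lib.Classical.OSemi.SingJ
open Cfsg.Agent.Lib.Classical.OSemi.SingInvE
open Cfsg.Agent.Lib.Classical.Witt.TS
open Cfsg.Agent.Lib.Classical.Orth.Basic

namespace Cfsg.Agent.Lib.Classical.OSemi.SingFinal

universe u

variable {ι' : Type} [Fintype ι'] [DecidableEq ι'] {F : Type u} [Field F] [Fintype F]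
variable {Q : QuadraticForm F (ι' → F)}
variable {p : ℕ} [Fact p.Prime] [CharP F p]

/-- The criterion for odd `r ≠ p`. -/
theorem sing_odd_iff {q r i : ℕ} [Fact r.Prime] (hq : Fintype.card F = q) (hr2 : r ≠ 2) (hrp : r ≠ p) (hi : i = orderOf (q : ZMod r))
    (hQ : PolarNondeg Q) {d : ℕ} (hcard : Fintype.card ι' = 2 * d) (hc4 : Fintype.card ι' ≠ 4) [hne : Nonempty ι'] {c : ℕ} (hc : c = if Even i then i else 2 * i)
    {m : ℕ} (hm1 : 1 ≤ m) (hmd : m < d)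
    (hrΩ : r ∣ Nat.card {W : Submodule F (ι' → F) // finrank F W = m ∧ ∀ w ∈ W, Q w = 0}) :
    (∀ x : GL ι' F, x ∈ Cfsg.Geo.omegaGL (⇑Q) →
      (∃ z : F, ((x ^ r : GL ι' F) : Matrix ι' ι' F) = z • (1 : Matrix ι' ι' F)) →
      (∀ z : F, (x : Matrix ι' ι' F) ≠ z • (1 : Matrix ι' ι' F)) →
      ∃ W : Submodule F (ι' → F), finrank F W = m ∧ (∀ w ∈ W, Q w = 0) ∧ W.map (Matrix.toLin' (x : Matrix ι' ι' F)) ≤ W) ↔
    (i ≤ m ∧ (¬ Even i → (Lag Q → 2 * (m % i) ≤ (2 * d) % c) ∧ (¬ Lag Q → (2 * d) % c = 0 ∨ 2 * (m % i) < (2 * d) % c)) ∧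
      (Even i → (r - 1) / i + 2 * (m / i) ≤ (2 * d) / i ∧
        ((2 * (m % i) ≤ i ∧ (2 * d) % i = 0 ∧ ¬ (Lag Q ↔ Even ((2 * d) / i)) ∧ (r - 1) / i + 2 * (m / i) < (2 * d) / i) ∨
          (2 * (m % i) ≤ (2 * d) % i ∧ (Lag Q ↔ Even ((2 * d) / i))) ∨ (2 * (m % i) < (2 * d) % i ∧ ¬ (Lag Q ↔ Even ((2 * d) / i)))))) := by
  classical
  obtain ⟨t, D, ⟨H⟩, ht, ht0, hi0⟩ := exists_setup hq hr2 hrp hi
  have htdiv : (r - 1) / i = t := Nat.div_eq_of_eq_mul_left hi0 ht.symm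
  rw [htdiv]
  constructor
  · intro H0
    refine sing_forward_even H ht ht0 hq hr2 hrp hi hQ hcard hc4 hne hc hm1 hmd hrΩ (fun x hx hxr => ?_)
    obtain ⟨h1, h3⟩ := forward_reduce hQ hr2 x hxr
    exact H0 (x : GL ι' F) (Subgroup.mem_map_of_mem _ hx) h1 h3
  · rintro ⟨him, h1, h3⟩ x ⟨g, hg, rfl⟩ ⟨z, hz⟩ hns
    refine backward_reduce hQ hr2 (fun y hy hyr => ?_) g hg hz hns
    by_cases hev : Even i
    · obtain ⟨h4, h5⟩ := h3 hev
      exact sing_back_even H hq hr2 hrp Q hQ hcard hev h4 h5 y hyr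
    · obtain ⟨h4, h5⟩ := h1 hev
      exact sing_back_odd H hq hr2 hrp Q hQ hcard hev (by rw [hc, if_neg hev]) hmd h4 h5 y hyr

/-- The dichotomy for `r = 2`. -/
theorem sing_two_back (h2 : (2 : F) ≠ 0) (hQ : PolarNondeg Q) {d : ℕ} (hcard : Fintype.card ι' = 2 * d) [hne : Nonempty ι']
    (g : ↥(Cfsg.isometryGroup F ⇑Q)) (hg : g ∈ Cfsg.Omega F ⇑Q) {z : F}
    (hz : (((g : GL ι' F) ^ 2 : GL ι' F) : Matrix ι' ι' F) = z • (1 : Matrix ι' ι' F)) {m : ℕ}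
    (hz1 : m + 2 ≤ d ∨ (m + 1 ≤ d ∧ ¬ Lag Q) ∨ (m ≤ d ∧ Lag Q ∧ IsSquare (-1 : F)))
    (hz2 : (∀ v, act g (act g v) = -v) → ∃ U : Submodule F (ι' → F), finrank F U = m ∧ (∀ u ∈ U, Q u = 0) ∧ ∀ w ∈ U, act g w ∈ U) :
    ∃ W : Submodule F (ι' → F), finrank F W = m ∧ (∀ w ∈ W, Q w = 0) ∧ W.map (Matrix.toLin' ((g : GL ι' F) : Matrix ι' ι' F)) ≤ W := by
  have hzz : z * z = 1 := scalar_sq hQ hz (fun v => by
    have h1 := Q_act (g ^ 2) v
    have h3 : ((((g ^ 2 : ↥(Cfsg.isometryGroup F ⇑Q)) : GL ι' F)) : Matrix ι' ι' F) = (((g : GL ι' F) ^ 2 : GL ι' F) : Matrix ι' ι' F) := rfl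
    rw [act, h3] at h1
    exact h1)
  have hgg : ∀ v, act g (act g v) = z • v := by
    intro v
    rw [← act_mul, ← pow_two]
    show (((g : GL ι' F) ^ 2 : GL ι' F) : Matrix ι' ι' F) *ᵥ v = _
    rw [hz, Matrix.smul_mulVec, Matrix.one_mulVec]
  have hz' : (z - 1) * (z + 1) = 0 := by linear_combination hzz
  have hU : ∃ U : Submodule F (ι' → F), finrank F U = m ∧ (∀ u ∈ U, Q u = 0) ∧ ∀ w ∈ U, act g w ∈ U := by
    rcases mul_eq_zero.1 hz' with h1 | h1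
    · have hz1' : z = 1 := sub_eq_zero.1 h1
      refine sing_invol_even h2 hQ hcard g hg ?_ hz1
      apply Subtype.ext
      apply Units.ext
      show (((g : GL ι' F) ^ 2 : GL ι' F) : Matrix ι' ι' F) = 1
      rw [hz, hz1', one_smul]
    · have hz1' : z = -1 := eq_neg_of_add_eq_zero_left h1
      exact hz2 (fun v => by rw [hgg, hz1', neg_smul, one_smul])
  obtain ⟨U, h1, h3, h4⟩ := hU
  exact ⟨U, h1, h3, fun _ ⟨w, hw, hww⟩ => by
    rw [← hww]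
    exact h4 w hw⟩

/-- An isometry with square `-1` is as in the statement. -/
theorem J_statement (hns : ¬ IsSquare (-1 : F)) (hQ : PolarNondeg Q) [hne : Nonempty ι'] (g : ↥(Cfsg.isometryGroup F ⇑Q)) (hJ : ∀ v, act g (act g v) = -v) :
    (∃ z : F, (((g : GL ι' F) ^ 2 : GL ι' F) : Matrix ι' ι' F) = z • (1 : Matrix ι' ι' F)) ∧
      ∀ z : F, ((g : GL ι' F) : Matrix ι' ι' F) ≠ z • (1 : Matrix ι' ι' F) := by
  refine ⟨⟨-1, ?_⟩, fun z hz => ?_⟩
  · apply matrix_eq_of_mulVec_eq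
    intro v
    rw [Matrix.smul_mulVec, Matrix.one_mulVec, neg_smul, one_smul, ← hJ v, ← act_mul, ← pow_two]
    rfl
  · obtain ⟨v, hv⟩ := exists_nonsing hQ
    have hv0 : v ≠ 0 := by
      rintro rfl
      simp at hv
    have h1 := hJ v
    have hact : ∀ w, act g w = z • w := by
      intro w
      show ((g : GL ι' F) : Matrix ι' ι' F) *ᵥ w = _
      rw [hz, Matrix.smul_mulVec, Matrix.one_mulVec]
    rw [hact, hact, smul_smul] at h1
    have h3 : (z * z + 1) • v = 0 := by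
      rw [add_smul, h1, one_smul]
      abel
    have h4 := (smul_eq_zero.1 h3).resolve_right hv0
    exact hns ⟨z, by linear_combination -h4⟩

/-- Nonsquare `-1` in terms of the number of elements. -/
theorem odd_facts {q : ℕ} (hq : Fintype.card F = q) (hp2 : p ≠ 2) :
    (2 : F) ≠ 0 ∧ q % 2 = 1 ∧ (IsSquare (-1 : F) ↔ q % 4 ≠ 3) ∧ (IsSquare (2 : F) ↔ q % 8 ≠ 3 ∧ q % 8 ≠ 5) := by
  have h2 : (2 : F) ≠ 0 := by
    intro h
    have h3 : ((2 : ℕ) : F) = 0 := by exact_mod_cast h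
    rw [CharP.cast_eq_zero_iff F p] at h3
    exact hp2 ((Nat.prime_dvd_prime_iff_eq Fact.out Nat.prime_two).1 h3)
  refine ⟨h2, ?_, ?_, ?_⟩
  · rw [← hq]
    refine FiniteField.odd_card_of_char_ne_two fun hc => h2 ?_
    have := ringChar.Nat.cast_ringChar (R := F)
    rw [hc] at this
    exact_mod_cast this
  · rw [← hq]
    exact FiniteField.isSquare_neg_one_iff
  · rw [← hq]
    exact FiniteField.isSquare_two_iff

theorem isSquare_two_of_pow (h2 : (2 : F) ≠ 0) {d : ℕ} (hd : ¬ Even d) (h : IsSquare ((2 : F) ^ d)) : IsSquare (2 : F) := by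
  rw [Nat.not_even_iff_odd] at hd
  obtain ⟨k, rfl⟩ := hd
  rw [pow_succ, pow_mul] at h
  have h1 : ((2 : F) ^ 2) ^ k ≠ 0 := pow_ne_zero _ (pow_ne_zero _ h2)
  have h3 := (isSquare_mul_iff h2 h1 h2).1 h
  refine h3.1 ?_
  rw [← pow_mul, mul_comm, pow_mul]
  exact ⟨2 ^ k, by ring⟩

end Cfsg.Agent.Lib.Classical.OSemi.SingFinal
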