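import Mathlib
import Cfsg.Agent.Lib.Classical.OSemi.SingFinal
import Cfsg.Agent.Lib.Classical.OSemi.Coprime
import Cfsg.Agent.Lib.Classical.OSemi.Invol

/-!
# Nondegenerate subspaces of a form of even dimension, for odd `r ≠ p`
-/

set_option autoImplicit false
set_option linter.unusedSectionVars false
set_option linter.unusedSimpArgs false
set_option linter.unusedVariables false
set_option linter.style.haveILetI false
set_option maxHeartbeats 1000000

open Polynomial Module QuadraticMap Matrix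
open Cfsg Cfsg.Agent.Lib.Classical.Herm.CycTuples Cfsg.Agent.Lib.Classical.Witt.Hyp Cfsg.Agent.Lib.Linalg.OrthModels
open Cfsg.Agent.Lib.Classical.Herm.OrthBlock Cfsg.Agent.Lib.Classical.Herm.OrthEmbed Cfsg.Agent.Lib.Linalg.Bridge
open Cfsg.Agent.Lib.Classical.Herm.OrthType Cfsg.Agent.Lib.Classical.Herm.OrthCount Cfsg.Agent.Lib.Classical.Witt.Index
open Cfsg.Agent.Lib.Classical.Herm.OrthFinal Cfsg.Agent.Lib.Classical.OSemi.Ext Cfsg.Agent.Lib.Classical.OSemi.Lag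
open Cfsg.Agent.Lib.Classical.OSemi.Nondeg Cfsg.Agent.Lib.Classical.Elusive.Inv Cfsg.Agent.Lib.Classical.Elusive.SpCore
open Cfsg.Agent.Lib.Classical.OSemi.Decomp Cfsg.Agent.Lib.Classical.Elusive.PslNum
open Cfsg.Agent.Lib.Classical.OSemi.Split Cfsg.Agent.Lib.Classical.OSemi.TsModel Cfsg.Agent.Lib.Classical.OSemi.LagFree
open Cfsg.Agent.Lib.Classical.OSemi.SylowFix Cfsg.Agent.Lib.Classical.OSemi.OddForm Cfsg.Agent.Lib.Classical.OSemi.Coprime
open Cfsg.Agent.Lib.Classical.OSemi.Clause Cfsg.Agent.Lib.Classical.OSemi.SingOdd Cfsg.Agent.Lib.Classical.OSemi.EvenX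
open Cfsg.Agent.Lib.Classical.OSemi.SingEvenF
open Cfsg.Agent.Lib.Classical.Witt.TS
open Cfsg.Agent.Lib.Classical.Orth.Basic Cfsg.Agent.Lib.Classical.Orth.Classes Cfsg.Agent.Lib.Classical.Orth.Adjust

namespace Cfsg.Agent.Lib.Classical.OSemi.NondegE

universe u

theorem iff_aux3 {τ L A B S : Prop} (h7 : τ ↔ (L ↔ (S ↔ A))) (h13 : S ↔ (A ↔ B)) :
    ((A ↔ (A ↔ τ)) ↔ B) ↔ L := by
  tauto

theorem iff_aux4 {τ L A B : Prop} (h7 : τ ↔ L) (h8 : A) (h9 : B) :
    ((A ↔ (True ↔ τ)) ↔ B) ↔ L := by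
  tauto

theorem iff_aux5 {τ A : Prop} : (A ↔ (A ↔ τ)) ↔ τ := by
  tauto

section Abstract

variable {F : Type u} [Field F] [Fintype F] {W₁ W₂ : Type*} [AddCommGroup W₁] [Module F W₁] [AddCommGroup W₂] [Module F W₂]

theorem lag_swap {Q₁ : QuadraticForm F W₁} {Q₂ : QuadraticForm F W₂} : Lag (Q₁.prod Q₂) ↔ Lag (Q₂.prod Q₁) :=
  lag_congr_iff (LinearEquiv.prodComm F W₁ W₂) (fun v => by
    show Q₂ v.2 + Q₁ v.1 = Q₁ v.1 + Q₂ v.2
    ring)

variable [FiniteDimensional F W₁] [FiniteDimensional F W₂]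

/-- Two spaces which are not hyperbolic in characteristic two. -/
theorem lag_of_not_not_le (h2 : (2 : F) = 0) {Q₁ : QuadraticForm F W₁} {Q₂ : QuadraticForm F W₂} (h₁ : PolarNondeg Q₁) (h₂ : PolarNondeg Q₂)
    (hL₁ : ¬ Lag Q₁) (hL₂ : ¬ Lag Q₂) {w₁ w₂ : ℕ} (hd₁ : finrank F W₁ = 2 * w₁) (hd₂ : finrank F W₂ = 2 * w₂) (hle : w₁ ≤ w₂) :
    Lag (Q₁.prod Q₂) := by
  classical
  obtain ⟨e, rfl⟩ : ∃ e, w₂ = w₁ + e := ⟨w₂ - w₁, by omega⟩
  have hw₁ : 1 ≤ w₁ := by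
    by_contra h
    exact hL₁ (lag_of_finrank_zero _ (by omega))
  have hdP : finrank F (Fin e ⊕ Fin e → F) = 2 * e := by
    rw [Module.finrank_fintype_fun_eq_card]
    simp [Fintype.card_sum]
    ring
  have hd' : finrank F (W₁ × (Fin e ⊕ Fin e → F)) = 2 * (w₁ + e) := by
    rw [Module.finrank_prod, hd₁, hdP]
    ring
  have hn' := polarNondeg_prod h₁ (polarNondeg_plusQ (F := F) e)
  have hL' : ¬ Lag (Q₁.prod (plusQ e F)) := fun h =>
    hL₁ (lag_of_prod_left (polarNondeg_plusQ e) h₁ (lag_plusQ e) (lag_swap.1 h))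
  obtain ⟨φ, hφ⟩ := exists_equiv_of_type hn' h₂ (by omega) hd' hd₂ (iff_of_false hL' hL₂)
  obtain ⟨X, hX, hXd⟩ := lag_plusQ (F := F) e
  rw [hdP] at hXd
  let L : (W₁ × X) →ₗ[F] (W₁ × W₂) :=
    LinearMap.prod (LinearMap.fst F W₁ X) ((φ : (W₁ × (Fin e ⊕ Fin e → F)) →ₗ[F] W₂) ∘ₗ LinearMap.prodMap LinearMap.id X.subtype)
  have hLa : ∀ v : W₁ × X, L v = (v.1, φ (v.1, (v.2 : Fin e ⊕ Fin e → F))) := fun _ => rfl
  have hL : Function.Injective L := by
    rintro ⟨a, b⟩ ⟨a', b'⟩ h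
    rw [hLa, hLa] at h
    have h3 := congrArg Prod.fst h
    have h4 := congrArg Prod.snd h
    have h5 := φ.injective h4
    have h6 := congrArg Prod.snd h5
    exact Prod.ext h3 (Subtype.ext h6)
  refine ⟨LinearMap.range L, ?_, ?_⟩
  · rintro _ ⟨⟨v, z⟩, rfl⟩
    rw [hLa]
    show Q₁ v + Q₂ (φ (v, (z : Fin e ⊕ Fin e → F))) = 0
    rw [hφ]
    show Q₁ v + (Q₁ v + plusQ e F (z : Fin e ⊕ Fin e → F)) = 0
    rw [hX _ z.2, add_zero, ← two_mul, h2, zero_mul]
  · rw [LinearMap.finrank_range_of_inj hL, Module.finrank_prod, Module.finrank_prod, hd₁, hd₂]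
    omega

/-- The type of an orthogonal sum, in every characteristic. -/
theorem lag_prod' {Q₁ : QuadraticForm F W₁} {Q₂ : QuadraticForm F W₂} (h₁ : PolarNondeg Q₁) (h₂ : PolarNondeg Q₂) {m₁ m₂ : ℕ}
    (hd₁ : finrank F W₁ = 2 * m₁) (hd₂ : finrank F W₂ = 2 * m₂) : Lag (Q₁.prod Q₂) ↔ (Lag Q₁ ↔ Lag Q₂) := by
  by_cases h2 : (2 : F) = 0
  swap
  · exact lag_prod h2 h₁ h₂ hd₁ hd₂
  by_cases hL₁ : Lag Q₁
  · rw [iff_true_left hL₁]
    exact ⟨lag_of_prod_left h₁ h₂ hL₁, lag_prod_of_lag hL₁⟩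
  by_cases hL₂ : Lag Q₂
  · exact iff_of_false (fun h => hL₁ (lag_of_prod_left h₂ h₁ hL₂ (lag_swap.1 h))) (fun h => hL₁ (h.2 hL₂))
  · refine iff_of_true ?_ (iff_of_false hL₁ hL₂)
    rcases le_total m₁ m₂ with h | h
    · exact lag_of_not_not_le h2 h₁ h₂ hL₁ hL₂ hd₁ hd₂ h
    · exact lag_swap.1 (lag_of_not_not_le h2 h₂ h₁ hL₂ hL₁ hd₂ hd₁ h)

end Abstract

section General

variable {F : Type u} [Field F] [Fintype F] {X Y : Type u} [AddCommGroup X] [Module F X] [FiniteDimensional F X]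
  [AddCommGroup Y] [Module F Y] [FiniteDimensional F Y]

theorem polar_comp_sub (QX : QuadraticForm F X) (W : Submodule F X) (a b : W) :
    polar (QX.comp W.subtype) a b = polar QX (a : X) (b : X) := by
  simp [polar]

/-- The orthogonal complement of a nondegenerate subspace. -/
theorem exists_orth_gen (QX : QuadraticForm F X) (hX : PolarNondeg QX) (W : Submodule F X) (hW : PolarNondeg (QX.comp W.subtype)) :
    ∃ P : Submodule F X, (∀ y, y ∈ P ↔ ∀ a ∈ W, polar QX a y = 0) ∧ W ⊔ P = ⊤ ∧ W ⊓ P = ⊥ ∧ finrank F W + finrank F P = finrank F X ∧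
      PolarNondeg (QX.comp P.subtype) := by
  classical
  let B : LinearMap.BilinForm F X := polarBilin QX
  have hBn : B.Nondegenerate := nondeg_of_polarNondeg QX hX
  obtain ⟨P, hPdef⟩ : ∃ P, P = B.orthogonal W := ⟨_, rfl⟩
  have hP : ∀ y, y ∈ P ↔ ∀ a ∈ W, polar QX a y = 0 := fun y => by
    rw [hPdef]
    exact Iff.rfl
  have hdim := LinearMap.BilinForm.finrank_orthogonal hBn W
  rw [← hPdef] at hdim
  have hWle : finrank F W ≤ finrank F X := Submodule.finrank_le W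
  have hinf : W ⊓ P = ⊥ := by
    rw [eq_bot_iff]
    rintro v ⟨hv1, hv2⟩
    have h1 : (⟨v, hv1⟩ : W) = 0 := hW _ (fun z => by
      rw [polar_comp_sub, polar_comm]
      exact (hP v).1 hv2 z z.2)
    exact (Submodule.mem_bot F).2 (congrArg Subtype.val h1)
  have hsup : W ⊔ P = ⊤ := by
    apply Submodule.eq_top_of_finrank_eq
    have h1 := Submodule.finrank_sup_add_finrank_inf_eq W P
    rw [hinf, finrank_bot, add_zero] at h1
    omega
  refine ⟨P, hP, hsup, hinf, by omega, ?_⟩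
  rintro ⟨v, hv⟩ hh
  apply Subtype.ext
  apply hX
  intro z
  have hz : z ∈ W ⊔ P := by
    rw [hsup]
    exact Submodule.mem_top
  obtain ⟨a, ha, b, hb, rfl⟩ := Submodule.mem_sup.1 hz
  have h1 : polar QX v a = 0 := by
    rw [polar_comm]
    exact (hP v).1 hv a ha
  have h2 : polar QX v b = 0 := by
    have := hh ⟨b, hb⟩
    rwa [polar_comp_sub] at this
  rw [polar_add_right, h1, h2, add_zero]

/-- A complement of the image of an isometric map. -/
theorem exists_compl_of_isometric (QX : QuadraticForm F X) (hX : PolarNondeg QX) (QY : QuadraticForm F Y) (hY : PolarNondeg QY)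
    (f : Y →ₗ[F] X) (hf : ∀ y, QX (f y) = QY y) :
    ∃ (P : Submodule F X) (e : (Y × P) ≃ₗ[F] X), PolarNondeg (QX.comp P.subtype) ∧ finrank F P + finrank F Y = finrank F X ∧
      ∀ v, QX (e v) = (QY.prod (QX.comp P.subtype)) v := by
  classical
  have hpol : ∀ a b, polar QX (f a) (f b) = polar QY a b := by
    intro a b
    simp only [polar, ← map_add, hf]
  have hinj : Function.Injective f := by
    rw [injective_iff_map_eq_zero]
    intro a ha
    apply hY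
    intro b
    rw [← hpol, ha, polar_zero_left]
  have hW : PolarNondeg (QX.comp (LinearMap.range f).subtype) := by
    rintro ⟨_, ⟨a, rfl⟩⟩ hh
    apply Subtype.ext
    have h1 : a = 0 := hY a (fun b => by
      have := hh ⟨f b, ⟨b, rfl⟩⟩
      rwa [polar_comp_sub, hpol] at this)
    simp [h1]
  obtain ⟨P, hP, hsup, hinf, hd, hPn⟩ := exists_orth_gen QX hX _ hW
  rw [LinearMap.finrank_range_of_inj hinj] at hd
  let L : (Y × P) →ₗ[F] X := LinearMap.coprod f P.subtype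
  have hLa : ∀ v : Y × P, L v = f v.1 + (v.2 : X) := fun v => rfl
  have hLi : Function.Injective L := by
    rw [injective_iff_map_eq_zero]
    rintro ⟨a, b⟩ h
    have h0 : f a + (b : X) = 0 := by
      rw [← hLa (a, b)]
      exact h
    have h1 : (b : X) ∈ LinearMap.range f ⊓ P := by
      refine ⟨⟨-a, ?_⟩, b.2⟩
      rw [map_neg]
      exact neg_eq_of_add_eq_zero_right h0
    rw [hinf] at h1
    have h3 : (b : X) = 0 := (Submodule.mem_bot F).1 h1
    rw [h3, add_zero] at h0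
    have h4 : a = 0 := hinj (by rw [h0, map_zero])
    have h5 : b = 0 := Subtype.ext h3
    rw [h4, h5]
    rfl
  have hLd : finrank F (Y × P) = finrank F X := by
    rw [Module.finrank_prod]
    omega
  refine ⟨P, LinearMap.linearEquivOfInjective L hLi hLd, hPn, by omega, ?_⟩
  rintro ⟨a, b⟩
  rw [LinearMap.linearEquivOfInjective_apply, hLa]
  show QX (f a + (b : X)) = QY a + QX (b : X)
  have h1 : polar QX (f a) (b : X) = 0 := (hP _).1 b.2 _ ⟨a, rfl⟩
  have h3 := QuadraticMap.map_add (⇑QX) (f a) (b : X)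
  rw [h3, hf, h1, add_zero]

/-- Every nondegenerate form embeds in a nondegenerate form of larger dimension, in odd characteristic. -/
theorem exists_embed_gen (h2 : (2 : F) ≠ 0) : ∀ (m : ℕ) (Y X : Type u) [AddCommGroup Y] [Module F Y] [FiniteDimensional F Y] [AddCommGroup X] [Module F X] [FiniteDimensional F X]
    (QY : QuadraticForm F Y) (QX : QuadraticForm F X), PolarNondeg QY → PolarNondeg QX → finrank F Y = m → m < finrank F X →
    ∃ f : Y →ₗ[F] X, ∀ y, QX (f y) = QY y := by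
  classical
  intro m
  induction m with
  | zero =>
    intro Y X _ _ _ _ _ _ QY QX hY hX hd hlt
    haveI : Subsingleton Y := (Module.finrank_zero_iff (R := F)).1 hd
    refine ⟨0, fun y => ?_⟩
    rw [Subsingleton.elim y 0]
    simp
  | succ m ih =>
    intro Y X _ _ _ _ _ _ QY QX hY hX hd hlt
    have hex : ∃ y₀, QY y₀ ≠ 0 := by
      by_contra hcon
      push Not at hcon
      have h0 : ∀ a : Y, a = 0 := fun a => hY a (fun y => by
        rw [polar, hcon, hcon, hcon]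
        ring)
      haveI : Subsingleton Y := ⟨fun a b => by rw [h0 a, h0 b]⟩
      have := Module.finrank_zero_of_subsingleton (R := F) (M := Y)
      omega
    obtain ⟨y₀, hy₀⟩ := hex
    obtain ⟨x₀, hx₀⟩ := Cfsg.Agent.Lib.Classical.OSemi.Invol.exists_represent h2 QX hX (by omega) (QY y₀)
    let QL : QuadraticForm F F := (QY y₀) • QuadraticMap.sq (R := F)
    have hQL : ∀ t : F, QL t = QY y₀ * (t * t) := fun t => rfl
    have hQLn : PolarNondeg QL := by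
      intro a ha
      have h1 := ha 1
      rw [polar, hQL, hQL, hQL] at h1
      have h3 : 2 * QY y₀ * a = 0 := by linear_combination h1
      exact (mul_eq_zero.1 h3).resolve_left (mul_ne_zero h2 hy₀)
    let fY : F →ₗ[F] Y := LinearMap.toSpanSingleton F Y y₀
    let fX : F →ₗ[F] X := LinearMap.toSpanSingleton F X x₀
    have hfY : ∀ t, QY (fY t) = QL t := fun t => by
      show QY (t • y₀) = _
      rw [QuadraticMap.map_smul, hQL, smul_eq_mul]
      ring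
    have hfX : ∀ t, QX (fX t) = QL t := fun t => by
      show QX (t • x₀) = _
      rw [QuadraticMap.map_smul, hQL, smul_eq_mul, hx₀]
      ring
    obtain ⟨Y₁, eY, hY₁, hdY, heY⟩ := exists_compl_of_isometric QY hY QL hQLn fY hfY
    obtain ⟨X₁, eX, hX₁, hdX, heX⟩ := exists_compl_of_isometric QX hX QL hQLn fX hfX
    rw [Module.finrank_self] at hdY hdX
    obtain ⟨f₁, hf₁⟩ := ih Y₁ X₁ (QY.comp Y₁.subtype) (QX.comp X₁.subtype) hY₁ hX₁ (by omega) (by omega)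
    refine ⟨(eX : (F × X₁) →ₗ[F] X) ∘ₗ LinearMap.prodMap LinearMap.id f₁ ∘ₗ (eY.symm : Y →ₗ[F] (F × Y₁)), fun y => ?_⟩
    obtain ⟨⟨t, v⟩, rfl⟩ := eY.surjective y
    simp only [LinearMap.comp_apply, LinearEquiv.coe_coe, LinearEquiv.symm_apply_apply, LinearMap.prodMap_apply, LinearMap.id_apply]
    rw [heX, heY]
    show QL t + (QX.comp X₁.subtype) (f₁ v) = QL t + (QY.comp Y₁.subtype) v
    rw [hf₁]

end General

section Main

variable {ι' : Type} [Fintype ι'] [DecidableEq ι'] {F : Type u} [Field F] [Fintype F]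
variable {Q : QuadraticForm F (ι' → F)}
variable {p : ℕ} [Fact p.Prime] [CharP F p] {q r i t : ℕ} {D : Finset F[X]}

/-- An orthogonal decomposition and the type. -/
theorem lag_sup_iff' {A B : Submodule F (ι' → F)} (hQ : PolarNondeg Q) (hs : A ⊔ B = ⊤) (hi : A ⊓ B = ⊥)
    (horth : ∀ a ∈ A, ∀ b ∈ B, polar Q a b = 0) {a b : ℕ} (hda : finrank F A = 2 * a) (hdb : finrank F B = 2 * b) :
    Lag Q ↔ (Lag (Q.comp A.subtype) ↔ Lag (Q.comp B.subtype)) := by
  have hAn : PolarNondeg (Q.comp A.subtype) := nondeg_of_orth_sup hQ hs horth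
  have hBn : PolarNondeg (Q.comp B.subtype) := nondeg_of_orth_sup hQ (by rw [sup_comm]; exact hs)
    (fun b hb a ha => by rw [polar_comm]; exact horth a ha b hb)
  have hc : IsCompl A B := ⟨disjoint_iff.2 hi, codisjoint_iff.2 hs⟩
  let φ : (A × B) ≃ₗ[F] (ι' → F) := Submodule.prodEquivOfIsCompl A B hc
  have hφ : ∀ v : A × B, Q (φ v) = ((Q.comp A.subtype).prod (Q.comp B.subtype)) v := by
    intro v
    have h1 : φ v = (v.1 : ι' → F) + (v.2 : ι' → F) := rfl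
    rw [h1, Q_add, horth _ v.1.2 _ v.2.2, add_zero]
    rfl
  rw [← lag_congr_iff φ hφ, lag_prod' hAn hBn hda hdb]

/-- The general construction of an invariant subspace with a prescribed form on the fixed part. -/
theorem exists_inv_core (H : Data q r i t D) (hr : r.Prime) (hr2 : r ≠ 2) (hrp : r ≠ p)
    (hQ : PolarNondeg Q) (x : ↥(Cfsg.isometryGroup F ⇑Q)) (hx : orderOf x = r)
    (k' k'' : D → ℕ)
    {W₁ W₂ P : Type u} [AddCommGroup W₁] [Module F W₁] [FiniteDimensional F W₁] [AddCommGroup W₂] [Module F W₂] [FiniteDimensional F W₂]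
    [AddCommGroup P] [Module F P] [FiniteDimensional F P]
    (Q₁ : QuadraticForm F W₁) (Q₂ : QuadraticForm F W₂) (QP : QuadraticForm F P) (hPn : PolarNondeg QP)
    (A₁ : W₁ ≃ₗ[F] W₁) (A₂ : W₂ ≃ₗ[F] W₂) (h₁n : PolarNondeg Q₁) (h₂n : PolarNondeg Q₂)
    (h₁i : ∀ v, Q₁ (A₁ v) = Q₁ v) (h₂i : ∀ v, Q₂ (A₂ v) = Q₂ v)
    (h₁r : (A₁ : Module.End F W₁) ^ r = 1) (h₂r : (A₂ : Module.End F W₂) ^ r = 1)
    (h₁c : LinearMap.charpoly (A₁ : W₁ →ₗ[F] W₁) = ∏ d : D, (d : F[X]) ^ k' d) (h₂c : LinearMap.charpoly (A₂ : W₂ →ₗ[F] W₂) = ∏ d : D, (d : F[X]) ^ k'' d)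
    (h₁d : finrank F W₁ = i * ∑ d, k' d) (h₂d : finrank F W₂ = i * ∑ d, k'' d)
    (hc : ((x : GL ι' F) : Matrix ι' ι' F).charpoly = polyOf D i (Fintype.card ι') (fun d => k' d + k'' d))
    (hdim : i * (∑ d, k' d + ∑ d, k'' d) + finrank F P ≤ Fintype.card ι')
    (ι₀ : ((W₁ × P) × W₂) →ₗ[F] (ι' → F)) (hι₀ : ∀ w, Q (ι₀ w) = ((Q₁.prod QP).prod Q₂) w) :
    ∃ φ : (W₁ × P) →ₗ[F] (ι' → F), (∀ w, Q (φ w) = (Q₁.prod QP) w) ∧
      (LinearMap.range φ).map (Matrix.toLin' ((x : GL ι' F) : Matrix ι' ι' F)) ≤ LinearMap.range φ := by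
  classical
  haveI : Fact r.Prime := ⟨hr⟩
  let QW : QuadraticForm F ((W₁ × P) × W₂) := (Q₁.prod QP).prod Q₂
  have hQWa : ∀ (a : W₁) (b : P) (c : W₂), QW ((a, b), c) = Q₁ a + QP b + Q₂ c := fun _ _ _ => rfl
  have hQWn : PolarNondeg QW := polarNondeg_prod (polarNondeg_prod h₁n hPn) h₂n
  let A : ((W₁ × P) × W₂) ≃ₗ[F] ((W₁ × P) × W₂) := (A₁.prodCongr (LinearEquiv.refl F P)).prodCongr A₂
  have hAa : ∀ (a : W₁) (b : P) (c : W₂), A ((a, b), c) = ((A₁ a, b), A₂ c) := fun _ _ _ => rfl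
  have hAi : ∀ w, QW (A w) = QW w := by
    rintro ⟨⟨a, b⟩, c⟩
    rw [hAa, hQWa, hQWa, h₁i, h₂i]
  have hpow : ∀ (j : ℕ) (a : W₁) (b : P) (c : W₂), ((A : Module.End F ((W₁ × P) × W₂)) ^ j) ((a, b), c)
      = ((((A₁ : Module.End F W₁) ^ j) a, b), ((A₂ : Module.End F W₂) ^ j) c) := by
    intro j
    induction j with
    | zero => intro a b c; simp
    | succ j ih =>
      intro a b c
      rw [pow_succ, Module.End.mul_apply, pow_succ, pow_succ, Module.End.mul_apply, Module.End.mul_apply]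
      change ((A : Module.End F ((W₁ × P) × W₂)) ^ j) (A ((a, b), c)) = _
      rw [hAa, ih]
      rfl
  have hAr : (A : Module.End F ((W₁ × P) × W₂)) ^ r = 1 := by
    apply LinearMap.ext
    rintro ⟨⟨a, b⟩, c⟩
    rw [hpow, h₁r, h₂r]
    rfl
  have hWd : finrank F ((W₁ × P) × W₂) = i * (∑ d, k' d + ∑ d, k'' d) + finrank F P := by
    rw [Module.finrank_prod, Module.finrank_prod, h₁d, h₂d]
    ring
  have hcA : LinearMap.charpoly (A : ((W₁ × P) × W₂) →ₗ[F] ((W₁ × P) × W₂)) =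
      (∏ d : D, (d : F[X]) ^ k' d) * (X - 1) ^ (finrank F P) * (∏ d : D, (d : F[X]) ^ k'' d) := by
    have h1 : (A : ((W₁ × P) × W₂) →ₗ[F] ((W₁ × P) × W₂)) =
        LinearMap.prodMap (LinearMap.prodMap (A₁ : W₁ →ₗ[F] W₁) (LinearMap.id : P →ₗ[F] P)) (A₂ : W₂ →ₗ[F] W₂) := rfl
    rw [h1, LinearMap.charpoly_prodMap, LinearMap.charpoly_prodMap, h₁c, h₂c, charpoly_id']
  have hcx : ((x : GL ι' F) : Matrix ι' ι' F).charpoly =
      LinearMap.charpoly (A : ((W₁ × P) × W₂) →ₗ[F] ((W₁ × P) × W₂)) *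
        (X - 1) ^ (Fintype.card ι' - finrank F ((W₁ × P) × W₂)) := by
    rw [hc, polyOf, hcA, hWd, Finset.sum_add_distrib]
    have h3 : Fintype.card ι' - i * (∑ d, k' d + ∑ d, k'' d) =
        finrank F P + (Fintype.card ι' - (i * (∑ d, k' d + ∑ d, k'' d) + finrank F P)) := by omega
    rw [h3, pow_add]
    simp only [pow_add, Finset.prod_mul_distrib]
    ring
  obtain ⟨ι₁, hι₁, hιx⟩ := exists_equivariant H hr hr2 hrp Q hQ x hx QW hQWn ι₀ hι₀ A hAi hAr hcx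
  let φ : (W₁ × P) →ₗ[F] (ι' → F) := ι₁ ∘ₗ LinearMap.inl F (W₁ × P) W₂
  have hφa : ∀ w, φ w = ι₁ (w, 0) := fun w => rfl
  have hφQ : ∀ w, Q (φ w) = (Q₁.prod QP) w := by
    rintro ⟨a, b⟩
    rw [hφa, hι₁, hQWa]
    simp
  have hinvr : (LinearMap.range φ).map (Matrix.toLin' ((x : GL ι' F) : Matrix ι' ι' F)) ≤ LinearMap.range φ := by
    rintro _ ⟨_, ⟨w, rfl⟩, rfl⟩
    obtain ⟨a, b⟩ := w
    refine ⟨(A₁ a, b), ?_⟩
    rw [hφa, hφa, Matrix.toLin'_apply, hιx, hAa]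
    simp
  exact ⟨φ, hφQ, hinvr⟩

variable [Fact r.Prime]

/-- The invariant subspace given the numbers. -/
theorem inv_of_pick' (H : Data q r i t D) (hF : Fintype.card F = q) (hr2 : r ≠ 2) (hrp : r ≠ p)
    (hQ : PolarNondeg Q) {d : ℕ} (hcard : Fintype.card ι' = 2 * d) {c : ℕ} (hc : c = if Even i then i else 2 * i)
    (x : ↥(Cfsg.isometryGroup F ⇑Q)) (hx : orderOf x = r) (k : D → ℕ) (hk : ∀ d, k (starD H d) = k d)
    (hcx : ((x : GL ι' F) : Matrix ι' ι' F).charpoly = polyOf D i (Fintype.card ι') k)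
    {a b e m : ℕ} (hb : i * ∑ d, k d = c * b) (hab : a ≤ b) (hm : c * a + 2 * e = m) (hdim : c * b + 2 * e ≤ 2 * d) (τ' : Prop)
    (hτ : e = 0 → (τ' ↔ (¬ Even i ∨ Even a)))
    (hfull : c * b + 2 * e = 2 * d → (τ' ↔ (Lag Q ↔ ((¬ Even i ∨ Even b) ↔ (¬ Even i ∨ Even a))))) :
    ∃ U : Submodule F (ι' → F), finrank F U = m ∧ Cfsg.Geo.IsNondegenerateOn (polar ⇑Q) U ∧
      (Cfsg.Geo.IsPlusTypeOn ⇑Q U ↔ τ') ∧ U.map (Matrix.toLin' ((x : GL ι' F) : Matrix ι' ι' F)) ≤ U := by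
  classical
  have hr : r.Prime := Fact.out
  have hi0 := H.hipos
  obtain ⟨k', k'', h1, h3, h4, h5, h6⟩ := exists_pick H hc k hk hb hab
  have hfun : (fun d => k' d + k'' d) = k := funext h4
  have hsum : ∑ d, k' d + ∑ d, k'' d = ∑ d, k d := by
    rw [← Finset.sum_add_distrib, Finset.sum_congr rfl fun d _ => h4 d]
  obtain ⟨P, _, _, _, QP, hPn, hPd, hPτ⟩ := exists_typed (F := F) e ((¬ Even i ∨ Even a) ↔ τ') (fun he0 => (hτ he0).symm)
  obtain ⟨c', hc'⟩ := c_even hc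
  have hcpos := c_pos hi0 hc
  obtain ⟨W₁, _, _, _, Q₁, A₁, h₁n, h₁i, h₁r, h₁c, h₁d⟩ := exists_W H hr2 hF k' h1
  obtain ⟨W₂, _, _, _, Q₂, A₂, h₂n, h₂i, h₂r, h₂c, h₂d⟩ := exists_W H hr2 hF k'' h3
  obtain ⟨hl1, hl2⟩ := lag_model H hr2 hF k' h1 Q₁ h₁n A₁ h₁i h₁r h₁c h₁d
  obtain ⟨hl3, hl4⟩ := lag_model H hr2 hF k'' h3 Q₂ h₂n A₂ h₂i h₂r h₂c h₂d
  have hι : ∃ ι₀ : ((W₁ × P) × W₂) →ₗ[F] (ι' → F), ∀ w, Q (ι₀ w) = ((Q₁.prod QP).prod Q₂) w := by
    have hQWn := polarNondeg_prod (polarNondeg_prod h₁n hPn) h₂n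
    have hdN : finrank F ((W₁ × P) × W₂) = c * b + 2 * e := by
      rw [Module.finrank_prod, Module.finrank_prod, h₁d, h₂d, hPd, ← hb, ← hsum, mul_add]
      ring
    obtain ⟨z₁, hz₁⟩ := even_mul_sum H k' h1
    obtain ⟨z₂, hz₂⟩ := even_mul_sum H k'' h3
    have hd₁' : finrank F W₁ = 2 * z₁ := by omega
    have hd₂' : finrank F W₂ = 2 * z₂ := by omega
    have hd₁₂ : finrank F (W₁ × P) = 2 * (z₁ + e) := by
      rw [Module.finrank_prod, hd₁', hPd]
      ring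
    refine emb_even hQ hcard _ hQWn hdN hdim ⟨c' * b + e, by rw [hc']; ring⟩ (fun hN => ?_)
    rw [lag_prod' (polarNondeg_prod h₁n hPn) h₂n hd₁₂ hd₂', lag_prod' h₁n hPn hd₁' hPd, hPτ]
    have h7 := hfull hN
    by_cases hevi : Even i
    · have h8 := hl2 hevi
      have h9 := hl4 hevi
      have h10 : ∑ d, k' d = a := h6 hevi
      have h11 : c = i := by rw [hc, if_pos hevi]
      have h12 : ∑ d, k d = b := by
        rw [h11] at hb
        exact Nat.eq_of_mul_eq_mul_left hi0 hb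
      rw [h10] at h8
      have h13 : Even b ↔ (Even a ↔ Even (∑ d, k'' d)) := by
        rw [← h12, ← hsum, h10, Nat.even_add]
      simp only [hevi, not_true_eq_false, false_or] at h7 ⊢
      rw [h8, h9]
      exact iff_aux3 h7 h13
    · have h8 := hl1 hevi
      have h9 := hl3 hevi
      simp only [hevi, not_false_eq_true, true_or, iff_true] at h7 ⊢
      exact iff_aux4 h7 h8 h9
  obtain ⟨ι₀, hι₀⟩ := hι
  obtain ⟨φ, hφ, hinv⟩ := exists_inv_core H hr hr2 hrp hQ x hx k' k'' Q₁ Q₂ QP hPn A₁ A₂ h₁n h₂n h₁i h₂i h₁r h₂r h₁c h₂c h₁d h₂d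
    (by rw [hfun]; exact hcx) (by rw [hsum, hb, hPd, hcard]; exact hdim) ι₀ hι₀
  have hPn₂ := polarNondeg_prod h₁n hPn
  obtain ⟨t1, t2, t3⟩ := transfer Q hPn₂ φ hφ
  obtain ⟨z₁, hz₁⟩ := even_mul_sum H k' h1
  refine ⟨LinearMap.range φ, ?_, t2, ?_, hinv⟩
  · rw [t1, Module.finrank_prod, h₁d, hPd, h5, hm]
  · rw [t3, lag_prod' h₁n hPn (m₁ := z₁) (m₂ := e) (by omega) hPd, hPτ]
    by_cases hevi : Even i
    · have h7 := hl2 hevi
      rw [h6 hevi] at h7
      rw [h7]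
      simp only [hevi, not_true_eq_false, false_or]
      exact iff_aux5
    · have h7 := hl1 hevi
      simp only [hevi, not_false_eq_true, true_or, iff_true, h7, true_iff]

end Main

end Cfsg.Agent.Lib.Classical.OSemi.NondegE
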