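import Mathlib
import Cfsg.Agent.Lib.Classical.OSemi.NondegE

/-!
# Nondegenerate subspaces of even dimension of a form of even dimension, for odd `r ≠ p`
-/

set_option autoImplicit false
set_option linter.unusedSectionVars false
set_option linter.unusedSimpArgs false
set_option linter.unusedVariables false
set_option linter.style.haveILetI false
set_option maxHeartbeats 1000000

open Polynomial Module QuadraticMap Matrix
open Cfsg Cfsg.Agent.Lib.Classical.Herm.CycTuples Cfsg.Agent.Lib.Classical.Witt.Hyp Cfsg.Agent.Lib.Linalg.OrthModels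
open Cfsg.Agent.Lib.Classical.Herm.OrthBlock Cfsg.Agent.Lib.Classical.Herm.OrthEmbed Cfsg.Agent.Lib.Linalg.Bridge
open Cfsg.Agent.Lib.Classical.Herm.OrthType Cfsg.Agent.Lib.Classical.Herm.OrthCount Cfsg.Agent.Lib.Classical.Witt.Index
open Cfsg.Agent.Lib.Classical.Herm.OrthFinal Cfsg.Agent.Lib.Classical.OSemi.Ext Cfsg.Agent.Lib.Classical.OSemi.Lag
open Cfsg.Agent.Lib.Classical.OSemi.Nondeg Cfsg.Agent.Lib.Classical.Elusive.Inv Cfsg.Agent.Lib.Classical.Elusive.SpCore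
open Cfsg.Agent.Lib.Classical.OSemi.Decomp Cfsg.Agent.Lib.Classical.Elusive.PslNum
open Cfsg.Agent.Lib.Classical.OSemi.Split Cfsg.Agent.Lib.Classical.OSemi.TsModel Cfsg.Agent.Lib.Classical.OSemi.LagFree
open Cfsg.Agent.Lib.Classical.OSemi.SylowFix Cfsg.Agent.Lib.Classical.OSemi.OddForm Cfsg.Agent.Lib.Classical.OSemi.Coprime
open Cfsg.Agent.Lib.Classical.OSemi.Clause Cfsg.Agent.Lib.Classical.OSemi.SingOdd Cfsg.Agent.Lib.Classical.OSemi.EvenX
open Cfsg.Agent.Lib.Classical.OSemi.SingEvenF Cfsg.Agent.Lib.Classical.OSemi.NondegE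
open Cfsg.Agent.Lib.Classical.Witt.TS
open Cfsg.Agent.Lib.Classical.Orth.Basic Cfsg.Agent.Lib.Classical.Orth.Classes Cfsg.Agent.Lib.Classical.Orth.Adjust

namespace Cfsg.Agent.Lib.Classical.OSemi.NondegF

universe u

theorem prop_aux1 {τ L T A : Prop} (h1 : τ ↔ A) (h2 : L ↔ T) : τ ↔ (L ↔ (T ↔ A)) := by
  tauto

theorem prop_aux2 {τ L T A : Prop} (h1 : ¬ (τ ↔ A)) (h2 : ¬ (L ↔ T)) : τ ↔ (L ↔ (T ↔ A)) := by
  tauto

theorem prop_aux3 {τ L P S : Prop} (h1 : P ↔ τ) (h2 : L ↔ (P ↔ S)) : τ ↔ (L ↔ S) := by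
  tauto

theorem prop_aux4 {τ L B A : Prop} (h1 : ¬ (τ ↔ ¬ A)) (h2 : ¬ (L ↔ ¬ B)) : τ ↔ (L ↔ (B ↔ A)) := by
  tauto

theorem prop_aux5 {P S A : Prop} : (P ↔ S) ↔ (P ↔ ((S ↔ A) ↔ A)) := by
  tauto

section Main

variable {ι' : Type} [Fintype ι'] [DecidableEq ι'] {F : Type u} [Field F] [Fintype F]
variable {Q : QuadraticForm F (ι' → F)}
variable {p : ℕ} [Fact p.Prime] [CharP F p] {q r i t : ℕ} {D : Finset F[X]}

theorem exists_b_of_sum (H : Data q r i t D) {c : ℕ} (hc : c = if Even i then i else 2 * i) (k : D → ℕ) (hk : ∀ d, k (starD H d) = k d) :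
    ∃ b, i * ∑ d, k d = c * b ∧ (Even i → ∑ d, k d = b) := by
  classical
  by_cases hev : Even i
  · rw [hc, if_pos hev]
    exact ⟨_, rfl, fun _ => rfl⟩
  · have hfp : ∀ a, starD H a ≠ a := fun a ha => hev ((H.hstar a.1 a.2).1 (congrArg Subtype.val ha))
    obtain ⟨T', hT'⟩ := exists_transversal (starD H) (starD_starD H) hfp
    rw [hc, if_neg hev, sum_eq_two_mul (starD H) (starD_starD H) hT' k hk]
    exact ⟨∑ d ∈ T', k d, by ring, fun h => absurd h hev⟩

variable [Fact r.Prime]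

/-- The backward direction for even `m`. -/
theorem nondeg_backward (H : Data q r i t D) (hF : Fintype.card F = q) (hr2 : r ≠ 2) (hrp : r ≠ p)
    (hQ : PolarNondeg Q) {d : ℕ} (hcard : Fintype.card ι' = 2 * d) {c : ℕ} (hc : c = if Even i then i else 2 * i)
    {m : ℕ} (hme : Even m) (hm0 : 0 < m) (hm2 : m < 2 * d) (τ' : Prop)
    (hCrit : (0 < (2 * d) % c ∨ (Lag Q ↔ (¬ Even i ∨ Even ((2 * d) / c)))) →
      (0 < m % c → (m % c < (2 * d) % c ∨ (m % c = (2 * d) % c ∧ (τ' ↔ (Lag Q ↔ ((¬ Even i ∨ Even ((2 * d) / c)) ↔ (¬ Even i ∨ Even (m / c)))))))) ∧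
      (m % c = 0 → (τ' ↔ (¬ Even i ∨ Even (m / c)))))
    (x : ↥(Cfsg.isometryGroup F ⇑Q)) (hx : orderOf x = r) :
    ∃ U : Submodule F (ι' → F), finrank F U = m ∧ Cfsg.Geo.IsNondegenerateOn (polar ⇑Q) U ∧
      (Cfsg.Geo.IsPlusTypeOn ⇑Q U ↔ τ') ∧ U.map (Matrix.toLin' ((x : GL ι' F) : Matrix ι' ι' F)) ≤ U := by
  classical
  have hr : r.Prime := Fact.out
  have hi0 := H.hipos
  have hcpos := c_pos hi0 hc
  obtain ⟨c', hc'⟩ := c_even hc
  obtain ⟨k, hkle, hk0, hcx, hk⟩ := exists_tuple H hr hrp Q hQ x hx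
  rw [hcard] at hkle
  obtain ⟨b, hb, hbs⟩ := exists_b_of_sum H hc k hk
  have hfullb : c * b = 2 * d → (Lag Q ↔ (¬ Even i ∨ Even b)) := by
    intro h
    have h1 := lag_of_full H hF hr hr2 hrp Q hQ x hx hcx (by rw [hb, hcard, h])
    by_cases hev : Even i
    · rwa [hbs hev] at h1
    · simp only [hev, not_false_eq_true, true_or, iff_true] at h1 ⊢
      exact h1
  obtain ⟨K, hKdef⟩ : ∃ K, K = (2 * d) / c := ⟨_, rfl⟩
  obtain ⟨k₁, hk₁def⟩ : ∃ k₁, k₁ = (2 * d) % c := ⟨_, rfl⟩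
  obtain ⟨a₀, ha₀def⟩ : ∃ a₀, a₀ = m / c := ⟨_, rfl⟩
  obtain ⟨l, hldef⟩ : ∃ l, l = m % c := ⟨_, rfl⟩
  rw [← hKdef, ← hk₁def, ← ha₀def, ← hldef] at hCrit
  have hdn : c * K + k₁ = 2 * d := by
    rw [hKdef, hk₁def]
    exact Nat.div_add_mod _ _
  have hdm : c * a₀ + l = m := by
    rw [ha₀def, hldef]
    exact Nat.div_add_mod _ _
  have hk₁lt : k₁ < c := by
    rw [hk₁def]
    exact Nat.mod_lt _ hcpos
  have hllt : l < c := by
    rw [hldef]
    exact Nat.mod_lt _ hcpos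
  have hbK : b ≤ K := by
    by_contra hlt
    have h5 : c * (K + 1) ≤ c * b := Nat.mul_le_mul_left c (by omega)
    rw [mul_add, mul_one] at h5
    omega
  have hlevb : ∀ z, c * z = 2 * (c' * z) := fun z => by rw [hc']; ring
  obtain ⟨m', hm'⟩ := hme
  have hleven : ∃ e, l = 2 * e := by
    refine ⟨c' * a₀ + l / 2 - c' * a₀, ?_⟩
    have := hlevb a₀
    omega
  obtain ⟨e₁, he₁⟩ := hleven
  have hgood : b = K → (0 < k₁ ∨ (Lag Q ↔ (¬ Even i ∨ Even K))) := by
    intro hbe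
    by_cases h0 : 0 < k₁
    · exact Or.inl h0
    · refine Or.inr ?_
      rw [← hbe]
      exact hfullb (by rw [hbe]; omega)
  by_cases hba : b < a₀
  · -- all the blocks
    have hle : c * (b + 1) ≤ c * a₀ := Nat.mul_le_mul_left c hba
    rw [mul_add, mul_one] at hle
    obtain ⟨e, he⟩ : ∃ e, c * b + 2 * e = m := by
      refine ⟨(m - c * b) / 2, ?_⟩
      have := hlevb b
      omega
    refine inv_of_pick' H hF hr2 hrp hQ hcard hc x hx k hk hcx (a := b) (b := b) (e := e) hb le_rfl he (by omega) τ' (fun he0 => ?_) (fun h => ?_)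
    · omega
    · omega
  have hab : a₀ ≤ b := by omega
  rcases Nat.eq_zero_or_pos l with hl0 | hlpos
  · by_cases hτ0 : τ' ↔ (¬ Even i ∨ Even a₀)
    · refine inv_of_pick' H hF hr2 hrp hQ hcard hc x hx k hk hcx (a := a₀) (b := b) (e := 0) hb hab (by omega) ?_ τ' (fun _ => hτ0) (fun h => ?_)
      · have h5 : c * b ≤ c * K := Nat.mul_le_mul_left c hbK
        omega
      · exact prop_aux1 hτ0 (hfullb (by omega))
    · have hbad : ¬ (0 < k₁ ∨ (Lag Q ↔ (¬ Even i ∨ Even K))) := fun h => hτ0 ((hCrit h).2 hl0)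
      obtain ⟨hk₁0, hbad'⟩ := not_or.1 hbad
      have hbne : b ≠ K := fun h => hbad (hgood h)
      have hbK' : b + 1 ≤ K := by omega
      have hle : c * (b + 1) ≤ c * K := Nat.mul_le_mul_left c hbK'
      rw [mul_add, mul_one] at hle
      have ha₀pos : 1 ≤ a₀ := by
        by_contra h0
        have h1 : a₀ = 0 := by omega
        rw [h1, mul_zero] at hdm
        omega
      obtain ⟨a₁, rfl⟩ : ∃ a₁, a₀ = a₁ + 1 := ⟨a₀ - 1, by omega⟩
      refine inv_of_pick' H hF hr2 hrp hQ hcard hc x hx k hk hcx (a := a₁) (b := b) (e := c') hb (by omega) ?_ ?_ τ' (fun he0 => ?_) (fun h => ?_)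
      · rw [mul_add, mul_one] at hdm
        omega
      · omega
      · omega
      · have hbe : K = b + 1 := by
          by_contra hne
          have h1 : b + 2 ≤ K := by omega
          have h3 : c * (b + 2) ≤ c * K := Nat.mul_le_mul_left c h1
          rw [mul_add] at h3
          omega
        rw [hbe] at hbad'
        by_cases hev : Even i
        · simp only [hev, not_true_eq_false, false_or, Nat.even_add_one] at hτ0 hbad' ⊢
          exact prop_aux4 hτ0 hbad'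
        · simp only [hev, not_false_eq_true, true_or, iff_true] at hτ0 hbad' ⊢
          exact iff_of_false hτ0 hbad'
  · -- the residue
    have hdimb : c * b + l ≤ 2 * d := by
      by_cases hbe : b = K
      · rw [hbe]
        rcases (hCrit (hgood hbe)).1 hlpos with h5 | ⟨h5, -⟩ <;> omega
      · have hbK' : b + 1 ≤ K := by omega
        have hle : c * (b + 1) ≤ c * K := Nat.mul_le_mul_left c hbK'
        rw [mul_add, mul_one] at hle
        omega
    refine inv_of_pick' H hF hr2 hrp hQ hcard hc x hx k hk hcx (a := a₀) (b := b) (e := e₁) hb hab (by omega) (by omega) τ' (fun he0 => ?_) (fun h => ?_)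
    · omega
    · have hbe : b = K := by
        by_contra hne
        have hbK' : b + 1 ≤ K := by omega
        have hle : c * (b + 1) ≤ c * K := Nat.mul_le_mul_left c hbK'
        rw [mul_add, mul_one] at hle
        omega
      rw [hbe]
      rcases (hCrit (hgood hbe)).1 hlpos with h5 | ⟨-, h5⟩
      · rw [hbe] at h
        omega
      · exact h5

/-- The complement of a nondegenerate invariant subspace containing the fixed space. -/
theorem plus_of_fix (H : Data q r i t D) (hF : Fintype.card F = q) (hr2 : r ≠ 2) (hrp : r ≠ p)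
    (hQ : PolarNondeg Q) {d : ℕ} (hcard : Fintype.card ι' = 2 * d) (x : ↥(Cfsg.isometryGroup F ⇑Q)) (hx : orderOf x = r)
    (W : Submodule F (ι' → F)) (hW : Cfsg.Geo.IsNondegenerateOn (polar (⇑Q)) W)
    (hinv : W.map (Matrix.toLin' ((x : GL ι' F) : Matrix ι' ι' F)) ≤ W) (hfix : Fix (Matrix.toLin' ((x : GL ι' F) : Matrix ι' ι' F)) ≤ W)
    {w : ℕ} (hWd : finrank F W = 2 * w) :
    ∃ k'' : D → ℕ, (∀ d, k'' (starD H d) = k'' d) ∧ finrank F W + i * ∑ d, k'' d = 2 * d ∧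
      (Lag Q ↔ (Cfsg.Geo.IsPlusTypeOn (⇑Q) W ↔ (¬ Even i ∨ Even (∑ d, k'' d)))) := by
  classical
  have hr : r.Prime := Fact.out
  have hn := polarNondeg_of_on hW
  obtain ⟨P, hP, hsup, hinf, hd, hPn⟩ := exists_orth_gen Q hQ W hn
  rw [Module.finrank_fintype_fun_eq_card, hcard] at hd
  have hact : ∀ v ∈ W, act x v ∈ W := fun v hv => hinv ⟨v, hv, rfl⟩
  have hgW : gMap x W = W := gMap_eq_of_le hact
  have hPinv : P.map (Matrix.toLin' ((x : GL ι' F) : Matrix ι' ι' F)) ≤ P := by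
    rintro _ ⟨y, hy, rfl⟩
    rw [hP]
    intro a ha
    rw [← hgW] at ha
    obtain ⟨a', ha', rfl⟩ := mem_gMap.1 ha
    have h1 := polar_act x a' y
    rw [Matrix.toLin'_apply]
    show polar (⇑Q) (act x a') (act x y) = 0
    rw [h1]
    exact (hP y).1 hy a' ha'
  have hPon : Cfsg.Geo.IsNondegenerateOn (polar (⇑Q)) P := by
    have h1 := (transfer Q (φ := P.subtype) hPn (fun w => rfl)).2.1
    rwa [Submodule.range_subtype] at h1
  obtain ⟨k'', h1, h3, h4⟩ := nondeg_split H hF hr hr2 hrp Q x hx P hPon hPinv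
  have hzero : finrank F ↥(P ⊓ Fix (Matrix.toLin' ((x : GL ι' F) : Matrix ι' ι' F))) = 0 := by
    rw [Submodule.finrank_eq_zero, eq_bot_iff]
    rintro v ⟨hv1, hv2⟩
    have : v ∈ W ⊓ P := ⟨hfix hv2, hv1⟩
    rwa [hinf] at this
  rw [hzero, zero_add] at h3
  obtain ⟨h5, h6⟩ := h4 hzero
  refine ⟨k'', h1, by omega, ?_⟩
  have hev2 : Even (i * ∑ d, k'' d) := even_mul_sum H k'' h1
  obtain ⟨z, hz⟩ := hev2
  have h7 := lag_sup_iff' hQ hsup hinf (fun a ha b hb => (hP b).1 hb a ha) hWd (b := z) (by omega)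
  rw [← lag_iff_plus hn, ← lag_iff_plus hPn] at h7
  rw [h7]
  by_cases hev : Even i
  · rw [h6 hev]
    simp [hev]
  · have h8 := h5 hev
    simp [hev, h8]

/-- The forward direction for even `m`. -/
theorem nondeg_forward (H : Data q r i t D) (ht0 : 0 < t) (hF : Fintype.card F = q) (hr2 : r ≠ 2) (hrp : r ≠ p)
    (hQ : PolarNondeg Q) {d : ℕ} (hcard : Fintype.card ι' = 2 * d) (hc4 : Fintype.card ι' ≠ 4) (hne : Nonempty ι') {c : ℕ} (hc : c = if Even i then i else 2 * i)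
    {m : ℕ} (hme : Even m) (hm2 : m < 2 * d) (τ' : Prop) (hK : 0 < (2 * d) / c)
    (hH : ∀ x : ↥(Cfsg.isometryGroup F ⇑Q), x ∈ Cfsg.Omega F ⇑Q → orderOf x = r →
      ∃ U : Submodule F (ι' → F), finrank F U = m ∧ Cfsg.Geo.IsNondegenerateOn (polar ⇑Q) U ∧
      (Cfsg.Geo.IsPlusTypeOn ⇑Q U ↔ τ') ∧ U.map (Matrix.toLin' ((x : GL ι' F) : Matrix ι' ι' F)) ≤ U) :
    (0 < (2 * d) % c ∨ (Lag Q ↔ (¬ Even i ∨ Even ((2 * d) / c)))) →
      (0 < m % c → (m % c < (2 * d) % c ∨ (m % c = (2 * d) % c ∧ (τ' ↔ (Lag Q ↔ ((¬ Even i ∨ Even ((2 * d) / c)) ↔ (¬ Even i ∨ Even (m / c)))))))) ∧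
      (m % c = 0 → (τ' ↔ (¬ Even i ∨ Even (m / c)))) := by
  classical
  have hr : r.Prime := Fact.out
  have hi0 := H.hipos
  have hcpos := c_pos hi0 hc
  obtain ⟨K, hKdef⟩ : ∃ K, K = (2 * d) / c := ⟨_, rfl⟩
  obtain ⟨k₁, hk₁def⟩ : ∃ k₁, k₁ = (2 * d) % c := ⟨_, rfl⟩
  obtain ⟨a₀, ha₀def⟩ : ∃ a₀, a₀ = m / c := ⟨_, rfl⟩
  obtain ⟨l, hldef⟩ : ∃ l, l = m % c := ⟨_, rfl⟩
  rw [← hKdef] at hK
  rw [← hKdef, ← hk₁def, ← ha₀def, ← hldef]
  have hdn : c * K + k₁ = 2 * d := by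
    rw [hKdef, hk₁def]
    exact Nat.div_add_mod _ _
  have hdm : c * a₀ + l = m := by
    rw [ha₀def, hldef]
    exact Nat.div_add_mod _ _
  have hk₁lt : k₁ < c := by
    rw [hk₁def]
    exact Nat.mod_lt _ hcpos
  have hllt : l < c := by
    rw [hldef]
    exact Nat.mod_lt _ hcpos
  intro hgood
  obtain ⟨k₀, h5, h6, h7⟩ := exists_blocks H ht0 hc hK
  have hk₀K : Even i → ∑ d, k₀ d = K := by
    intro hev
    rw [hc, if_pos hev] at h7
    exact Nat.eq_of_mul_eq_mul_left hi0 h7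
  obtain ⟨x, hxΩ, hxo, hxc⟩ := exists_x_even H hF hr hr2 hrp Q hQ hcard hc4 hne k₀ h5 h6 (by rw [h7]; omega) (fun h => by
    have hk0 : ¬ 0 < k₁ := by
      rw [h7] at h
      omega
    have h8 := hgood.resolve_left hk0
    by_cases hev : Even i
    · rw [hk₀K hev]
      exact h8
    · simp only [hev, not_false_eq_true, true_or, iff_true] at h8 ⊢
      exact h8)
  obtain ⟨W, hWm, hWn, hWt, hWi⟩ := hH x hxΩ hxo
  obtain ⟨k', hk', hfr, hf0⟩ := nondeg_split H hF hr hr2 hrp Q x hxo W hWn hWi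
  obtain ⟨T, hTdef⟩ : ∃ T, T = Matrix.toLin' ((x : GL ι' F) : Matrix ι' ι' F) := ⟨_, rfl⟩
  rw [← hTdef] at hfr hf0 hWi
  have hTr : T ^ r = 1 := by
    rw [hTdef]
    exact toLin_pow_eq_one Q x (by rw [← hxo]; exact pow_orderOf_eq_one x)
  have hcT : LinearMap.charpoly T = polyOf D i (Fintype.card ι') k₀ := by
    rw [hTdef, Matrix.charpoly_toLin', hxc]
  have hfix := finrank_Fix_of_polyOf H hr hrp T hTr hcT
  rw [hcard, h7] at hfix
  obtain ⟨f, hfdef⟩ : ∃ f, f = finrank F ↥(W ⊓ Fix T) := ⟨_, rfl⟩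
  rw [← hfdef] at hfr hf0
  have hfle : f ≤ k₁ := by
    have h8 : finrank F ↥(W ⊓ Fix T) ≤ finrank F (Fix T) := Submodule.finrank_mono inf_le_right
    omega
  obtain ⟨a, ha, hasum⟩ := exists_b_of_sum H hc k' hk'
  rw [hWm, ha] at hfr
  have hlf : l = f := by
    rw [hldef, hfr, Nat.add_mul_mod_self_left, Nat.mod_eq_of_lt (by omega)]
  have haa : a₀ = a := by
    rw [ha₀def, hfr, Nat.add_mul_div_left _ _ hcpos, Nat.div_eq_of_lt (by omega), zero_add]
  subst hlf haa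
  refine ⟨fun hlpos => ?_, fun hl0 => ?_⟩
  · by_cases hlt : l < k₁
    · exact Or.inl hlt
    refine Or.inr ⟨by omega, ?_⟩
    have hle : Fix T ≤ W := by
      have h8 : W ⊓ Fix T = Fix T := Submodule.eq_of_le_of_finrank_eq inf_le_right (by omega)
      exact inf_eq_right.1 h8
    obtain ⟨m', hm'⟩ := hme
    obtain ⟨k'', h8, h9, h10⟩ := plus_of_fix H hF hr2 hrp hQ hcard x hxo W hWn (by rw [← hTdef]; exact hWi) (by rw [← hTdef]; exact hle) (w := m') (by omega)
    refine prop_aux3 hWt ?_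
    by_cases hev : Even i
    · have h11 : c = i := by rw [hc, if_pos hev]
      have h12 : ∑ d, k'' d + a₀ = K := by
        have h13 : i * (∑ d, k'' d + a₀) = i * K := by
          rw [mul_add, ← h11]
          rw [← h11] at h9
          rw [hWm] at h9
          omega
        exact Nat.eq_of_mul_eq_mul_left hi0 h13
      rw [h10]
      simp only [hev, not_true_eq_false, false_or] at ⊢
      rw [← h12, Nat.even_add]
      exact prop_aux5
    · simp only [hev, not_false_eq_true, true_or, iff_true] at h10 ⊢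
      exact h10
  · obtain ⟨h8, h9⟩ := hf0 (by omega)
    by_cases hev : Even i
    · have h10 := h9 hev
      rw [hasum hev] at h10
      simp only [hev, not_true_eq_false, false_or]
      exact hWt.symm.trans h10
    · simp only [hev, not_false_eq_true, true_or, iff_true]
      exact hWt.1 (h8 hev)

/-- If all fixed spaces are everything. -/
theorem small_top_P {d : ℕ} (hF : Fintype.card F = q) (hQ : PolarNondeg Q) (hcard : Fintype.card ι' = 2 * d) (hd : 1 ≤ d)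
    (hr2 : r ≠ 2) (hrp : r ≠ p) (hx0 : (q : ZMod r) ≠ 0)
    (hi : i = orderOf (q : ZMod r)) (hi1 : i ≠ 1)
    (P : Submodule F (ι' → F) → Prop) (hP1 : ∀ (g : ↥(Cfsg.isometryGroup F ⇑Q)) W, P W → P (gMap g W))
    (hP2 : ∀ W W', P W → P W' → ∃ φ : W ≃ₗ[F] W', ∀ x : W, Q (φ x : ι' → F) = Q (x : ι' → F))
    (hex : ∃ W, P W)
    (hy : ∀ y, FixNum i d (Lag Q) y → 2 * d ≤ y) :
    ¬ r ∣ Nat.card {W : Submodule F (ι' → F) // P W} := by
  classical
  let S : Sylow r ↥(Cfsg.isometryGroup F ⇑Q) := default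
  obtain ⟨Y, hY, hYn, h4, h1, h3⟩ := fix_facts_even (p := p) hF hQ hrp S.isPGroup' (by rw [← hi]; exact hi1)
  rw [← hi] at h1
  have hyY := hy _ (fixNum_of (p := p) hF hQ hcard hd hr2 hrp hx0 S.isPGroup' hi hi1 hY h1 h3 h4)
  have hYt : Y = ⊤ := by
    apply Submodule.eq_top_of_finrank_eq
    rw [Module.finrank_fintype_fun_eq_card]
    omega
  obtain ⟨U, hU⟩ := hex
  refine not_dvd_card Q (nondeg_of_polarNondeg _ hQ) P hP1 hP2 S U hU (fun g hg => ?_)
  apply gMap_eq_of_le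
  intro v hv
  have h5 : v ∈ Y := by
    rw [hYt]
    exact Submodule.mem_top
  rw [(hY v).1 h5 g hg]
  exact hv

/-- An element whose fixed space is that of a Sylow subgroup. -/
theorem small_of_x_P (H : Data q r i t D) (ht : t * i = r - 1) (hF : Fintype.card F = q) (hr2 : r ≠ 2) (hrp : r ≠ p)
    (hi : i = orderOf (q : ZMod r)) (hi1 : i ≠ 1)
    (hQ : PolarNondeg Q) {d : ℕ} (hcard : Fintype.card ι' = 2 * d) (hd : 1 ≤ d) (hc4 : Fintype.card ι' ≠ 4) (hne : Nonempty ι')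
    (P : Submodule F (ι' → F) → Prop) (hP1 : ∀ (g : ↥(Cfsg.isometryGroup F ⇑Q)) W, P W → P (gMap g W))
    (hP2 : ∀ W W', P W → P W' → ∃ φ : W ≃ₗ[F] W', ∀ x : W, Q (φ x : ι' → F) = Q (x : ι' → F))
    (hH : ∀ x : ↥(Cfsg.isometryGroup F ⇑Q), x ∈ Cfsg.Omega F ⇑Q → orderOf x = r →
      ∃ U : Submodule F (ι' → F), P U ∧ U.map (Matrix.toLin' ((x : GL ι' F) : Matrix ι' ι' F)) ≤ U)
    (hFix : ∀ x : ↥(Cfsg.isometryGroup F ⇑Q), orderOf x = r → ∀ U, P U → U.map (Matrix.toLin' ((x : GL ι' F) : Matrix ι' ι' F)) ≤ U →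
      U ≤ Fix (Matrix.toLin' ((x : GL ι' F) : Matrix ι' ι' F)))
    (u : D → ℕ) (hu : ∀ d, u (starD H d) = u d) (hu0 : u ≠ 0) (hle : i * ∑ d, u d ≤ 2 * d)
    (hfull : i * ∑ d, u d = 2 * d → (Lag Q ↔ (¬ Even i ∨ Even (∑ d, u d))))
    (hy : ∀ y, FixNum i d (Lag Q) y → 2 * d - i * ∑ d, u d ≤ y) :
    ¬ r ∣ Nat.card {W : Submodule F (ι' → F) // P W} := by
  classical
  have hr : r.Prime := Fact.out
  obtain ⟨x, hxΩ, hxo, hxc⟩ := exists_x_even H hF hr hr2 hrp Q hQ hcard hc4 hne u hu hu0 hle hfull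
  obtain ⟨W, hWP, hWi⟩ := hH x hxΩ hxo
  have hWle := hFix x hxo W hWP hWi
  obtain ⟨T, hTdef⟩ : ∃ T, T = Matrix.toLin' ((x : GL ι' F) : Matrix ι' ι' F) := ⟨_, rfl⟩
  rw [← hTdef] at hWi hWle
  have hTr : T ^ r = 1 := by
    rw [hTdef]
    exact toLin_pow_eq_one Q x (by rw [← hxo]; exact pow_orderOf_eq_one x)
  have hcT : LinearMap.charpoly T = polyOf D i (Fintype.card ι') u := by
    rw [hTdef, Matrix.charpoly_toLin', hxc]
  have hfix := finrank_Fix_of_polyOf H hr hrp T hTr hcT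
  rw [hcard] at hfix
  -- the Sylow subgroup
  have hP : IsPGroup r (Subgroup.zpowers x) := by
    apply IsPGroup.of_card (n := 1)
    rw [Nat.card_zpowers, hxo, pow_one]
  obtain ⟨S, hS⟩ := hP.exists_le_sylow
  have hxS : x ∈ (S : Subgroup ↥(Cfsg.isometryGroup F ⇑Q)) := hS (Subgroup.mem_zpowers x)
  obtain ⟨Y, hY, hYn, h4, h5, h3⟩ := fix_facts_even (p := p) hF hQ hrp S.isPGroup' (by rw [← hi]; exact hi1)
  rw [← hi] at h5
  have hyY := hy _ (fixNum_of (p := p) hF hQ hcard hd hr2 hrp H.hQr.ne_zero S.isPGroup' hi hi1 hY h5 h3 h4)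
  have hYT : Y ≤ Fix T := by
    intro v hv
    rw [mem_Fix, hTdef, Matrix.toLin'_apply]
    exact (hY v).1 hv x hxS
  have hYe : Y = Fix T := Submodule.eq_of_le_of_finrank_le hYT (by rw [hfix]; exact hyY)
  refine not_dvd_card Q (nondeg_of_polarNondeg _ hQ) P hP1 hP2 S W hWP (fun g hg => ?_)
  apply gMap_eq_of_le
  intro w hw
  have h6 : w ∈ Y := by
    rw [hYe]
    exact hWle hw
  rw [(hY w).1 h6 g hg]
  exact hw

/-- Some invariant subspace exists only if the dimension is at least `c`. -/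
theorem no_small_P (H : Data q r i t D) (ht : t * i = r - 1) (ht0 : 0 < t) (hF : Fintype.card F = q) (hr2 : r ≠ 2) (hrp : r ≠ p)
    (hi : i = orderOf (q : ZMod r)) (hi1 : i ≠ 1)
    (hQ : PolarNondeg Q) {d : ℕ} (hcard : Fintype.card ι' = 2 * d) (hd : 1 ≤ d) (hc4 : Fintype.card ι' ≠ 4) (hne : Nonempty ι') {c : ℕ} (hc : c = if Even i then i else 2 * i)
    (P : Submodule F (ι' → F) → Prop) (hP1 : ∀ (g : ↥(Cfsg.isometryGroup F ⇑Q)) W, P W → P (gMap g W))
    (hP2 : ∀ W W', P W → P W' → ∃ φ : W ≃ₗ[F] W', ∀ x : W, Q (φ x : ι' → F) = Q (x : ι' → F))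
    (hex : ∃ W, P W)
    (hH : ∀ x : ↥(Cfsg.isometryGroup F ⇑Q), x ∈ Cfsg.Omega F ⇑Q → orderOf x = r →
      ∃ U : Submodule F (ι' → F), P U ∧ U.map (Matrix.toLin' ((x : GL ι' F) : Matrix ι' ι' F)) ≤ U)
    (hFix : ∀ x : ↥(Cfsg.isometryGroup F ⇑Q), orderOf x = r → ∀ U, P U → U.map (Matrix.toLin' ((x : GL ι' F) : Matrix ι' ι' F)) ≤ U →
      U ≤ Fix (Matrix.toLin' ((x : GL ι' F) : Matrix ι' ι' F)))
    (hrΩ : r ∣ Nat.card {W : Submodule F (ι' → F) // P W}) : False := by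
  classical
  have hi0 := H.hipos
  have hcpos := c_pos hi0 hc
  obtain ⟨K, hKdef⟩ : ∃ K, K = (2 * d) / c := ⟨_, rfl⟩
  obtain ⟨k₁, hk₁def⟩ : ∃ k₁, k₁ = (2 * d) % c := ⟨_, rfl⟩
  have hdn : c * K + k₁ = 2 * d := by
    rw [hKdef, hk₁def]
    exact Nat.div_add_mod _ _
  have hk₁lt : k₁ < c := by
    rw [hk₁def]
    exact Nat.mod_lt _ hcpos
  -- the numbers
  have hnum : ∀ y, FixNum i d (Lag Q) y → ∃ b, y = c * b + k₁ ∧ b ≤ K := by
    rintro y ⟨h1, h3, h4, -⟩
    have hcd : c ∣ 2 * d - y := by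
      by_cases hev : Even i
      · rw [hc, if_pos hev]
        exact h3
      · rw [hc, if_neg hev]
        have hcop : Nat.Coprime 2 i := by
          rw [Nat.coprime_two_left]
          exact Nat.not_even_iff_odd.1 hev
        exact hcop.mul_dvd_of_dvd_of_dvd h4.two_dvd h3
    obtain ⟨e, he⟩ := hcd
    have hle : e ≤ K := by
      by_contra hlt
      have h5 : c * (K + 1) ≤ c * e := Nat.mul_le_mul_left c (by omega)
      rw [mul_add, mul_one] at h5
      omega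
    refine ⟨K - e, ?_, by omega⟩
    have h5 : c * (K - e) + c * e = c * K := by
      rw [← mul_add]
      congr 1
      omega
    omega
  refine absurd hrΩ ?_
  rcases Nat.eq_zero_or_pos K with hK0 | hK
  · refine small_top_P (p := p) hF hQ hcard hd hr2 hrp H.hQr.ne_zero hi hi1 P hP1 hP2 hex (fun y hy => ?_)
    obtain ⟨b, h1, h3⟩ := hnum y hy
    have hb : b = 0 := by omega
    rw [hb, mul_zero, zero_add] at h1
    rw [hK0, mul_zero, zero_add] at hdn
    omega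
  obtain ⟨k₀, h5, h6, h7⟩ := exists_blocks H ht0 hc hK
  have hk₀K : Even i → ∑ d, k₀ d = K := by
    intro hev
    rw [hc, if_pos hev] at h7
    exact Nat.eq_of_mul_eq_mul_left hi0 h7
  by_cases hgood : 0 < k₁ ∨ (Lag Q ↔ (¬ Even i ∨ Even (∑ d, k₀ d)))
  · refine small_of_x_P H ht hF hr2 hrp hi hi1 hQ hcard hd hc4 hne P hP1 hP2 hH hFix k₀ h5 h6 (by rw [h7]; omega) (fun h => ?_) (fun y hy => ?_)
    · rcases hgood with h8 | h8
      · omega
      · exact h8
    · obtain ⟨b, h1, h3⟩ := hnum y hy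
      rw [h7]
      omega
  · obtain ⟨hk₁0, hbad⟩ := not_or.1 hgood
    have hk₁e : k₁ = 0 := by omega
    -- the fixed spaces are nonzero
    have hy0 : ∀ y, FixNum i d (Lag Q) y → y ≠ 0 := by
      intro y hy h0
      obtain ⟨-, -, -, h8⟩ := hy
      obtain ⟨h9, h10⟩ := h8 h0
      apply hbad
      by_cases hev : Even i
      · obtain ⟨j, hj⟩ := hev
        have h11 : d = j * K := by
          have h12 := hk₀K ⟨j, hj⟩
          have hci : c = j + j := by
            rw [hc, if_pos ⟨j, hj⟩, hj]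
          rw [hk₁e, add_zero, hci] at hdn
          have h13 : (j + j) * K = 2 * (j * K) := by ring
          omega
        rw [h9 j K hj h11, hk₀K ⟨j, hj⟩]
        have hev' : Even i := ⟨j, hj⟩
        simp only [hev', not_true_eq_false, false_or]
      · have h11 : i ∣ d := by
          have hci : c = 2 * i := by
            rw [hc, if_neg hev]
          rw [hk₁e, add_zero, hci] at hdn
          have h13 : 2 * i * K = 2 * (i * K) := by ring
          exact ⟨K, by omega⟩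
        exact iff_of_true (h10 hev h11) (Or.inl hev)
    rcases Nat.lt_or_ge 1 K with hK2 | hK1
    · obtain ⟨K', rfl⟩ : ∃ K', K = K' + 1 := ⟨K - 1, by omega⟩
      obtain ⟨k₂, h8, h9, h10⟩ := exists_blocks H ht0 hc (K := K') (by omega)
      have hcK : c * (K' + 1) = c * K' + c := by ring
      refine small_of_x_P H ht hF hr2 hrp hi hi1 hQ hcard hd hc4 hne P hP1 hP2 hH hFix k₂ h8 h9 (by rw [h10]; omega) (fun h => by omega) (fun y hy => ?_)
      obtain ⟨b, h1, h3⟩ := hnum y hy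
      have h11 := hy0 y hy
      rw [h10]
      have hb : 1 ≤ b := by
        by_contra h0
        have hb0 : b = 0 := by omega
        rw [hb0, mul_zero, zero_add] at h1
        omega
      have h12 : c * 1 ≤ c * b := Nat.mul_le_mul_left c hb
      omega
    · have hKe : K = 1 := by omega
      refine small_top_P (p := p) hF hQ hcard hd hr2 hrp H.hQr.ne_zero hi hi1 P hP1 hP2 hex (fun y hy => ?_)
      obtain ⟨b, h1, h3⟩ := hnum y hy
      have h11 := hy0 y hy
      have hb : b = 1 := by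
        by_contra h0
        have hb0 : b = 0 := by omega
        rw [hb0, mul_zero, zero_add] at h1
        omega
      rw [hb, mul_one] at h1
      rw [hKe, mul_one] at hdn
      omega

/-- Small nondegenerate invariant subspaces lie in the fixed space. -/
theorem le_fix_of_small (H : Data q r i t D) (hF : Fintype.card F = q) (hr2 : r ≠ 2) (hrp : r ≠ p) {c : ℕ} (hc : c = if Even i then i else 2 * i)
    {m : ℕ} (hmc : m < c) (x : ↥(Cfsg.isometryGroup F ⇑Q)) (hx : orderOf x = r) (U : Submodule F (ι' → F)) (hUm : finrank F U = m)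
    (hU : Cfsg.Geo.IsNondegenerateOn (polar ⇑Q) U) (hinv : U.map (Matrix.toLin' ((x : GL ι' F) : Matrix ι' ι' F)) ≤ U) :
    U ≤ Fix (Matrix.toLin' ((x : GL ι' F) : Matrix ι' ι' F)) := by
  have hr : r.Prime := Fact.out
  have hcpos := c_pos H.hipos hc
  obtain ⟨k', hk', hfr, -⟩ := nondeg_split H hF hr hr2 hrp Q x hx U hU hinv
  obtain ⟨a, ha, -⟩ := exists_b_of_sum H hc k' hk'
  rw [ha] at hfr
  have ha0 : a = 0 := by
    by_contra h0
    have h5 : c * 1 ≤ c * a := Nat.mul_le_mul_left c (by omega)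
    omega
  rw [ha0, mul_zero, add_zero] at hfr
  have h5 : U ⊓ Fix (Matrix.toLin' ((x : GL ι' F) : Matrix ι' ι' F)) = U := Submodule.eq_of_le_of_finrank_eq inf_le_left hfr.symm
  exact inf_eq_left.1 h5

end Main

end Cfsg.Agent.Lib.Classical.OSemi.NondegF
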