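import Mathlib
import Cfsg.Agent.Lib.Classical.OSemi.NondegF

/-!
# Statement level results for nondegenerate subspaces, for odd `r ≠ p`
-/

set_option autoImplicit false
set_option linter.unusedSectionVars false
set_option linter.unusedSimpArgs false
set_option linter.unusedVariables false
set_option linter.style.haveILetI false
set_option maxHeartbeats 1000000

open Polynomial Module QuadraticMap Matrix
open Cfsg Cfsg.Agent.Lib.Classical.Herm.CycTuples Cfsg.Agent.Lib.Classical.Witt.Hyp Cfsg.Agent.Lib.Linalg.OrthModels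
open Cfsg.Agent.Lib.Classical.Herm.OrthBlock Cfsg.Agent.Lib.Classical.Herm.OrthEmbed Cfsg.Agent.Lib.Linalg.Bridge
open Cfsg.Agent.Lib.Classical.Herm.OrthType Cfsg.Agent.Lib.Classical.Herm.OrthCount Cfsg.Agent.Lib.Classical.Witt.Index
open Cfsg.Agent.Lib.Classical.Herm.OrthFinal Cfsg.Agent.Lib.Classical.OSemi.Ext Cfsg.Agent.Lib.Classical.OSemi.Lag
open Cfsg.Agent.Lib.Classical.OSemi.Nondeg Cfsg.Agent.Lib.Classical.Elusive.Inv Cfsg.Agent.Lib.Classical.Elusive.SpCore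
open Cfsg.Agent.Lib.Classical.OSemi.Decomp Cfsg.Agent.Lib.Classical.Elusive.PslNum
open Cfsg.Agent.Lib.Classical.OSemi.Split Cfsg.Agent.Lib.Classical.OSemi.TsModel Cfsg.Agent.Lib.Classical.OSemi.LagFree
open Cfsg.Agent.Lib.Classical.OSemi.SylowFix Cfsg.Agent.Lib.Classical.OSemi.OddForm Cfsg.Agent.Lib.Classical.OSemi.Coprime
open Cfsg.Agent.Lib.Classical.OSemi.Clause Cfsg.Agent.Lib.Classical.OSemi.SingOdd Cfsg.Agent.Lib.Classical.OSemi.EvenX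
open Cfsg.Agent.Lib.Classical.OSemi.SingEvenF Cfsg.Agent.Lib.Classical.OSemi.NondegE Cfsg.Agent.Lib.Classical.OSemi.NondegF
open Cfsg.Agent.Lib.Classical.OSemi.SingInvE
open Cfsg.Agent.Lib.Classical.Witt.TS
open Cfsg.Agent.Lib.Classical.Orth.Basic Cfsg.Agent.Lib.Classical.Orth.Classes Cfsg.Agent.Lib.Classical.Orth.Adjust

namespace Cfsg.Agent.Lib.Classical.OSemi.NondegG

universe u

variable {ι' : Type} [Fintype ι'] [DecidableEq ι'] {F : Type u} [Field F] [Fintype F]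
variable {Q : QuadraticForm F (ι' → F)}
variable {p : ℕ} [Fact p.Prime] [CharP F p]

/-- From elements of order `r` to the statement. -/
theorem backward_reduce_P (hQ : PolarNondeg Q) [Nonempty ι'] {r : ℕ} [Fact r.Prime] (hr2 : r ≠ 2) (P : Submodule F (ι' → F) → Prop)
    (hH : ∀ x : ↥(Cfsg.isometryGroup F ⇑Q), x ∈ Cfsg.Omega F ⇑Q → orderOf x = r →
      ∃ U : Submodule F (ι' → F), P U ∧ U.map (Matrix.toLin' ((x : GL ι' F) : Matrix ι' ι' F)) ≤ U)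
    (g : ↥(Cfsg.isometryGroup F ⇑Q)) (hg : g ∈ Cfsg.Omega F ⇑Q) {z : F} (hz : (((g : GL ι' F) ^ r : GL ι' F) : Matrix ι' ι' F) = z • (1 : Matrix ι' ι' F))
    (hns : ∀ z : F, ((g : GL ι' F) : Matrix ι' ι' F) ≠ z • (1 : Matrix ι' ι' F)) :
    ∃ U : Submodule F (ι' → F), P U ∧ U.map (Matrix.toLin' ((g : GL ι' F) : Matrix ι' ι' F)) ≤ U := by
  have hr : r.Prime := Fact.out
  have hzz : z * z = 1 := scalar_sq hQ hz (fun v => by
    have h1 := Q_act (g ^ r) v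
    have h3 : ((((g ^ r : ↥(Cfsg.isometryGroup F ⇑Q)) : GL ι' F)) : Matrix ι' ι' F) = (((g : GL ι' F) ^ r : GL ι' F) : Matrix ι' ι' F) := rfl
    rw [act, h3] at h1
    exact h1)
  obtain ⟨k, hk⟩ := hr.odd_of_ne_two hr2
  have hy : (((g ^ (r + 1) : ↥(Cfsg.isometryGroup F ⇑Q)) : GL ι' F) : Matrix ι' ι' F) = z • ((g : GL ι' F) : Matrix ι' ι' F) := by
    have h1 : (((g ^ (r + 1) : ↥(Cfsg.isometryGroup F ⇑Q)) : GL ι' F) : Matrix ι' ι' F) = (((g : GL ι' F) ^ r : GL ι' F) : Matrix ι' ι' F) * ((g : GL ι' F) : Matrix ι' ι' F) := by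
      rw [pow_succ]
      rfl
    rw [h1, hz, Matrix.smul_mul, Matrix.one_mul]
  have hyr : (g ^ (r + 1)) ^ r = 1 := by
    apply Subtype.ext
    apply Units.ext
    have h1 : ((((g ^ (r + 1)) ^ r : ↥(Cfsg.isometryGroup F ⇑Q)) : GL ι' F) : Matrix ι' ι' F) = ((((g : GL ι' F) ^ r : GL ι' F) : Matrix ι' ι' F)) ^ (r + 1) := by
      rw [← pow_mul, mul_comm, pow_mul]
      rfl
    rw [h1, hz, _root_.smul_pow, one_pow]
    have h3 : z ^ (r + 1) = 1 := by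
      rw [hk, show 2 * k + 1 + 1 = 2 * (k + 1) by ring, pow_mul, pow_two, hzz, one_pow]
    rw [h3, one_smul]
    rfl
  have hy1 : g ^ (r + 1) ≠ 1 := by
    intro h
    have h1 := hy
    rw [h] at h1
    have h3 : ((g : GL ι' F) : Matrix ι' ι' F) = z • (1 : Matrix ι' ι' F) := by
      have h4 : z • (z • ((g : GL ι' F) : Matrix ι' ι' F)) = z • (1 : Matrix ι' ι' F) := by
        rw [← h1]
        rfl
      rw [smul_smul, hzz, one_smul] at h4
      exact h4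
    exact hns z h3
  obtain ⟨U, h3, h4⟩ := hH (g ^ (r + 1)) (Subgroup.pow_mem _ hg _) (orderOf_eq_prime hyr hy1)
  refine ⟨U, h3, ?_⟩
  rintro _ ⟨u, hu, rfl⟩
  have h5 : (Matrix.toLin' (((g ^ (r + 1) : ↥(Cfsg.isometryGroup F ⇑Q)) : GL ι' F) : Matrix ι' ι' F)) u ∈ U := h4 ⟨u, hu, rfl⟩
  rw [hy, Matrix.toLin'_apply, Matrix.smul_mulVec] at h5
  rw [Matrix.toLin'_apply]
  have h6 := U.smul_mem z h5
  rwa [smul_smul, hzz, one_smul] at h6

/-- Existence of a subspace of even dimension with a given type. -/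
theorem exists_typed_sub (hQ : PolarNondeg Q) {d m : ℕ} (hcard : Fintype.card ι' = 2 * d) (hme : Even m) (hm0 : 0 < m) (hm : m < 2 * d) (τ' : Prop) :
    ∃ W : Submodule F (ι' → F), finrank F W = m ∧ Cfsg.Geo.IsNondegenerateOn (polar ⇑Q) W ∧ (Cfsg.Geo.IsPlusTypeOn ⇑Q W ↔ τ') := by
  obtain ⟨e, he⟩ := hme
  obtain ⟨P, _, _, _, QP, hPn, hPd, hPτ⟩ := exists_typed (F := F) e τ' (fun h => by omega)
  obtain ⟨ι₀, hι₀⟩ := emb_even hQ hcard QP hPn hPd (by omega) (even_two_mul e) (fun h => by omega)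
  obtain ⟨t1, t2, t3⟩ := transfer Q hPn ι₀ hι₀
  exact ⟨LinearMap.range ι₀, by omega, t2, t3.trans hPτ⟩

/-- The forward direction for even dimension. -/
theorem even_forward {q r i : ℕ} [Fact r.Prime] (hq : Fintype.card F = q) (hr2 : r ≠ 2) (hrp : r ≠ p) (hi : i = orderOf (q : ZMod r))
    (hQ : PolarNondeg Q) {d : ℕ} (hcard : Fintype.card ι' = 2 * d) (hc4 : Fintype.card ι' ≠ 4) [hne : Nonempty ι'] {c : ℕ} (hc : c = if Even i then i else 2 * i)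
    {m : ℕ} (hme : Even m) (hm2 : 2 ≤ m) (hm : m < 2 * d) (τ' : Prop)
    (hrΩ : r ∣ Nat.card {W : Submodule F (ι' → F) // finrank F W = m ∧ Cfsg.Geo.IsNondegenerateOn (polar ⇑Q) W ∧ (Cfsg.Geo.IsPlusTypeOn ⇑Q W ↔ τ')})
    (hH : ∀ x : GL ι' F, x ∈ Cfsg.Geo.omegaGL (⇑Q) →
      (∃ z : F, ((x ^ r : GL ι' F) : Matrix ι' ι' F) = z • (1 : Matrix ι' ι' F)) →
      (∀ z : F, (x : Matrix ι' ι' F) ≠ z • (1 : Matrix ι' ι' F)) →
      ∃ W : Submodule F (ι' → F), (finrank F W = m ∧ Cfsg.Geo.IsNondegenerateOn (polar ⇑Q) W ∧ (Cfsg.Geo.IsPlusTypeOn ⇑Q W ↔ τ')) ∧ W.map (Matrix.toLin' (x : Matrix ι' ι' F)) ≤ W) :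
    c ≤ m ∧ ((0 < (2 * d) % c ∨ (Lag Q ↔ (¬ Even i ∨ Even ((2 * d) / c)))) →
      (0 < m % c → (m % c < (2 * d) % c ∨ (m % c = (2 * d) % c ∧ (τ' ↔ (Lag Q ↔ ((¬ Even i ∨ Even ((2 * d) / c)) ↔ (¬ Even i ∨ Even (m / c)))))))) ∧
      (m % c = 0 → (τ' ↔ (¬ Even i ∨ Even (m / c))))) := by
  classical
  obtain ⟨t, D, ⟨H⟩, ht, ht0, hi0⟩ := exists_setup hq hr2 hrp hi
  have hcpos := c_pos hi0 hc
  have hH' : ∀ x : ↥(Cfsg.isometryGroup F ⇑Q), x ∈ Cfsg.Omega F ⇑Q → orderOf x = r →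
      ∃ U : Submodule F (ι' → F), (finrank F U = m ∧ Cfsg.Geo.IsNondegenerateOn (polar ⇑Q) U ∧ (Cfsg.Geo.IsPlusTypeOn ⇑Q U ↔ τ')) ∧
        U.map (Matrix.toLin' ((x : GL ι' F) : Matrix ι' ι' F)) ≤ U := by
    intro x hx hxr
    obtain ⟨h1, h3⟩ := forward_reduce hQ hr2 x hxr
    exact hH (x : GL ι' F) (Subgroup.mem_map_of_mem _ hx) h1 h3
  have hcm : c ≤ m := by
    by_contra hlt
    have hmc : m < c := by omega
    have hi1 : i ≠ 1 := by
      intro h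
      have : c = 2 := by
        rw [hc, h]
        simp
      omega
    obtain ⟨m', hm'⟩ := hme
    refine no_small_P H ht ht0 hq hr2 hrp hi hi1 hQ hcard (by omega) hc4 hne hc _ ?_ ?_ ?_ hH' ?_ hrΩ
    · rintro g W ⟨h1, h3, h4⟩
      exact ⟨by rw [finrank_gMap, h1], nondeg_gMap g h3, (plus_gMap_iff g).trans h4⟩
    · rintro W W' ⟨h1, h3, h4⟩ ⟨h5, h6, h7⟩
      exact isometric_of_type (w := m') (by omega) (by omega) (by omega) h3 h6 (h4.trans h7.symm)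
    · exact exists_typed_sub hQ hcard ⟨m', hm'⟩ (by omega) hm τ'
    · rintro x hx U ⟨h1, h3, -⟩ hU
      exact le_fix_of_small H hq hr2 hrp hc hmc x hx U h1 h3 hU
  refine ⟨hcm, ?_⟩
  refine nondeg_forward H ht0 hq hr2 hrp hQ hcard hc4 hne hc hme hm τ' (Nat.div_pos (by omega) hcpos) (fun x hx hxr => ?_)
  obtain ⟨U, ⟨h1, h3, h4⟩, h5⟩ := hH' x hx hxr
  exact ⟨U, h1, h3, h4, h5⟩

/-- The backward direction for even dimension. -/
theorem even_backward {q r i : ℕ} [Fact r.Prime] (hq : Fintype.card F = q) (hr2 : r ≠ 2) (hrp : r ≠ p) (hi : i = orderOf (q : ZMod r))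
    (hQ : PolarNondeg Q) {d : ℕ} (hcard : Fintype.card ι' = 2 * d) [hne : Nonempty ι'] {c : ℕ} (hc : c = if Even i then i else 2 * i)
    {m : ℕ} (hme : Even m) (hm2 : 2 ≤ m) (hm : m < 2 * d) (τ' : Prop)
    (hCrit : (0 < (2 * d) % c ∨ (Lag Q ↔ (¬ Even i ∨ Even ((2 * d) / c)))) →
      (0 < m % c → (m % c < (2 * d) % c ∨ (m % c = (2 * d) % c ∧ (τ' ↔ (Lag Q ↔ ((¬ Even i ∨ Even ((2 * d) / c)) ↔ (¬ Even i ∨ Even (m / c)))))))) ∧
      (m % c = 0 → (τ' ↔ (¬ Even i ∨ Even (m / c))))) :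
    ∀ x : GL ι' F, x ∈ Cfsg.Geo.omegaGL (⇑Q) →
      (∃ z : F, ((x ^ r : GL ι' F) : Matrix ι' ι' F) = z • (1 : Matrix ι' ι' F)) →
      (∀ z : F, (x : Matrix ι' ι' F) ≠ z • (1 : Matrix ι' ι' F)) →
      ∃ W : Submodule F (ι' → F), (finrank F W = m ∧ Cfsg.Geo.IsNondegenerateOn (polar ⇑Q) W ∧ (Cfsg.Geo.IsPlusTypeOn ⇑Q W ↔ τ')) ∧ W.map (Matrix.toLin' (x : Matrix ι' ι' F)) ≤ W := by
  classical
  obtain ⟨t, D, ⟨H⟩, ht, ht0, hi0⟩ := exists_setup hq hr2 hrp hi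
  rintro x ⟨g, hg, rfl⟩ ⟨z, hz⟩ hns
  refine backward_reduce_P hQ hr2 _ (fun y hy hyr => ?_) g hg hz hns
  obtain ⟨U, h1, h3, h4, h5⟩ := nondeg_backward H hq hr2 hrp hQ hcard hc hme (by omega) hm τ' hCrit y hyr
  exact ⟨U, ⟨h1, h3, h4⟩, h5⟩

/-- A complement of the image of an isometric map, as an abstract space. -/
theorem exists_compl_abs {X Y : Type u} [AddCommGroup X] [Module F X] [FiniteDimensional F X]
    [AddCommGroup Y] [Module F Y] [FiniteDimensional F Y] (QX : QuadraticForm F X) (hX : PolarNondeg QX) (QY : QuadraticForm F Y) (hY : PolarNondeg QY)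
    (f : Y →ₗ[F] X) (hf : ∀ y, QX (f y) = QY y) :
    ∃ (P : Type u) (_ : AddCommGroup P) (_ : Module F P) (_ : FiniteDimensional F P) (QP : QuadraticForm F P) (e : (Y × P) ≃ₗ[F] X), PolarNondeg QP ∧
      finrank F P + finrank F Y = finrank F X ∧ ∀ v, QX (e v) = (QY.prod QP) v := by
  obtain ⟨P, e, h1, h3, h4⟩ := exists_compl_of_isometric QX hX QY hY f hf
  exact ⟨P, inferInstance, inferInstance, inferInstance, _, e, h1, h3, h4⟩

/-- The backward direction for odd dimension: invariant subspaces. -/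
theorem nondeg_backward_odd {q r i t : ℕ} {D : Finset F[X]} [Fact r.Prime] (H : Data q r i t D) (hF : Fintype.card F = q) (hr2 : r ≠ 2) (hrp : r ≠ p)
    (h2 : (2 : F) ≠ 0) (hQ : PolarNondeg Q) {d : ℕ} (hcard : Fintype.card ι' = 2 * d) {c : ℕ} (hc : c = if Even i then i else 2 * i)
    {m : ℕ} (hmo : ¬ Even m) (hm2 : m < 2 * d) (W₀ : Submodule F (ι' → F)) (hW₀d : finrank F W₀ = m) (hW₀n : Cfsg.Geo.IsNondegenerateOn (polar ⇑Q) W₀)
    (hCrit : (0 < (2 * d) % c ∨ (Lag Q ↔ (¬ Even i ∨ Even ((2 * d) / c)))) → m % c < (2 * d) % c)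
    (x : ↥(Cfsg.isometryGroup F ⇑Q)) (hx : orderOf x = r) :
    ∃ U : Submodule F (ι' → F), (finrank F U = m ∧ Cfsg.Geo.IsNondegenerateOn (polar ⇑Q) U ∧ Cfsg.Geo.AreIsometricFor ⇑Q U W₀) ∧
      U.map (Matrix.toLin' ((x : GL ι' F) : Matrix ι' ι' F)) ≤ U := by
  classical
  have hr : r.Prime := Fact.out
  have hi0 := H.hipos
  have hcpos := c_pos hi0 hc
  obtain ⟨c', hc'⟩ := c_even hc
  obtain ⟨k, hkle, hk0, hcx, hk⟩ := exists_tuple H hr hrp Q hQ x hx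
  rw [hcard] at hkle
  obtain ⟨b, hb, hbs⟩ := exists_b_of_sum H hc k hk
  have hfullb : c * b = 2 * d → (Lag Q ↔ (¬ Even i ∨ Even b)) := by
    intro h
    have h1 := lag_of_full H hF hr hr2 hrp Q hQ x hx hcx (by rw [hb, hcard, h])
    by_cases hev : Even i
    · rwa [hbs hev] at h1
    · simp only [hev, not_false_eq_true, true_or, iff_true] at h1 ⊢
      exact h1
  obtain ⟨K, hKdef⟩ : ∃ K, K = (2 * d) / c := ⟨_, rfl⟩
  obtain ⟨k₁, hk₁def⟩ : ∃ k₁, k₁ = (2 * d) % c := ⟨_, rfl⟩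
  obtain ⟨a₀, ha₀def⟩ : ∃ a₀, a₀ = m / c := ⟨_, rfl⟩
  obtain ⟨l, hldef⟩ : ∃ l, l = m % c := ⟨_, rfl⟩
  rw [← hKdef, ← hk₁def, ← hldef] at hCrit
  have hdn : c * K + k₁ = 2 * d := by
    rw [hKdef, hk₁def]
    exact Nat.div_add_mod _ _
  have hdm : c * a₀ + l = m := by
    rw [ha₀def, hldef]
    exact Nat.div_add_mod _ _
  have hk₁lt : k₁ < c := by
    rw [hk₁def]
    exact Nat.mod_lt _ hcpos
  have hllt : l < c := by
    rw [hldef]
    exact Nat.mod_lt _ hcpos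
  have hbK : b ≤ K := by
    by_contra hlt
    have h5 : c * (K + 1) ≤ c * b := Nat.mul_le_mul_left c (by omega)
    rw [mul_add, mul_one] at h5
    omega
  have hlevb : ∀ z, c * z = 2 * (c' * z) := fun z => by rw [hc']; ring
  have hmodd : m % 2 = 1 := by
    rw [Nat.even_iff] at hmo
    omega
  have hgood : b = K → (0 < k₁ ∨ (Lag Q ↔ (¬ Even i ∨ Even K))) := by
    intro hbe
    by_cases h0 : 0 < k₁
    · exact Or.inl h0
    · refine Or.inr ?_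
      rw [← hbe]
      exact hfullb (by rw [hbe]; omega)
  -- the numbers
  obtain ⟨a, f, hab, hcaf, hdim, hf0⟩ : ∃ a f, a ≤ b ∧ c * a + f = m ∧ c * b + f < 2 * d ∧ 0 < f := by
    by_cases hba : b < a₀
    · have hle : c * (b + 1) ≤ c * a₀ := Nat.mul_le_mul_left c hba
      rw [mul_add, mul_one] at hle
      refine ⟨b, m - c * b, le_rfl, by omega, by omega, by omega⟩
    · have h0 : 0 < l := by
        have h5 := hlevb a₀
        omega
      refine ⟨a₀, l, by omega, hdm, ?_, h0⟩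
      by_cases hbe : b = K
      · have h5 := hCrit (hgood hbe)
        rw [hbe]
        omega
      · have hbK' : b + 1 ≤ K := by omega
        have hle : c * (b + 1) ≤ c * K := Nat.mul_le_mul_left c hbK'
        rw [mul_add, mul_one] at hle
        omega
  obtain ⟨k', k'', h1, h3, h4, h5, h6⟩ := exists_pick H hc k hk hb hab
  have hfun : (fun d => k' d + k'' d) = k := funext h4
  have hsum : ∑ d, k' d + ∑ d, k'' d = ∑ d, k d := by
    rw [← Finset.sum_add_distrib, Finset.sum_congr rfl fun d _ => h4 d]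
  obtain ⟨W₁, _, _, _, Q₁, A₁, h₁n, h₁i, h₁r, h₁c, h₁d⟩ := exists_W H hr2 hF k' h1
  obtain ⟨W₂, _, _, _, Q₂, A₂, h₂n, h₂i, h₂r, h₂c, h₂d⟩ := exists_W H hr2 hF k'' h3
  have hW₀p := polarNondeg_of_on hW₀n
  obtain ⟨f₁, hf₁⟩ := exists_embed_gen h2 (c * a) W₁ W₀ Q₁ (Q.comp W₀.subtype) h₁n hW₀p (by rw [h₁d, h5]) (by omega)
  obtain ⟨P, _, _, _, QP, e, hPn, hPd, he⟩ := exists_compl_abs (Q.comp W₀.subtype) hW₀p Q₁ h₁n f₁ hf₁
  have hPf : finrank F P = f := by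
    rw [h₁d, h5, hW₀d] at hPd
    omega
  have hsum2 : i * ∑ d, k' d + i * ∑ d, k'' d = c * b := by
    rw [← mul_add, hsum, hb]
  have hQWn := polarNondeg_prod (polarNondeg_prod h₁n hPn) h₂n
  have hdN : finrank F ((W₁ × P) × W₂) = c * b + f := by
    rw [Module.finrank_prod, Module.finrank_prod, h₁d, h₂d, hPf]
    omega
  obtain ⟨ι₀, hι₀⟩ := exists_embed_gen h2 (c * b + f) ((W₁ × P) × W₂) (ι' → F) ((Q₁.prod QP).prod Q₂) Q hQWn hQ hdN
    (by rw [Module.finrank_fintype_fun_eq_card, hcard]; exact hdim)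
  obtain ⟨φ, hφ, hinv⟩ := exists_inv_core H hr hr2 hrp hQ x hx k' k'' Q₁ Q₂ QP hPn A₁ A₂ h₁n h₂n h₁i h₂i h₁r h₂r h₁c h₂c h₁d h₂d
    (by rw [hfun]; exact hcx) (by rw [hPf, hcard, hsum, hb]; omega) ι₀ hι₀
  have hPn₂ := polarNondeg_prod h₁n hPn
  obtain ⟨t1, t2, -⟩ := transfer Q hPn₂ φ hφ
  have hinj := injective_of_isometric hPn₂ φ hφ
  refine ⟨LinearMap.range φ, ⟨?_, t2, ?_⟩, hinv⟩
  · rw [t1, Module.finrank_prod, hPf, h₁d, h5]
    exact hcaf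
  · refine ⟨(LinearEquiv.ofInjective φ hinj).symm.trans e, fun w => ?_⟩
    obtain ⟨v, rfl⟩ := (LinearEquiv.ofInjective φ hinj).surjective w
    simp only [LinearEquiv.trans_apply, LinearEquiv.symm_apply_apply]
    have h7 := he v
    have h8 : Q (e v : ι' → F) = (Q₁.prod QP) v := h7
    rw [h8, ← hφ v]
    rfl

/-- The forward direction for odd dimension. -/
theorem nondeg_forward_odd {q r i t : ℕ} {D : Finset F[X]} [Fact r.Prime] (H : Data q r i t D) (ht0 : 0 < t) (hF : Fintype.card F = q) (hr2 : r ≠ 2) (hrp : r ≠ p)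
    (hQ : PolarNondeg Q) {d : ℕ} (hcard : Fintype.card ι' = 2 * d) (hc4 : Fintype.card ι' ≠ 4) (hne : Nonempty ι') {c : ℕ} (hc : c = if Even i then i else 2 * i)
    {m : ℕ} (hmo : ¬ Even m) (hK : 0 < (2 * d) / c)
    (hH : ∀ x : ↥(Cfsg.isometryGroup F ⇑Q), x ∈ Cfsg.Omega F ⇑Q → orderOf x = r →
      ∃ U : Submodule F (ι' → F), finrank F U = m ∧ Cfsg.Geo.IsNondegenerateOn (polar ⇑Q) U ∧
      U.map (Matrix.toLin' ((x : GL ι' F) : Matrix ι' ι' F)) ≤ U) :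
    (0 < (2 * d) % c ∨ (Lag Q ↔ (¬ Even i ∨ Even ((2 * d) / c)))) → m % c < (2 * d) % c := by
  classical
  have hr : r.Prime := Fact.out
  have hi0 := H.hipos
  have hcpos := c_pos hi0 hc
  obtain ⟨c', hc'⟩ := c_even hc
  have hlevb : ∀ z, c * z = 2 * (c' * z) := fun z => by rw [hc']; ring
  obtain ⟨K, hKdef⟩ : ∃ K, K = (2 * d) / c := ⟨_, rfl⟩
  obtain ⟨k₁, hk₁def⟩ : ∃ k₁, k₁ = (2 * d) % c := ⟨_, rfl⟩
  rw [← hKdef] at hK
  rw [← hKdef, ← hk₁def]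
  have hdn : c * K + k₁ = 2 * d := by
    rw [hKdef, hk₁def]
    exact Nat.div_add_mod _ _
  have hk₁lt : k₁ < c := by
    rw [hk₁def]
    exact Nat.mod_lt _ hcpos
  intro hgood
  obtain ⟨k₀, h5, h6, h7⟩ := exists_blocks H ht0 hc hK
  have hk₀K : Even i → ∑ d, k₀ d = K := by
    intro hev
    rw [hc, if_pos hev] at h7
    exact Nat.eq_of_mul_eq_mul_left hi0 h7
  obtain ⟨x, hxΩ, hxo, hxc⟩ := exists_x_even H hF hr hr2 hrp Q hQ hcard hc4 hne k₀ h5 h6 (by rw [h7]; omega) (fun h => by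
    have hk0 : ¬ 0 < k₁ := by
      rw [h7] at h
      omega
    have h8 := hgood.resolve_left hk0
    by_cases hev : Even i
    · rw [hk₀K hev]
      exact h8
    · simp only [hev, not_false_eq_true, true_or, iff_true] at h8 ⊢
      exact h8)
  obtain ⟨W, hWm, hWn, hWi⟩ := hH x hxΩ hxo
  obtain ⟨k', hk', hfr, hf0⟩ := nondeg_split H hF hr hr2 hrp Q x hxo W hWn hWi
  obtain ⟨T, hTdef⟩ : ∃ T, T = Matrix.toLin' ((x : GL ι' F) : Matrix ι' ι' F) := ⟨_, rfl⟩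
  rw [← hTdef] at hfr hf0 hWi
  have hTr : T ^ r = 1 := by
    rw [hTdef]
    exact toLin_pow_eq_one Q x (by rw [← hxo]; exact pow_orderOf_eq_one x)
  have hcT : LinearMap.charpoly T = polyOf D i (Fintype.card ι') k₀ := by
    rw [hTdef, Matrix.charpoly_toLin', hxc]
  have hfix := finrank_Fix_of_polyOf H hr hrp T hTr hcT
  rw [hcard, h7] at hfix
  obtain ⟨f, hfdef⟩ : ∃ f, f = finrank F ↥(W ⊓ Fix T) := ⟨_, rfl⟩
  rw [← hfdef] at hfr hf0
  have hfle : f ≤ k₁ := by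
    have h8 : finrank F ↥(W ⊓ Fix T) ≤ finrank F (Fix T) := Submodule.finrank_mono inf_le_right
    omega
  obtain ⟨a, ha, hasum⟩ := exists_b_of_sum H hc k' hk'
  rw [hWm, ha] at hfr
  have hmodd : m % 2 = 1 := by
    rw [Nat.even_iff] at hmo
    omega
  have h1 := hlevb a
  have h3 := hlevb K
  have hlf : m % c = f := by
    rw [hfr, Nat.add_mul_mod_self_left, Nat.mod_eq_of_lt (by omega)]
  omega

/-- The forward direction for odd dimension at statement level. -/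
theorem odd_forward {q r i : ℕ} [Fact r.Prime] (hq : Fintype.card F = q) (hr2 : r ≠ 2) (hrp : r ≠ p) (hi : i = orderOf (q : ZMod r))
    (hQ : PolarNondeg Q) {d : ℕ} (hd : 1 ≤ d) (hcard : Fintype.card ι' = 2 * d) (hc4 : Fintype.card ι' ≠ 4) [hne : Nonempty ι'] {c : ℕ} (hc : c = if Even i then i else 2 * i)
    {m : ℕ} (hmo : ¬ Even m) (W₀ : Submodule F (ι' → F)) (hW₀d : finrank F W₀ = m) (hW₀n : Cfsg.Geo.IsNondegenerateOn (polar ⇑Q) W₀)
    (hrΩ : r ∣ Nat.card {W : Submodule F (ι' → F) // finrank F W = m ∧ Cfsg.Geo.IsNondegenerateOn (polar ⇑Q) W ∧ Cfsg.Geo.AreIsometricFor ⇑Q W W₀})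
    (hH : ∀ x : GL ι' F, x ∈ Cfsg.Geo.omegaGL (⇑Q) →
      (∃ z : F, ((x ^ r : GL ι' F) : Matrix ι' ι' F) = z • (1 : Matrix ι' ι' F)) →
      (∀ z : F, (x : Matrix ι' ι' F) ≠ z • (1 : Matrix ι' ι' F)) →
      ∃ W : Submodule F (ι' → F), (finrank F W = m ∧ Cfsg.Geo.IsNondegenerateOn (polar ⇑Q) W ∧ Cfsg.Geo.AreIsometricFor ⇑Q W W₀) ∧ W.map (Matrix.toLin' (x : Matrix ι' ι' F)) ≤ W) :
    (i ≠ 1 → c ≤ m) ∧ (c ≤ 2 * d → (0 < (2 * d) % c ∨ (Lag Q ↔ (¬ Even i ∨ Even ((2 * d) / c)))) → m % c < (2 * d) % c) := by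
  classical
  obtain ⟨t, D, ⟨H⟩, ht, ht0, hi0⟩ := exists_setup hq hr2 hrp hi
  have hcpos := c_pos hi0 hc
  have hH' : ∀ x : ↥(Cfsg.isometryGroup F ⇑Q), x ∈ Cfsg.Omega F ⇑Q → orderOf x = r →
      ∃ U : Submodule F (ι' → F), (finrank F U = m ∧ Cfsg.Geo.IsNondegenerateOn (polar ⇑Q) U ∧ Cfsg.Geo.AreIsometricFor ⇑Q U W₀) ∧
        U.map (Matrix.toLin' ((x : GL ι' F) : Matrix ι' ι' F)) ≤ U := by
    intro x hx hxr
    obtain ⟨h1, h3⟩ := forward_reduce hQ hr2 x hxr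
    exact hH (x : GL ι' F) (Subgroup.mem_map_of_mem _ hx) h1 h3
  refine ⟨fun hi1 => ?_, fun hcd => ?_⟩
  · by_contra hlt
    have hmc : m < c := by omega
    refine no_small_P H ht ht0 hq hr2 hrp hi hi1 hQ hcard hd hc4 hne hc _ ?_ ?_ ⟨W₀, hW₀d, hW₀n, ⟨LinearEquiv.refl F W₀, fun _ => rfl⟩⟩ hH' ?_ hrΩ
    · rintro g W ⟨h1, h3, ⟨e, he⟩⟩
      refine ⟨by rw [finrank_gMap, h1], nondeg_gMap g h3, ?_⟩
      let e₁ : W ≃ₗ[F] ↥(gMap g W) := Submodule.equivMapOfInjective _ (mulVecLin_injective g) W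
      refine ⟨e₁.symm.trans e, fun w => ?_⟩
      obtain ⟨v, rfl⟩ := e₁.surjective w
      simp only [LinearEquiv.trans_apply, LinearEquiv.symm_apply_apply]
      rw [he v]
      have h5 : ((e₁ v : ↥(gMap g W)) : ι' → F) = act g (v : ι' → F) := rfl
      rw [h5, Q_act]
    · rintro W W' ⟨h1, h3, ⟨e, he⟩⟩ ⟨h5, h6, ⟨e', he'⟩⟩
      refine ⟨e.trans e'.symm, fun x => ?_⟩
      obtain ⟨v, hv⟩ := e'.surjective (e x)
      simp only [LinearEquiv.trans_apply]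
      rw [← hv, LinearEquiv.symm_apply_apply, ← he', hv, he]
    · rintro x hx U ⟨h1, h3, -⟩ hU
      exact le_fix_of_small H hq hr2 hrp hc hmc x hx U h1 h3 hU
  · refine nondeg_forward_odd H ht0 hq hr2 hrp hQ hcard hc4 hne hc hmo (Nat.div_pos hcd hcpos) (fun x hx hxr => ?_)
    obtain ⟨U, ⟨h1, h3, -⟩, h5⟩ := hH' x hx hxr
    exact ⟨U, h1, h3, h5⟩

/-- The backward direction for odd dimension at statement level. -/
theorem odd_backward {q r i : ℕ} [Fact r.Prime] (hq : Fintype.card F = q) (hr2 : r ≠ 2) (hrp : r ≠ p) (hi : i = orderOf (q : ZMod r)) (h2 : (2 : F) ≠ 0)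
    (hQ : PolarNondeg Q) {d : ℕ} (hcard : Fintype.card ι' = 2 * d) [hne : Nonempty ι'] {c : ℕ} (hc : c = if Even i then i else 2 * i)
    {m : ℕ} (hmo : ¬ Even m) (hm2 : m < 2 * d) (W₀ : Submodule F (ι' → F)) (hW₀d : finrank F W₀ = m) (hW₀n : Cfsg.Geo.IsNondegenerateOn (polar ⇑Q) W₀)
    (hCrit : (0 < (2 * d) % c ∨ (Lag Q ↔ (¬ Even i ∨ Even ((2 * d) / c)))) → m % c < (2 * d) % c) :
    ∀ x : GL ι' F, x ∈ Cfsg.Geo.omegaGL (⇑Q) →
      (∃ z : F, ((x ^ r : GL ι' F) : Matrix ι' ι' F) = z • (1 : Matrix ι' ι' F)) →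
      (∀ z : F, (x : Matrix ι' ι' F) ≠ z • (1 : Matrix ι' ι' F)) →
      ∃ W : Submodule F (ι' → F), (finrank F W = m ∧ Cfsg.Geo.IsNondegenerateOn (polar ⇑Q) W ∧ Cfsg.Geo.AreIsometricFor ⇑Q W W₀) ∧ W.map (Matrix.toLin' (x : Matrix ι' ι' F)) ≤ W := by
  classical
  obtain ⟨t, D, ⟨H⟩, ht, ht0, hi0⟩ := exists_setup hq hr2 hrp hi
  rintro x ⟨g, hg, rfl⟩ ⟨z, hz⟩ hns
  refine backward_reduce_P hQ hr2 _ (fun y hy hyr => ?_) g hg hz hns
  exact nondeg_backward_odd H hq hr2 hrp h2 hQ hcard hc hmo hm2 W₀ hW₀d hW₀n hCrit y hyr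

end Cfsg.Agent.Lib.Classical.OSemi.NondegG
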