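import Mathlib
import Cfsg.Agent.Lib.Classical.OSemi.NondegG
import Cfsg.Agent.Lib.Classical.OSemi.SingFinal

/-!
# Elements with square a scalar and nondegenerate subspaces
-/

set_option autoImplicit false
set_option linter.unusedSectionVars false
set_option linter.unusedSimpArgs false
set_option linter.unusedVariables false
set_option linter.style.haveILetI false
set_option maxHeartbeats 1000000

open Module QuadraticMap Matrix
open Cfsg Cfsg.Agent.Lib.Classical.Witt.Hyp Cfsg.Agent.Lib.Linalg.OrthModels Cfsg.Agent.Lib.Linalg.Bridge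
open Cfsg.Agent.Lib.Classical.OSemi.Lag Cfsg.Agent.Lib.Classical.OSemi.LagFree
open Cfsg.Agent.Lib.Classical.OSemi.Decomp Cfsg.Agent.Lib.Classical.OSemi.Coprime
open Cfsg.Agent.Lib.Classical.OSemi.SingJ Cfsg.Agent.Lib.Classical.OSemi.SingInvE Cfsg.Agent.Lib.Classical.OSemi.SingFinal
open Cfsg.Agent.Lib.Classical.OSemi.NondegE Cfsg.Agent.Lib.Classical.OSemi.Invol
open Cfsg.Agent.Lib.Classical.Witt.TS
open Cfsg.Agent.Lib.Classical.Orth.Basic Cfsg.Agent.Lib.Classical.Orth.Classes Cfsg.Agent.Lib.Classical.Orth.Adjust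

namespace Cfsg.Agent.Lib.Classical.OSemi.NondegJ

universe u

variable {ι' : Type} [Fintype ι'] [DecidableEq ι'] {F : Type u} [Field F] [Fintype F]
variable {Q : QuadraticForm F (ι' → F)}

/-- With a square root of `-1`, invariant nondegenerate subspaces are hyperbolic. -/
theorem J_inv_half (h2 : (2 : F) ≠ 0) (x : ↥(Cfsg.isometryGroup F ⇑Q)) (hxx : ∀ v, act x (act x v) = -v) {s : F} (hs : s * s = -1)
    (W : Submodule F (ι' → F)) (hn : PolarNondeg (Q.comp W.subtype)) (hinv : ∀ w ∈ W, act x w ∈ W) :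
    ∃ U : Submodule F (ι' → F), U ≤ W ∧ (∀ u ∈ U, Q u = 0) ∧ 2 * finrank F U = finrank F W := by
  classical
  let mkT : F → Submodule F (ι' → F) := fun c =>
    { carrier := {v | act x v = c • v}
      add_mem' := fun {a b} ha hb => by
        show act x (a + b) = c • (a + b)
        rw [act_add, ha, hb, smul_add]
      zero_mem' := by
        show act x 0 = c • 0
        rw [act_zero, smul_zero]
      smul_mem' := fun e v hv => by
        show act x (e • v) = c • (e • v)
        rw [act_smul, hv, smul_comm] }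
  have hmk : ∀ c v, v ∈ mkT c ↔ act x v = c • v := fun _ _ => Iff.rfl
  have hts : ∀ c, c * c = -1 → ∀ v ∈ mkT c, Q v = 0 := by
    intro c hc v hv
    have h3 := Q_act x v
    rw [(hmk c v).1 hv, Q_smul, hc] at h3
    have h5 : (2 : F) * Q v = 0 := by linear_combination -h3
    exact (mul_eq_zero.1 h5).resolve_left h2
  have hs' : (-s) * (-s) = -1 := by linear_combination hs
  have hsup : W ≤ (W ⊓ mkT s) ⊔ (W ⊓ mkT (-s)) := by
    intro v hv
    have h3 : v = (2 : F)⁻¹ • (v - s • act x v) + (2 : F)⁻¹ • (v - (-s) • act x v) := by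
      rw [← smul_add]
      have : v - s • act x v + (v - (-s) • act x v) = (2 : F) • v := by
        rw [two_smul, neg_smul]
        abel
      rw [this, smul_smul, inv_mul_cancel₀ h2, one_smul]
    have key : ∀ c : F, c * c = -1 → v - c • act x v ∈ W ⊓ mkT c := by
      intro c hc
      refine ⟨W.sub_mem hv (W.smul_mem _ (hinv v hv)), ?_⟩
      show v - c • act x v ∈ mkT c
      rw [hmk, act_sub, act_smul, hxx, smul_sub, smul_smul, hc, smul_neg, sub_neg_eq_add, neg_smul, one_smul, sub_neg_eq_add, add_comm]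
    rw [h3]
    exact Submodule.add_mem _ (Submodule.mem_sup_left (Submodule.smul_mem _ _ (key s hs))) (Submodule.mem_sup_right (Submodule.smul_mem _ _ (key (-s) hs')))
  have h5 := two_mul_le_of_ts hn (hts s hs)
  have h6 := two_mul_le_of_ts hn (hts (-s) hs')
  have h7 := Submodule.finrank_add_le_finrank_add_finrank (W ⊓ mkT s) (W ⊓ mkT (-s))
  have h8 := Submodule.finrank_mono hsup
  refine ⟨W ⊓ mkT s, inf_le_left, fun u hu => hts s hs u hu.2, by omega⟩

/-- Invariant nondegenerate subspaces of an element with square `-1` have even dimension. -/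
theorem J_even (h2 : (2 : F) ≠ 0) (x : ↥(Cfsg.isometryGroup F ⇑Q)) (hxx : ∀ v, act x (act x v) = -v)
    (W : Submodule F (ι' → F)) (hn : PolarNondeg (Q.comp W.subtype)) (hinv : ∀ w ∈ W, act x w ∈ W) : Even (finrank F W) := by
  by_cases hns : IsSquare (-1 : F)
  · obtain ⟨s, hs⟩ := hns
    obtain ⟨U, -, -, h1⟩ := J_inv_half h2 x hxx hs.symm W hn hinv
    exact ⟨finrank F U, by omega⟩
  · exact even_of_inv hns x hxx W hinv

/-- An element with square `-1` on the plus form. -/
theorem exists_J_plus {s : F} (hs : s * s = -1) (d : ℕ) : ∃ x : ↥(Cfsg.isometryGroup F ⇑(plusQ d F)), ∀ v, act x (act x v) = -v := by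
  classical
  let J₀ : (Fin d ⊕ Fin d → F) ≃ₗ[F] (Fin d ⊕ Fin d → F) :=
    { toFun := fun v => Sum.elim (fun j => s * v (Sum.inl j)) (fun j => - s * v (Sum.inr j))
      map_add' := fun a b => by
        funext j
        rcases j with j | j <;> simp <;> ring
      map_smul' := fun c a => by
        funext j
        rcases j with j | j <;> simp <;> ring
      invFun := fun v => Sum.elim (fun j => - s * v (Sum.inl j)) (fun j => s * v (Sum.inr j))
      left_inv := fun v => by
        funext j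
        rcases j with j | j
        · simp only [Sum.elim_inl]
          linear_combination -(v (Sum.inl j)) * hs - v (Sum.inl j) * 0
        · simp only [Sum.elim_inr]
          linear_combination -(v (Sum.inr j)) * hs
      right_inv := fun v => by
        funext j
        rcases j with j | j
        · simp only [Sum.elim_inl]
          linear_combination -(v (Sum.inl j)) * hs
        · simp only [Sum.elim_inr]
          linear_combination -(v (Sum.inr j)) * hs }
  have hJ₀ : ∀ v j, J₀ v (Sum.inl j) = s * v (Sum.inl j) := fun _ _ => rfl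
  have hJ₁ : ∀ v j, J₀ v (Sum.inr j) = - s * v (Sum.inr j) := fun _ _ => rfl
  have hJQ : ∀ v, plusQ d F (J₀ v) = plusQ d F v := by
    intro v
    rw [plusQ_apply, plusQ_apply]
    refine Finset.sum_congr rfl fun j _ => ?_
    rw [hJ₀, hJ₁]
    linear_combination -(v (Sum.inl j) * v (Sum.inr j)) * hs
  have hJJ : ∀ v, J₀ (J₀ v) = -v := by
    intro v
    funext j
    rcases j with j | j
    · rw [hJ₀, hJ₀]
      simp only [Pi.neg_apply]
      linear_combination (v (Sum.inl j)) * hs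
    · rw [hJ₁, hJ₁]
      simp only [Pi.neg_apply]
      linear_combination (v (Sum.inr j)) * hs
  let x₀ : ↥(Cfsg.isometryGroup F ⇑(plusQ d F)) := ⟨glOfEquiv J₀, (mem_isometryGroup_iff (plusQ d F) _).2 (fun v => by
    rw [glOfEquiv_mulVec]
    exact hJQ v)⟩
  have hx₀ : ∀ v, act x₀ v = J₀ v := fun v => glOfEquiv_mulVec J₀ v
  exact ⟨x₀, fun v => by rw [hx₀, hx₀, hJJ]⟩

/-- Invariant nondegenerate subspaces of every even dimension. -/
theorem exists_J_nondeg (h2 : (2 : F) ≠ 0) (hQ : PolarNondeg Q) {d : ℕ} (hcard : Fintype.card ι' = 2 * d) (x : ↥(Cfsg.isometryGroup F ⇑Q))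
    (hxx : ∀ v, act x (act x v) = -v) (j : ℕ) (hj : j ≤ d) :
    ∃ A : Submodule F (ι' → F), finrank F A = 2 * j ∧ PolarNondeg (Q.comp A.subtype) ∧ ∀ v ∈ A, act x v ∈ A := by
  classical
  induction j with
  | zero =>
    refine ⟨⊥, by simp, ?_, fun v hv => ?_⟩
    · rintro ⟨a, ha⟩ -
      exact Subtype.ext ((Submodule.mem_bot F).1 ha)
    · rw [(Submodule.mem_bot F).1 hv, act_zero]
      exact Submodule.zero_mem _
  | succ j ih =>
    obtain ⟨A, hAd, hAn, hAx⟩ := ih (by omega)
    obtain ⟨P, hP, hsup, hinf, hd, hPn⟩ := exists_orth_gen Q hQ A hAn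
    rw [Module.finrank_fintype_fun_eq_card, hcard] at hd
    have hgA : gMap x A = A := gMap_eq_of_le hAx
    have hPx : ∀ y ∈ P, act x y ∈ P := by
      intro y hy
      rw [hP]
      intro a ha
      rw [← hgA] at ha
      obtain ⟨a', ha', rfl⟩ := mem_gMap.1 ha
      rw [polar_act]
      exact (hP y).1 hy a' ha'
    have hex : ∃ a : P, Q (a : ι' → F) ≠ 0 := by
      by_contra hcon
      push Not at hcon
      have h0 : ∀ a : P, a = 0 := fun a => hPn a (fun y => by
        rw [polar_comp_sub]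
        have h5 : Q ((a : ι' → F) + y) = 0 := hcon (a + y)
        rw [polar, h5, hcon a, hcon y]
        ring)
      haveI : Subsingleton P := ⟨fun a b => by rw [h0 a, h0 b]⟩
      have := Module.finrank_zero_of_subsingleton (R := F) (M := P)
      omega
    obtain ⟨⟨v, hvP⟩, hv⟩ := hex
    simp only at hv
    obtain ⟨w, hwdef⟩ : ∃ w, w = act x v := ⟨_, rfl⟩
    have hwP : w ∈ P := by
      rw [hwdef]
      exact hPx v hvP
    have hQw : Q w = Q v := by
      rw [hwdef, Q_act]
    have hxw : act x w = -v := by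
      rw [hwdef, hxx]
    have hvw : polar (⇑Q) v w = 0 := by
      rw [hwdef]
      exact polar_J h2 x hxx v
    have hvv : polar (⇑Q) v v = 2 * Q v := polar_self_eq Q v
    have hww : polar (⇑Q) w w = 2 * Q v := by
      rw [polar_self_eq Q w, hQw]
    have h2c : 2 * Q v ≠ 0 := mul_ne_zero h2 hv
    have hAv : ∀ a ∈ A, polar (⇑Q) a v = 0 := (hP v).1 hvP
    have hAw : ∀ a ∈ A, polar (⇑Q) a w = 0 := (hP w).1 hwP
    have hvA : v ∉ A := by
      intro h
      have := hAv v h
      rw [hvv] at this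
      exact h2c this
    have hwA : w ∉ A ⊔ Submodule.span F {v} := by
      intro h
      obtain ⟨a, ha, z, hz, haz⟩ := Submodule.mem_sup.1 h
      obtain ⟨c, rfl⟩ := Submodule.mem_span_singleton.1 hz
      have h3 : polar (⇑Q) (a + c • v) w = 0 := by
        rw [polar_add_left, hAw a ha, polar_smul_left', hvw]
        simp
      rw [haz, hww] at h3
      exact h2c h3
    refine ⟨A ⊔ Submodule.span F {v} ⊔ Submodule.span F {w}, ?_, ?_, ?_⟩
    · rw [finrank_sup_span_add _ hwA, finrank_sup_span_add _ hvA, hAd]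
      ring
    · rintro ⟨y, hy⟩ hh
      obtain ⟨y₁, hy₁, z, hz, rfl⟩ := Submodule.mem_sup.1 hy
      obtain ⟨a, ha, z₁, hz₁, rfl⟩ := Submodule.mem_sup.1 hy₁
      obtain ⟨β, rfl⟩ := Submodule.mem_span_singleton.1 hz
      obtain ⟨α, rfl⟩ := Submodule.mem_span_singleton.1 hz₁
      have hmemA : ∀ z ∈ A, z ∈ A ⊔ Submodule.span F {v} ⊔ Submodule.span F {w} := fun z hz =>
        Submodule.mem_sup_left (Submodule.mem_sup_left hz)
      have hmemv : v ∈ A ⊔ Submodule.span F {v} ⊔ Submodule.span F {w} :=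
        Submodule.mem_sup_left (Submodule.mem_sup_right (Submodule.mem_span_singleton_self v))
      have hmemw : w ∈ A ⊔ Submodule.span F {v} ⊔ Submodule.span F {w} :=
        Submodule.mem_sup_right (Submodule.mem_span_singleton_self w)
      have hev : ∀ z (hz : z ∈ A ⊔ Submodule.span F {v} ⊔ Submodule.span F {w}), polar (⇑Q) (a + α • v + β • w) z = 0 := by
        intro z hz
        have := hh ⟨z, hz⟩
        rwa [polar_comp_sub] at this
      have hvz : ∀ z ∈ A, polar (⇑Q) v z = 0 := fun z hz => by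
        rw [polar_comm]
        exact hAv z hz
      have hwz : ∀ z ∈ A, polar (⇑Q) w z = 0 := fun z hz => by
        rw [polar_comm]
        exact hAw z hz
      have hwv : polar (⇑Q) w v = 0 := by
        rw [polar_comm]
        exact hvw
      have ha0 : a = 0 := by
        have : (⟨a, ha⟩ : A) = 0 := hAn _ (fun z => by
          rw [polar_comp_sub]
          have h3 := hev z (hmemA z z.2)
          rw [polar_add_left, polar_add_left, polar_smul_left', polar_smul_left', hvz z z.2, hwz z z.2] at h3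
          simpa using h3)
        exact congrArg Subtype.val this
      have hα : α = 0 := by
        have h3 := hev v hmemv
        rw [polar_add_left, polar_add_left, polar_smul_left', polar_smul_left', hAv a ha, hvv, hwv] at h3
        have h4 : α * (2 * Q v) = 0 := by simpa using h3
        exact (mul_eq_zero.1 h4).resolve_right h2c
      have hβ : β = 0 := by
        have h3 := hev w hmemw
        rw [polar_add_left, polar_add_left, polar_smul_left', polar_smul_left', hAw a ha, hvw, hww] at h3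
        have h4 : β * (2 * Q v) = 0 := by simpa using h3
        exact (mul_eq_zero.1 h4).resolve_right h2c
      apply Subtype.ext
      simp [ha0, hα, hβ]
    · intro y hy
      obtain ⟨y₁, hy₁, z, hz, rfl⟩ := Submodule.mem_sup.1 hy
      obtain ⟨a, ha, z₁, hz₁, rfl⟩ := Submodule.mem_sup.1 hy₁
      obtain ⟨c, rfl⟩ := Submodule.mem_span_singleton.1 hz
      obtain ⟨e, rfl⟩ := Submodule.mem_span_singleton.1 hz₁
      rw [act_add, act_add, act_smul, act_smul, hxw, ← hwdef]
      refine Submodule.add_mem _ (Submodule.add_mem _ ?_ ?_) ?_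
      · exact Submodule.mem_sup_left (Submodule.mem_sup_left (hAx a ha))
      · exact Submodule.mem_sup_right (Submodule.smul_mem _ _ (Submodule.mem_span_singleton_self w))
      · exact Submodule.mem_sup_left (Submodule.mem_sup_right (Submodule.smul_mem _ _ (Submodule.neg_mem _ (Submodule.mem_span_singleton_self v))))

/-- An isometry whose square is a scalar has square `±1`. -/
theorem two_cases (h2 : (2 : F) ≠ 0) (hQ : PolarNondeg Q) [hne : Nonempty ι']
    (g : ↥(Cfsg.isometryGroup F ⇑Q)) {z : F}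
    (hz : (((g : GL ι' F) ^ 2 : GL ι' F) : Matrix ι' ι' F) = z • (1 : Matrix ι' ι' F)) :
    g ^ 2 = 1 ∨ ∀ v, act g (act g v) = -v := by
  have hzz : z * z = 1 := scalar_sq hQ hz (fun v => by
    have h1 := Q_act (g ^ 2) v
    have h3 : ((((g ^ 2 : ↥(Cfsg.isometryGroup F ⇑Q)) : GL ι' F)) : Matrix ι' ι' F) = (((g : GL ι' F) ^ 2 : GL ι' F) : Matrix ι' ι' F) := rfl
    rw [act, h3] at h1
    exact h1)
  have hgg : ∀ v, act g (act g v) = z • v := by
    intro v
    rw [← act_mul, ← pow_two]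
    show (((g : GL ι' F) ^ 2 : GL ι' F) : Matrix ι' ι' F) *ᵥ v = _
    rw [hz, Matrix.smul_mulVec, Matrix.one_mulVec]
  have hz' : (z - 1) * (z + 1) = 0 := by linear_combination hzz
  rcases mul_eq_zero.1 hz' with h1 | h1
  · have hz1' : z = 1 := sub_eq_zero.1 h1
    refine Or.inl ?_
    apply Subtype.ext
    apply Units.ext
    show (((g : GL ι' F) ^ 2 : GL ι' F) : Matrix ι' ι' F) = 1
    rw [hz, hz1', one_smul]
  · have hz1' : z = -1 := eq_neg_of_add_eq_zero_left h1
    exact Or.inr (fun v => by rw [hgg, hz1', neg_smul, one_smul])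

/-- An isometry with square `-1` is as in the statements. -/
theorem J_statement' (h2 : (2 : F) ≠ 0) (hQ : PolarNondeg Q) [hne : Nonempty ι'] (g : ↥(Cfsg.isometryGroup F ⇑Q)) (hJ : ∀ v, act g (act g v) = -v) :
    (∃ z : F, (((g : GL ι' F) ^ 2 : GL ι' F) : Matrix ι' ι' F) = z • (1 : Matrix ι' ι' F)) ∧
      ∀ z : F, ((g : GL ι' F) : Matrix ι' ι' F) ≠ z • (1 : Matrix ι' ι' F) := by
  refine ⟨⟨-1, ?_⟩, fun z hz => ?_⟩
  · apply matrix_eq_of_mulVec_eq
    intro v
    rw [Matrix.smul_mulVec, Matrix.one_mulVec, neg_smul, one_smul, ← hJ v, ← act_mul, ← pow_two]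
    rfl
  · obtain ⟨v, hv⟩ := exists_nonsing hQ
    have hv0 : v ≠ 0 := by
      rintro rfl
      simp at hv
    have h1 := hJ v
    have hact : ∀ w, act g w = z • w := by
      intro w
      show ((g : GL ι' F) : Matrix ι' ι' F) *ᵥ w = _
      rw [hz, Matrix.smul_mulVec, Matrix.one_mulVec]
    have h3 := Q_act g v
    rw [hact, Q_smul] at h3
    have h4 : z * z = 1 := mul_right_cancel₀ hv (by rw [h3, one_mul])
    rw [hact, hact, smul_smul, h4, one_smul] at h1
    have h5 : (2 : F) • v = 0 := by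
      rw [two_smul]
      nth_rewrite 1 [h1]
      simp
    exact hv0 ((smul_eq_zero.1 h5).resolve_left h2)

/-- An involution fixes a subspace isometric to any nondegenerate subspace of less than half the dimension. -/
theorem invol_odd (h2 : (2 : F) ≠ 0) (hQ : PolarNondeg Q) {d : ℕ} (hcard : Fintype.card ι' = 2 * d) (x : ↥(Cfsg.isometryGroup F ⇑Q)) (hx : x ^ 2 = 1)
    {m : ℕ} (hmd : m < d) (W₀ : Submodule F (ι' → F)) (hW₀d : finrank F W₀ = m) (hW₀n : Cfsg.Geo.IsNondegenerateOn (polar (⇑Q)) W₀) :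
    ∃ W : Submodule F (ι' → F), (finrank F W = m ∧ Cfsg.Geo.IsNondegenerateOn (polar (⇑Q)) W ∧ Cfsg.Geo.AreIsometricFor ⇑Q W W₀) ∧
      ∀ w ∈ W, act x w ∈ W := by
  classical
  have hxx : ∀ v, act x (act x v) = v := by
    intro v
    rw [← act_mul, ← pow_two, hx, act_one]
  let A : Submodule F (ι' → F) :=
    { carrier := {v | act x v = v}
      add_mem' := fun {a b} ha hb => by
        show act x (a + b) = a + b
        rw [act_add, ha, hb]
      zero_mem' := act_zero x
      smul_mem' := fun c v hv => by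
        show act x (c • v) = c • v
        rw [act_smul, hv] }
  let B : Submodule F (ι' → F) :=
    { carrier := {v | act x v = -v}
      add_mem' := fun {a b} ha hb => by
        show act x (a + b) = -(a + b)
        rw [act_add, ha, hb, neg_add]
      zero_mem' := by
        show act x 0 = -0
        rw [act_zero, neg_zero]
      smul_mem' := fun c v hv => by
        show act x (c • v) = -(c • v)
        rw [act_smul, hv, smul_neg] }
  have hA : ∀ v, v ∈ A ↔ act x v = v := fun _ => Iff.rfl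
  have hB : ∀ v, v ∈ B ↔ act x v = -v := fun _ => Iff.rfl
  have hs : A ⊔ B = ⊤ := by
    rw [eq_top_iff]
    intro v _
    have h3 : v = (2 : F)⁻¹ • (v + act x v) + (2 : F)⁻¹ • (v - act x v) := by
      rw [← smul_add]
      have : v + act x v + (v - act x v) = (2 : F) • v := by
        rw [two_smul]
        abel
      rw [this, smul_smul, inv_mul_cancel₀ h2, one_smul]
    rw [h3]
    refine Submodule.add_mem _ (Submodule.mem_sup_left ?_) (Submodule.mem_sup_right ?_)
    · rw [hA, act_smul, act_add, hxx, add_comm]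
    · rw [hB, act_smul, act_sub, hxx, ← smul_neg, neg_sub]
  have horth : ∀ a ∈ A, ∀ b ∈ B, polar Q a b = 0 := by
    intro a ha b hb
    have h3 := polar_act x a b
    rw [(hA a).1 ha, (hB b).1 hb, polar_neg_right] at h3
    have h5 : (2 : F) * polar Q a b = 0 := by
      have h6 : polar Q a b = - polar Q a b := by
        simpa using h3.symm
      linear_combination h6
    exact (mul_eq_zero.1 h5).resolve_left h2
  have hAn : PolarNondeg (Q.comp A.subtype) := nondeg_of_orth_sup hQ hs horth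
  have hBn : PolarNondeg (Q.comp B.subtype) := nondeg_of_orth_sup hQ (by rw [sup_comm]; exact hs)
    (fun b hb a ha => by rw [polar_comm]; exact horth a ha b hb)
  have hdim := Submodule.finrank_add_le_finrank_add_finrank A B
  rw [hs, finrank_top, Module.finrank_fintype_fun_eq_card, hcard] at hdim
  have hW₀p := polarNondeg_of_on hW₀n
  -- the general step
  have key : ∀ C : Submodule F (ι' → F), PolarNondeg (Q.comp C.subtype) → m < finrank F C → (∀ c ∈ C, ∀ U : Submodule F (ι' → F), c ∈ U → act x c ∈ U) →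
      ∃ W : Submodule F (ι' → F), (finrank F W = m ∧ Cfsg.Geo.IsNondegenerateOn (polar (⇑Q)) W ∧ Cfsg.Geo.AreIsometricFor ⇑Q W W₀) ∧
        ∀ w ∈ W, act x w ∈ W := by
    intro C hCn hCd hCx
    obtain ⟨f, hf⟩ := exists_embed_gen h2 m W₀ C (Q.comp W₀.subtype) (Q.comp C.subtype) hW₀p hCn hW₀d hCd
    let φ : W₀ →ₗ[F] (ι' → F) := C.subtype ∘ₗ f
    have hφ : ∀ w, Q (φ w) = (Q.comp W₀.subtype) w := fun w => hf w
    obtain ⟨t1, t2, -⟩ := transfer Q hW₀p φ hφ
    have hinj := injective_of_isometric hW₀p φ hφ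
    refine ⟨LinearMap.range φ, ⟨by rw [t1, hW₀d], t2, ?_⟩, ?_⟩
    · refine ⟨(LinearEquiv.ofInjective φ hinj).symm, fun w => ?_⟩
      obtain ⟨v, rfl⟩ := (LinearEquiv.ofInjective φ hinj).surjective w
      simp only [LinearEquiv.symm_apply_apply]
      exact (hφ v).symm
    · rintro _ ⟨w, rfl⟩
      exact hCx (φ w) (f w).2 _ ⟨w, rfl⟩
  by_cases hAd : m < finrank F A
  · exact key A hAn hAd (fun c hc U hU => by rw [(hA c).1 hc]; exact hU)
  · exact key B hBn (by omega) (fun c hc U hU => by rw [(hB c).1 hc]; exact U.neg_mem hU)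

/-- The result for `r = 2` and elliptic subspaces of the plus form. -/
theorem two_elliptic_iff {p : ℕ} [Fact p.Prime] [CharP F p] {q : ℕ} (hq : Fintype.card F = q) (hp2 : p ≠ 2) {d m : ℕ} (hd : 4 ≤ d) (hm2 : 2 ≤ m) (hme : Even m) (hmd : m < d) :
    (∀ x : GL (Fin d ⊕ Fin d) F, x ∈ Cfsg.Geo.omegaGL (⇑(plusQ d F)) →
      (∃ z : F, ((x ^ 2 : GL (Fin d ⊕ Fin d) F) : Matrix (Fin d ⊕ Fin d) (Fin d ⊕ Fin d) F) = z • (1 : Matrix (Fin d ⊕ Fin d) (Fin d ⊕ Fin d) F)) →
      (∀ z : F, (x : Matrix (Fin d ⊕ Fin d) (Fin d ⊕ Fin d) F) ≠ z • (1 : Matrix (Fin d ⊕ Fin d) (Fin d ⊕ Fin d) F)) →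
      ∃ W : Submodule F (Fin d ⊕ Fin d → F), (finrank F W = m ∧ Cfsg.Geo.IsNondegenerateOn (polar (⇑(plusQ d F))) W ∧ ¬ Cfsg.Geo.IsPlusTypeOn (⇑(plusQ d F)) W) ∧
        W.map (Matrix.toLin' (x : Matrix (Fin d ⊕ Fin d) (Fin d ⊕ Fin d) F)) ≤ W) ↔
    ((Even d ∧ q % 4 = 3 ∧ m % 4 = 2) ∨ (Odd d ∧ q % 8 ≠ 1)) := by
  classical
  have hQ := polarNondeg_plusQ (F := F) d
  have hcard : Fintype.card (Fin d ⊕ Fin d) = 2 * d := by
    simp [Fintype.card_sum]
    ring
  haveI hne : Nonempty (Fin d ⊕ Fin d) := ⟨Sum.inl ⟨0, by omega⟩⟩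
  have hL : Lag (plusQ d F) := lag_plusQ d
  obtain ⟨h2, hq2, hsq, hsq2⟩ := odd_facts (p := p) hq hp2
  obtain ⟨m', hm'⟩ := hme
  constructor
  · intro H0
    by_contra hR
    obtain ⟨hR1, hR2⟩ := not_or.1 hR
    have hJgo : ∀ g : ↥(Cfsg.isometryGroup F ⇑(plusQ d F)), (∀ v, act g (act g v) = -v) → IsSquare ((2 : F) ^ d) →
        ∃ W : Submodule F (Fin d ⊕ Fin d → F), (finrank F W = m ∧ Cfsg.Geo.IsNondegenerateOn (polar (⇑(plusQ d F))) W ∧ ¬ Cfsg.Geo.IsPlusTypeOn (⇑(plusQ d F)) W) ∧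
          ∀ w ∈ W, act g w ∈ W := by
      intro g hg hsq'
      have hgΩ : g ∈ Cfsg.Omega F ⇑(plusQ d F) := (J_facts h2 hQ hcard g hg).2.2 hsq'
      obtain ⟨h3, h4⟩ := J_statement' h2 hQ g hg
      obtain ⟨W, h5, h6⟩ := H0 (g : GL (Fin d ⊕ Fin d) F) (Subgroup.mem_map_of_mem _ hgΩ) h3 h4
      exact ⟨W, h5, fun w hw => h6 ⟨w, hw, rfl⟩⟩
    by_cases hq4 : q % 4 = 3
    · have hns : ¬ IsSquare (-1 : F) := fun h => (hsq.1 h) hq4
      have hev : Even d := by
        by_contra h0
        refine hR2 ⟨Nat.not_even_iff_odd.1 h0, ?_⟩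
        omega
      obtain ⟨e, he⟩ := hev
      obtain ⟨g, hg⟩ := exists_J h2 hns hQ hcard (by omega) (iff_of_true hL ⟨e, he⟩)
      obtain ⟨W, ⟨h5, h6, h7⟩, h8⟩ := hJgo g hg ⟨2 ^ e, by rw [he, pow_add]⟩
      have hn := polarNondeg_of_on h6
      have h9 := (J_decomp h2 g hg m' W h8 hn (by omega)).1 hns
      apply h7
      rw [lag_iff_plus hn, h9]
      have h10 : m % 4 ≠ 2 := fun h => hR1 ⟨⟨e, he⟩, hq4, h⟩
      exact ⟨m' / 2, by omega⟩
    · have hs : IsSquare (-1 : F) := hsq.2 hq4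
      obtain ⟨s, hs⟩ := hs
      obtain ⟨g, hg⟩ := exists_J_plus hs.symm d
      have hsq' : IsSquare ((2 : F) ^ d) := by
        by_cases hev : Even d
        · obtain ⟨e, he⟩ := hev
          exact ⟨2 ^ e, by rw [he, pow_add]⟩
        · have h3 : q % 8 = 1 := by
            by_contra h0
            exact hR2 ⟨Nat.not_even_iff_odd.1 hev, h0⟩
          have h4 : IsSquare (2 : F) := hsq2.2 (by omega)
          exact h4.pow d
      obtain ⟨W, ⟨h5, h6, h7⟩, h8⟩ := hJgo g hg hsq'
      obtain ⟨U, h9, h10, h11⟩ := J_inv_half h2 g hg hs.symm W (polarNondeg_of_on h6) h8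
      exact h7 ⟨U, h9, h10, h11⟩
  · rintro hR x ⟨g, hg, rfl⟩ ⟨z, hz⟩ hns
    have hcases : ∃ W : Submodule F (Fin d ⊕ Fin d → F), (finrank F W = m ∧ Cfsg.Geo.IsNondegenerateOn (polar (⇑(plusQ d F))) W ∧ ¬ Cfsg.Geo.IsPlusTypeOn (⇑(plusQ d F)) W) ∧
        ∀ w ∈ W, act g w ∈ W := by
      rcases two_cases h2 hQ g hz with h1 | h1
      · obtain ⟨W, ⟨h3, h4, h5⟩, h6⟩ := invol_nondeg h2 (plusQ d F) hQ g h1 (by omega) hm2 ⟨m', hm'⟩ (by omega) False
        exact ⟨W, ⟨h3, h4, fun h => h5.1 h⟩, h6⟩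
      · obtain ⟨h3, h4⟩ := J_facts h2 hQ hcard g h1
        have hsqd := h4.1 hg
        rcases hR with ⟨hev, hq4, hm4⟩ | ⟨hodd, hq8⟩
        · have hnsq : ¬ IsSquare (-1 : F) := fun h => (hsq.1 h) hq4
          obtain ⟨A, h5, h6, h7⟩ := exists_J_nondeg h2 hQ hcard g h1 m' (by omega)
          have h8 := (J_decomp h2 g h1 m' A h7 h6 h5).1 hnsq
          have hA : Cfsg.Geo.IsNondegenerateOn (polar (⇑(plusQ d F))) A := by
            have h9 := (transfer (plusQ d F) (φ := A.subtype) h6 (fun w => rfl)).2.1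
            rwa [Submodule.range_subtype] at h9
          refine ⟨A, ⟨by omega, hA, ?_⟩, h7⟩
          rw [lag_iff_plus h6, h8]
          rintro ⟨e, he⟩
          omega
        · exfalso
          have hS := isSquare_two_of_pow h2 (Nat.not_even_iff_odd.2 hodd) hsqd
          obtain ⟨h5, h6⟩ := hsq2.1 hS
          have hq4 : q % 4 = 3 := by omega
          have hnsq : ¬ IsSquare (-1 : F) := fun h => (hsq.1 h) hq4
          exact (Nat.not_even_iff_odd.2 hodd) ((h3 hnsq).1 hL)
    obtain ⟨W, h1, h3⟩ := hcases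
    exact ⟨W, h1, fun _ ⟨w, hw, hww⟩ => by
      rw [← hww]
      exact h3 w hw⟩

/-- The backward direction for `r = 2` and subspaces of odd dimension. -/
theorem two_odd_back (h2 : (2 : F) ≠ 0) (hQ : PolarNondeg Q) {d : ℕ} (hcard : Fintype.card ι' = 2 * d) [hne : Nonempty ι']
    {m : ℕ} (hmd : m < d) (W₀ : Submodule F (ι' → F)) (hW₀d : finrank F W₀ = m) (hW₀n : Cfsg.Geo.IsNondegenerateOn (polar (⇑Q)) W₀)
    (hnoJ : ∀ g : ↥(Cfsg.isometryGroup F ⇑Q), g ∈ Cfsg.Omega F ⇑Q → (∀ v, act g (act g v) = -v) → False) :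
    ∀ x : GL ι' F, x ∈ Cfsg.Geo.omegaGL (⇑Q) →
      (∃ z : F, ((x ^ 2 : GL ι' F) : Matrix ι' ι' F) = z • (1 : Matrix ι' ι' F)) →
      (∀ z : F, (x : Matrix ι' ι' F) ≠ z • (1 : Matrix ι' ι' F)) →
      ∃ W : Submodule F (ι' → F), (finrank F W = m ∧ Cfsg.Geo.IsNondegenerateOn (polar (⇑Q)) W ∧ Cfsg.Geo.AreIsometricFor ⇑Q W W₀) ∧
        W.map (Matrix.toLin' (x : Matrix ι' ι' F)) ≤ W := by
  rintro x ⟨g, hg, rfl⟩ ⟨z, hz⟩ hns
  rcases two_cases h2 hQ g hz with h1 | h1
  · obtain ⟨W, h3, h4⟩ := invol_odd h2 hQ hcard g h1 hmd W₀ hW₀d hW₀n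
    exact ⟨W, h3, fun _ ⟨w, hw, hww⟩ => by
      rw [← hww]
      exact h4 w hw⟩
  · exact (hnoJ g hg h1).elim

/-- The forward direction for `r = 2` and subspaces of odd dimension. -/
theorem two_odd_forward (h2 : (2 : F) ≠ 0) (hQ : PolarNondeg Q) [hne : Nonempty ι'] {m : ℕ} (hmo : ¬ Even m)
    (E : Submodule F (ι' → F) → Prop)
    (H0 : ∀ x : GL ι' F, x ∈ Cfsg.Geo.omegaGL (⇑Q) →
      (∃ z : F, ((x ^ 2 : GL ι' F) : Matrix ι' ι' F) = z • (1 : Matrix ι' ι' F)) →
      (∀ z : F, (x : Matrix ι' ι' F) ≠ z • (1 : Matrix ι' ι' F)) →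
      ∃ W : Submodule F (ι' → F), (finrank F W = m ∧ Cfsg.Geo.IsNondegenerateOn (polar (⇑Q)) W ∧ E W) ∧
        W.map (Matrix.toLin' (x : Matrix ι' ι' F)) ≤ W)
    (g : ↥(Cfsg.isometryGroup F ⇑Q)) (hg : g ∈ Cfsg.Omega F ⇑Q) (hJ : ∀ v, act g (act g v) = -v) : False := by
  obtain ⟨h3, h4⟩ := J_statement' h2 hQ g hJ
  obtain ⟨W, ⟨h5, h6, -⟩, h7⟩ := H0 (g : GL ι' F) (Subgroup.mem_map_of_mem _ hg) h3 h4
  have h8 := J_even h2 g hJ W (polarNondeg_of_on h6) (fun w hw => h7 ⟨w, hw, rfl⟩)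
  rw [h5] at h8
  exact hmo h8

end Cfsg.Agent.Lib.Classical.OSemi.NondegJ
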