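import Mathlib
import Cfsg.Agent.Lib.Classical.OSemi.NondegJ
import Cfsg.Agent.Lib.Classical.Orth.DicksonRank
import Cfsg.Agent.Lib.Classical.OJordan.Pipeline
import Cfsg.Agent.Lib.Classical.OJordan.Combi
import Cfsg.Agent.Lib.Classical.OJordan.Final

/-!
# Elements of order `p` and nondegenerate subspaces
-/

set_option autoImplicit false
set_option linter.unusedSectionVars false
set_option linter.unusedSimpArgs false
set_option linter.unusedVariables false
set_option linter.style.haveILetI false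
set_option maxHeartbeats 1000000

open Module QuadraticMap Matrix
open Cfsg Cfsg.Agent.Lib.Classical.Witt.Hyp Cfsg.Agent.Lib.Linalg.OrthModels Cfsg.Agent.Lib.Linalg.Bridge
open Cfsg.Agent.Lib.Classical.OSemi.Lag Cfsg.Agent.Lib.Classical.OSemi.LagFree
open Cfsg.Agent.Lib.Classical.OSemi.Decomp Cfsg.Agent.Lib.Classical.OSemi.Coprime
open Cfsg.Agent.Lib.Classical.OSemi.NondegE
open Cfsg.Agent.Lib.Classical.Witt.TS
open Cfsg.Agent.Lib.Classical.Orth.Basic Cfsg.Agent.Lib.Classical.Orth.Classes Cfsg.Agent.Lib.Classical.Orth.Adjust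

namespace Cfsg.Agent.Lib.Classical.OSemi.NondegP

universe u

section Model

/-- The partner of an index. -/
def tauU {d : ℕ} (ρ : ℕ) (hρ : ρ % 2 = 0) (hle : ρ ≤ d) (j : Fin d) : Fin d :=
  if h : j.val < ρ then (if h2 : j.val % 2 = 0 then ⟨j.val + 1, by omega⟩ else ⟨j.val - 1, by omega⟩) else j

theorem tauU_val {d : ℕ} (ρ : ℕ) (hρ : ρ % 2 = 0) (hle : ρ ≤ d) (j : Fin d) :
    (tauU ρ hρ hle j).val = if j.val < ρ then (if j.val % 2 = 0 then j.val + 1 else j.val - 1) else j.val := by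
  unfold tauU
  split_ifs <;> rfl

theorem tauU_tauU {d : ℕ} (ρ : ℕ) (hρ : ρ % 2 = 0) (hle : ρ ≤ d) (j : Fin d) : tauU ρ hρ hle (tauU ρ hρ hle j) = j := by
  apply Fin.ext
  rw [tauU_val, tauU_val]
  split_ifs <;> omega

variable (F : Type u) [Field F]

/-- The coefficient of an index. -/
def cU {d : ℕ} (ρ : ℕ) (j : Fin d) : F := if j.val < ρ then (if j.val % 2 = 0 then 1 else -1) else 0

theorem cU_tau {d : ℕ} (ρ : ℕ) (hρ : ρ % 2 = 0) (hle : ρ ≤ d) (j : Fin d) : cU F ρ (tauU ρ hρ hle j) = - cU F ρ j := by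
  unfold cU
  rw [tauU_val]
  split_ifs <;> first | (exfalso; omega) | simp

theorem cU_sq {d : ℕ} (ρ : ℕ) (j : Fin d) (h : j.val < ρ) : cU F ρ j * cU F ρ j = 1 := by
  unfold cU
  split_ifs <;> simp

theorem cU_zero {d : ℕ} (ρ : ℕ) (j : Fin d) (h : ¬ j.val < ρ) : cU F ρ j = 0 := by
  unfold cU
  rw [if_neg h]

/-- The nilpotent part of the model element. -/
def nU {d : ℕ} (ρ : ℕ) (hρ : ρ % 2 = 0) (hle : ρ ≤ d) : (Fin d ⊕ Fin d → F) →ₗ[F] (Fin d ⊕ Fin d → F) where
  toFun v := Sum.elim (fun j => cU F ρ j * v (Sum.inr (tauU ρ hρ hle j))) (fun _ => 0)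
  map_add' a b := by
    funext j
    rcases j with j | j <;> simp [mul_add]
  map_smul' c a := by
    funext j
    rcases j with j | j
    · simp
      ring
    · simp

variable {F}
variable {d ρ : ℕ} (hρ : ρ % 2 = 0) (hle : ρ ≤ d)

theorem nU_inl (v : Fin d ⊕ Fin d → F) (j : Fin d) : nU F ρ hρ hle v (Sum.inl j) = cU F ρ j * v (Sum.inr (tauU ρ hρ hle j)) := rfl

theorem nU_inr (v : Fin d ⊕ Fin d → F) (j : Fin d) : nU F ρ hρ hle v (Sum.inr j) = 0 := rfl

theorem nU_nU (v : Fin d ⊕ Fin d → F) : nU F ρ hρ hle (nU F ρ hρ hle v) = 0 := by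
  funext j
  rcases j with j | j
  · rw [nU_inl, nU_inr]
    simp
  · rw [nU_inr]
    rfl

theorem plusQ_nU (v : Fin d ⊕ Fin d → F) : plusQ d F (nU F ρ hρ hle v) = 0 := by
  rw [plusQ_apply]
  unfold Cfsg.quadFormPlus
  apply Finset.sum_eq_zero
  intro j _
  rw [nU_inr, mul_zero]

theorem plusQ_add_nU (v : Fin d ⊕ Fin d → F) : plusQ d F (v + nU F ρ hρ hle v) = plusQ d F v := by
  classical
  rw [plusQ_apply, plusQ_apply]
  unfold Cfsg.quadFormPlus
  have h1 : ∀ j : Fin d, (v + nU F ρ hρ hle v) (Sum.inl j) * (v + nU F ρ hρ hle v) (Sum.inr j) =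
      v (Sum.inl j) * v (Sum.inr j) + cU F ρ j * v (Sum.inr (tauU ρ hρ hle j)) * v (Sum.inr j) := by
    intro j
    simp only [Pi.add_apply, nU_inl, nU_inr, add_zero]
    ring
  rw [Finset.sum_congr rfl fun j _ => h1 j, Finset.sum_add_distrib]
  have h3 : ∑ j : Fin d, cU F ρ j * v (Sum.inr (tauU ρ hρ hle j)) * v (Sum.inr j) = 0 := by
    refine Finset.sum_involution (fun j _ => tauU ρ hρ hle j) (fun j _ => ?_) (fun j _ h0 h5 => ?_) (fun j _ => Finset.mem_univ _) (fun j _ => tauU_tauU ρ hρ hle j)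
    · rw [cU_tau F ρ hρ hle, tauU_tauU]
      ring
    · apply h0
      by_cases h6 : j.val < ρ
      · exfalso
        have h7 := congrArg Fin.val h5
        rw [tauU_val] at h7
        split_ifs at h7 <;> omega
      · rw [cU_zero F ρ j h6]
        ring
  rw [h3, add_zero]

/-- The model element. -/
noncomputable def tU : (Fin d ⊕ Fin d → F) ≃ₗ[F] (Fin d ⊕ Fin d → F) where
  toFun v := v + nU F ρ hρ hle v
  map_add' a b := by
    rw [map_add]
    abel
  map_smul' c a := by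
    rw [map_smul]
    simp
  invFun v := v - nU F ρ hρ hle v
  left_inv v := by
    show v + nU F ρ hρ hle v - nU F ρ hρ hle (v + nU F ρ hρ hle v) = v
    rw [map_add, nU_nU]
    abel
  right_inv v := by
    show v - nU F ρ hρ hle v + nU F ρ hρ hle (v - nU F ρ hρ hle v) = v
    rw [map_sub, nU_nU]
    abel

theorem tU_apply (v : Fin d ⊕ Fin d → F) : tU hρ hle v = v + nU F ρ hρ hle v := rfl

/-- The rank of the nilpotent part. -/
theorem finrank_range_nU : finrank F (LinearMap.range (nU F ρ hρ hle)) = ρ := by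
  classical
  let tF : (Fin ρ → F) → Fin d → F := fun f j => if h : j.val < ρ then f ⟨j.val, h⟩ else 0
  let L : (Fin ρ → F) →ₗ[F] (Fin d ⊕ Fin d → F) :=
    { toFun := fun f => Sum.elim (tF f) (fun _ => 0)
      map_add' := fun a b => by
        funext j
        rcases j with j | j
        · simp only [Sum.elim_inl, Pi.add_apply, tF]
          split_ifs <;> simp
        · simp
      map_smul' := fun c a => by
        funext j
        rcases j with j | j
        · simp only [Sum.elim_inl, Pi.smul_apply, tF, RingHom.id_apply, smul_eq_mul]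
          split_ifs <;> simp
        · simp }
  have hLa : ∀ f j, L f (Sum.inl j) = tF f j := fun _ _ => rfl
  have hLb : ∀ f j, L f (Sum.inr j) = 0 := fun _ _ => rfl
  have hLi : Function.Injective L := by
    intro a b hab
    funext i
    have h1 := congrFun hab (Sum.inl ⟨i.val, by omega⟩)
    rw [hLa, hLa] at h1
    simpa [tF] using h1
  have hr : LinearMap.range (nU F ρ hρ hle) = LinearMap.range L := by
    apply le_antisymm
    · rintro _ ⟨v, rfl⟩
      refine ⟨fun i => cU F ρ (⟨i.val, by omega⟩ : Fin d) * v (Sum.inr (tauU ρ hρ hle ⟨i.val, by omega⟩)), ?_⟩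
      funext j
      rcases j with j | j
      · rw [hLa, nU_inl]
        by_cases h : j.val < ρ
        · simp [tF, h]
        · simp [tF, h, cU_zero F ρ j h]
      · rw [hLb, nU_inr]
    · rintro _ ⟨f, rfl⟩
      refine ⟨Sum.elim (fun _ => 0) (fun k => cU F ρ (tauU ρ hρ hle k) * tF f (tauU ρ hρ hle k)), ?_⟩
      funext j
      rcases j with j | j
      · rw [hLa, nU_inl]
        simp only [Sum.elim_inr, tauU_tauU]
        by_cases h : j.val < ρ
        · rw [← mul_assoc, cU_sq F ρ j h, one_mul]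
        · simp [tF, h]
      · rw [hLb, nU_inr]
  rw [hr, LinearMap.finrank_range_of_inj hLi, Module.finrank_fin_fun]

variable {p : ℕ} [Fact p.Prime] [CharP F p]

/-- The existence of the element. -/
theorem exists_unip [Fintype F] (hd : 4 ≤ d) :
    ∃ (g : ↥(Cfsg.isometryGroup F ⇑(plusQ d F))) (X : Submodule F (Fin d ⊕ Fin d → F)), g ∈ Cfsg.Omega F ⇑(plusQ d F) ∧ g ^ p = 1 ∧
      (∀ z : F, ((g : GL (Fin d ⊕ Fin d) F) : Matrix (Fin d ⊕ Fin d) (Fin d ⊕ Fin d) F) ≠ z • (1 : Matrix (Fin d ⊕ Fin d) (Fin d ⊕ Fin d) F)) ∧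
      (∀ x ∈ X, plusQ d F x = 0) ∧ d ≤ finrank F X + 1 ∧ (Even d → d ≤ finrank F X) ∧ (∀ v, act g v - v ∈ X) ∧ (∀ x ∈ X, ∃ v, x = act g v - v) := by
  classical
  obtain ⟨ρ, hρdef⟩ : ∃ ρ, ρ = if d % 2 = 0 then d else d - 1 := ⟨_, rfl⟩
  have hρ : ρ % 2 = 0 := by
    rw [hρdef]
    split_ifs <;> omega
  have hle : ρ ≤ d := by
    rw [hρdef]
    split_ifs <;> omega
  have hρd : d ≤ ρ + 1 := by
    rw [hρdef]
    split_ifs <;> omega
  have hρe : Even d → d ≤ ρ := by
    intro h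
    rw [Nat.even_iff] at h
    rw [hρdef, if_pos h]
  have hρ2 : 2 ≤ ρ := by omega
  have hQ := polarNondeg_plusQ (F := F) d
  let T := tU (F := F) hρ hle
  have hTQ : ∀ v, plusQ d F (T v) = plusQ d F v := plusQ_add_nU hρ hle
  let g : ↥(Cfsg.isometryGroup F ⇑(plusQ d F)) := ⟨glOfEquiv T, (mem_isometryGroup_iff (plusQ d F) _).2 (fun v => by
    rw [glOfEquiv_mulVec]
    exact hTQ v)⟩
  have hact : ∀ v, act g v = v + nU F ρ hρ hle v := fun v => glOfEquiv_mulVec T v
  have hpow : ∀ (n : ℕ) v, act (g ^ n) v = v + (n : F) • nU F ρ hρ hle v := by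
    intro n
    induction n with
    | zero =>
      intro v
      simp [act_one]
    | succ n ih =>
      intro v
      rw [pow_succ, act_mul, hact, ih, map_add, nU_nU]
      push_cast
      rw [add_smul, one_smul]
      abel
  have hgp : g ^ p = 1 := by
    apply ext_act
    intro v
    rw [hpow, act_one, CharP.cast_eq_zero, zero_smul, add_zero]
  have hcard : Fintype.card (Fin d ⊕ Fin d) = 2 * d := by
    simp [Fintype.card_sum]
    ring
  haveI hne : Nonempty (Fin d ⊕ Fin d) := ⟨Sum.inl ⟨0, by omega⟩⟩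
  have hX := finrank_range_nU (F := F) hρ hle
  refine ⟨g, LinearMap.range (nU F ρ hρ hle), ?_, hgp, fun z hz => ?_, ?_, by omega, fun h => by have := hρe h; omega, ?_, ?_⟩
  · by_cases hp2 : p = 2
    · subst hp2
      rw [Cfsg.Agent.Lib.Classical.Orth.DicksonRank.mem_omega_iff_rank_even (nondeg_of_polarNondeg _ hQ) (Or.inr (by omega)) g]
      have h1 : Matrix.mulVecLin (((g : GL (Fin d ⊕ Fin d) F) : Matrix (Fin d ⊕ Fin d) (Fin d ⊕ Fin d) F) - 1) = nU F ρ hρ hle := by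
        apply LinearMap.ext
        intro v
        rw [Matrix.mulVecLin_apply, Matrix.sub_mulVec, Matrix.one_mulVec]
        show act g v - v = _
        rw [hact]
        abel
      have h3 : (((g : GL (Fin d ⊕ Fin d) F) : Matrix (Fin d ⊕ Fin d) (Fin d ⊕ Fin d) F) - 1).rank = ρ := by
        unfold Matrix.rank
        rw [h1, hX]
      rw [h3, Nat.even_iff]
      exact hρ
    · have hpo : Odd p := (Fact.out : p.Prime).odd_of_ne_two hp2
      exact mem_omega_of_odd_order (p := p) hQ (by omega) hne g hpo hgp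
  · -- not a scalar
    have hact' : ∀ w, act g w = z • w := by
      intro w
      show ((g : GL (Fin d ⊕ Fin d) F) : Matrix (Fin d ⊕ Fin d) (Fin d ⊕ Fin d) F) *ᵥ w = _
      rw [hz, Matrix.smul_mulVec, Matrix.one_mulVec]
    obtain ⟨j₀, hj₀⟩ : ∃ j₀ : Fin d, j₀ = ⟨0, by omega⟩ := ⟨_, rfl⟩
    have hj₀v : j₀.val = 0 := by rw [hj₀]
    have h1 := hact' (Pi.single (Sum.inr (tauU ρ hρ hle j₀)) 1)
    rw [hact] at h1
    have h3 := congrFun h1 (Sum.inr (tauU ρ hρ hle j₀))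
    simp only [Pi.add_apply, nU_inr, add_zero, Pi.smul_apply, Pi.single_eq_same, smul_eq_mul, mul_one] at h3
    have h5 := congrFun h1 (Sum.inl j₀)
    simp only [Pi.add_apply, nU_inl, Pi.smul_apply, Pi.single_eq_same, smul_eq_mul, mul_one] at h5
    have h6 : cU F ρ j₀ = 1 := by
      unfold cU
      rw [if_pos (by omega), if_pos (by omega)]
    simp [h6] at h5
  · rintro _ ⟨v, rfl⟩
    exact plusQ_nU hρ hle v
  · intro v
    rw [hact, add_sub_cancel_left]
    exact ⟨v, rfl⟩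
  · rintro _ ⟨v, rfl⟩
    exact ⟨v, by rw [hact, add_sub_cancel_left]⟩

end Model

section Abstract

variable {ι' : Type} [Fintype ι'] [DecidableEq ι'] {F : Type u} [Field F] [Fintype F]
variable {Q : QuadraticForm F (ι' → F)}

/-- The dimensions of the intersections of an invariant subspace and its complement with the image of `g - 1`. -/
theorem unip_dims (hQ : PolarNondeg Q) {d : ℕ} (hcard : Fintype.card ι' = 2 * d) (g : ↥(Cfsg.isometryGroup F ⇑Q)) (X : Submodule F (ι' → F))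
    (hXts : ∀ x ∈ X, Q x = 0) (hX : ∀ v, act g v - v ∈ X) (hXr : ∀ x ∈ X, ∃ v, x = act g v - v)
    (W : Submodule F (ι' → F)) (hn : PolarNondeg (Q.comp W.subtype)) (hinv : ∀ w ∈ W, act g w ∈ W) :
    ∃ W' : Submodule F (ι' → F), W ⊔ W' = ⊤ ∧ W ⊓ W' = ⊥ ∧ (∀ a ∈ W, ∀ b ∈ W', polar Q a b = 0) ∧ finrank F W + finrank F W' = 2 * d ∧
      PolarNondeg (Q.comp W'.subtype) ∧ 2 * finrank F ↥(W ⊓ X) ≤ finrank F W ∧ 2 * finrank F ↥(W' ⊓ X) ≤ finrank F W' ∧
      finrank F X ≤ finrank F ↥(W ⊓ X) + finrank F ↥(W' ⊓ X) := by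
  classical
  obtain ⟨P, hP, hsup, hinf, hd, hPn⟩ := exists_orth_gen Q hQ W hn
  rw [Module.finrank_fintype_fun_eq_card, hcard] at hd
  have hgW : gMap g W = W := gMap_eq_of_le hinv
  have hPx : ∀ y ∈ P, act g y ∈ P := by
    intro y hy
    rw [hP]
    intro a ha
    rw [← hgW] at ha
    obtain ⟨a', ha', rfl⟩ := mem_gMap.1 ha
    rw [polar_act]
    exact (hP y).1 hy a' ha'
  refine ⟨P, hsup, hinf, fun a ha b hb => (hP b).1 hb a ha, hd, hPn, two_mul_le_of_ts hn hXts, two_mul_le_of_ts hPn hXts, ?_⟩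
  have hle : X ≤ (W ⊓ X) ⊔ (P ⊓ X) := by
    intro x hx
    obtain ⟨v, rfl⟩ := hXr x hx
    have hv : v ∈ W ⊔ P := by
      rw [hsup]
      exact Submodule.mem_top
    obtain ⟨a, ha, b, hb, rfl⟩ := Submodule.mem_sup.1 hv
    have h1 : act g (a + b) - (a + b) = (act g a - a) + (act g b - b) := by
      rw [act_add]
      abel
    rw [h1]
    exact Submodule.add_mem _ (Submodule.mem_sup_left ⟨W.sub_mem (hinv a ha) ha, hX a⟩)
      (Submodule.mem_sup_right ⟨P.sub_mem (hPx b hb) hb, hX b⟩)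
  have h1 := Submodule.finrank_mono hle
  have h3 := Submodule.finrank_add_le_finrank_add_finrank (W ⊓ X) (P ⊓ X)
  omega

/-- Invariant nondegenerate subspaces of even dimension are hyperbolic for this element. -/
theorem plus_of_unip (hQ : PolarNondeg Q) {d : ℕ} (hcard : Fintype.card ι' = 2 * d) (hL : Lag Q) (g : ↥(Cfsg.isometryGroup F ⇑Q)) (X : Submodule F (ι' → F))
    (hXts : ∀ x ∈ X, Q x = 0) (hXd : d ≤ finrank F X + 1) (hX : ∀ v, act g v - v ∈ X) (hXr : ∀ x ∈ X, ∃ v, x = act g v - v)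
    (W : Submodule F (ι' → F)) (hn : PolarNondeg (Q.comp W.subtype)) (hinv : ∀ w ∈ W, act g w ∈ W) (hev : Even (finrank F W)) :
    Lag (Q.comp W.subtype) := by
  obtain ⟨W', hsup, hinf, horth, hd, hPn, h1, h3, h4⟩ := unip_dims hQ hcard g X hXts hX hXr W hn hinv
  obtain ⟨e, he⟩ := hev
  by_cases h0 : 2 * finrank F ↥(W ⊓ X) = finrank F W
  · have h5 : Cfsg.Geo.IsPlusTypeOn (⇑Q) W := ⟨W ⊓ X, inf_le_left, fun u hu => hXts u hu.2, h0⟩
    exact (lag_iff_plus hn).1 h5
  · have h5 : 2 * finrank F ↥(W' ⊓ X) = finrank F W' := by omega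
    have h6 : Cfsg.Geo.IsPlusTypeOn (⇑Q) W' := ⟨W' ⊓ X, inf_le_left, fun u hu => hXts u hu.2, h5⟩
    have h7 := (lag_iff_plus hPn).1 h6
    have h8 := lag_sup_iff' hQ hsup hinf horth (a := e) (b := d - e) (by omega) (by omega)
    exact ((h8.1 hL).2 h7)

/-- The oddness of the dimension is impossible when the rank is `d`. -/
theorem even_of_unip (hQ : PolarNondeg Q) {d : ℕ} (hcard : Fintype.card ι' = 2 * d) (g : ↥(Cfsg.isometryGroup F ⇑Q)) (X : Submodule F (ι' → F))
    (hXts : ∀ x ∈ X, Q x = 0) (hXd : d ≤ finrank F X) (hX : ∀ v, act g v - v ∈ X) (hXr : ∀ x ∈ X, ∃ v, x = act g v - v)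
    (W : Submodule F (ι' → F)) (hn : PolarNondeg (Q.comp W.subtype)) (hinv : ∀ w ∈ W, act g w ∈ W) : Even (finrank F W) := by
  obtain ⟨W', hsup, hinf, horth, hd, hPn, h1, h3, h4⟩ := unip_dims hQ hcard g X hXts hX hXr W hn hinv
  exact ⟨finrank F ↥(W ⊓ X), by omega⟩

end Abstract

section Types

open Cfsg.Agent.Lib.Classical.OJordan.Model Cfsg.Agent.Lib.Classical.OJordan.Pipeline Cfsg.Agent.Lib.Classical.OJordan.Combi

variable {ι' : Type} [Fintype ι'] [DecidableEq ι'] {F : Type u} [Field F] [Fintype F]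
variable {Q : QuadraticForm F (ι' → F)}
variable {p : ℕ} [Fact p.Prime] [CharP F p]

/-- Odd dimensions are impossible for a suitable element, if `d` is odd. -/
theorem odd_dim_false (hQ : PolarNondeg Q) (h2F : (2 : F) ≠ 0) (hpo : Odd p) (hp1 : 1 < p) {d : ℕ} (hcard : Fintype.card ι' = 2 * d) (hd : 4 ≤ d) (hdo : Odd d)
    {m : ℕ} (hmo : Odd m) (P : Submodule F (ι' → F) → Prop)
    (H : ∀ x : GL ι' F, x ∈ Cfsg.Geo.omegaGL (⇑Q) → x ^ p = 1 → (∀ z : F, (x : Matrix ι' ι' F) ≠ z • (1 : Matrix ι' ι' F)) →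
      ∃ W : Submodule F (ι' → F), (finrank F W = m ∧ Cfsg.Geo.IsNondegenerateOn (polar (⇑Q)) W ∧ P W) ∧
        W.map (Matrix.toLin' (x : Matrix ι' ι' F)) ≤ W) : False := by
  classical
  have hp3 : 3 ≤ p := by
    obtain ⟨c, hc⟩ := hpo
    omega
  have hQb := nondeg_of_polarNondeg Q hQ
  have hV : finrank F (ι' → F) = 2 * d := by
    rw [Module.finrank_fintype_fun_eq_card, hcard]
  obtain ⟨d', hd'⟩ := hdo
  obtain ⟨m', hm'⟩ := hmo
  by_cases hm4 : m % 4 = 1
  · -- the type `3, 3, 2^(d - 3)`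
    have hT : HasType Q (3 ::ₘ 3 ::ₘ Multiset.replicate (d - 3) 2) :=
      hasType_of_odd_part h2F Q hQb ⟨d, by omega⟩ (by
        intro x hx
        rw [Multiset.mem_cons, Multiset.mem_cons, Multiset.mem_replicate] at hx
        rcases hx with rfl | rfl | ⟨-, rfl⟩ <;> omega)
        (by
          rw [hV]
          simp only [Multiset.sum_cons, Multiset.sum_replicate, smul_eq_mul]
          omega) (even_count_model (by decide) (by decide) ⟨d' - 1, by omega⟩) (a := 3) (Multiset.mem_cons_self _ _) (by decide)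
    obtain ⟨ν, hle, hs, hpar, hpos, -⟩ := pipeline Q hQb h2F hpo P H (μ := 3 ::ₘ 3 ::ₘ Multiset.replicate (d - 3) 2)
      (by
        intro x hx
        rw [Multiset.mem_cons, Multiset.mem_cons, Multiset.mem_replicate] at hx
        rcases hx with rfl | rfl | ⟨-, rfl⟩ <;> omega)
      ⟨3, Multiset.mem_cons_self _ _, by omega⟩ hT
    have hmem : ∀ x ∈ ν, x = 1 ∨ x = 2 ∨ x = 3 := by
      intro x hx
      have := Multiset.mem_of_le hle hx
      rw [Multiset.mem_cons, Multiset.mem_cons, Multiset.mem_replicate] at this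
      rcases this with h | h | ⟨-, h⟩ <;> omega
    have h1 := sum_of_mem_123 hmem
    have h2 := Multiset.count_le_of_le 1 hle
    have h3 := Multiset.count_le_of_le 3 hle
    have e1 : (3 ::ₘ 3 ::ₘ Multiset.replicate (d - 3) 2).count 1 = 0 := by
      simp [Multiset.count_cons, Multiset.count_replicate]
    have e3 : (3 ::ₘ 3 ::ₘ Multiset.replicate (d - 3) 2).count 3 = 2 := by
      simp [Multiset.count_cons, Multiset.count_replicate]
    rw [e1] at h2
    rw [e3] at h3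
    obtain ⟨b, hb⟩ := hpar 2 even_two
    omega
  · -- the type `1, 1, 2^(d - 1)`
    have hT : HasType Q (1 ::ₘ 1 ::ₘ Multiset.replicate (d - 1) 2) :=
      hasType_of_odd_part h2F Q hQb ⟨d, by omega⟩ (by
        intro x hx
        rw [Multiset.mem_cons, Multiset.mem_cons, Multiset.mem_replicate] at hx
        rcases hx with rfl | rfl | ⟨-, rfl⟩ <;> omega)
        (by
          rw [hV]
          simp only [Multiset.sum_cons, Multiset.sum_replicate, smul_eq_mul]
          omega) (even_count_model (by decide) (by decide) ⟨d', by omega⟩) (a := 1) (Multiset.mem_cons_self _ _) (by decide)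
    obtain ⟨ν, hle, hs, hpar, hpos, -⟩ := pipeline Q hQb h2F hpo P H (μ := 1 ::ₘ 1 ::ₘ Multiset.replicate (d - 1) 2)
      (by
        intro x hx
        rw [Multiset.mem_cons, Multiset.mem_cons, Multiset.mem_replicate] at hx
        rcases hx with rfl | rfl | ⟨-, rfl⟩ <;> omega)
      ⟨2, by
        rw [Multiset.mem_cons, Multiset.mem_cons, Multiset.mem_replicate]
        exact Or.inr (Or.inr ⟨by omega, rfl⟩), le_rfl⟩ hT
    have hmem : ∀ x ∈ ν, x = 1 ∨ x = 2 ∨ x = 3 := by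
      intro x hx
      have := Multiset.mem_of_le hle hx
      rw [Multiset.mem_cons, Multiset.mem_cons, Multiset.mem_replicate] at this
      rcases this with h | h | ⟨-, h⟩ <;> omega
    have h1 := sum_of_mem_123 hmem
    have h2 := Multiset.count_le_of_le 1 hle
    have h3 := Multiset.count_le_of_le 3 hle
    have e1 : (1 ::ₘ 1 ::ₘ Multiset.replicate (d - 1) 2).count 1 = 2 := by
      simp [Multiset.count_cons, Multiset.count_replicate]
    have e3 : (1 ::ₘ 1 ::ₘ Multiset.replicate (d - 1) 2).count 3 = 0 := by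
      simp [Multiset.count_cons, Multiset.count_replicate]
    rw [e1] at h2
    rw [e3] at h3
    obtain ⟨b, hb⟩ := hpar 2 even_two
    omega

/-- From the statement with scalars to elements with `x ^ p = 1`. -/
theorem reduce_p {m : ℕ} (P : Submodule F (ι' → F) → Prop)
    (H : ∀ x : GL ι' F, x ∈ Cfsg.Geo.omegaGL (⇑Q) → (∃ z : F, ((x ^ p : GL ι' F) : Matrix ι' ι' F) = z • (1 : Matrix ι' ι' F)) →
      (∀ z : F, (x : Matrix ι' ι' F) ≠ z • (1 : Matrix ι' ι' F)) →
      ∃ W : Submodule F (ι' → F), (finrank F W = m ∧ Cfsg.Geo.IsNondegenerateOn (polar (⇑Q)) W ∧ P W) ∧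
        W.map (Matrix.toLin' (x : Matrix ι' ι' F)) ≤ W) :
    ∀ x : GL ι' F, x ∈ Cfsg.Geo.omegaGL (⇑Q) → x ^ p = 1 → (∀ z : F, (x : Matrix ι' ι' F) ≠ z • (1 : Matrix ι' ι' F)) →
      ∃ W : Submodule F (ι' → F), (finrank F W = m ∧ Cfsg.Geo.IsNondegenerateOn (polar (⇑Q)) W ∧ P W) ∧
        W.map (Matrix.toLin' (x : Matrix ι' ι' F)) ≤ W :=
  fun x hx hxp hz => H x hx ⟨1, by rw [hxp]; simp⟩ hz

end Types

section Final

variable {F : Type u} [Field F] [Fintype F] {p : ℕ} [Fact p.Prime] [CharP F p]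

/-- No invariant elliptic subspaces for the model element. -/
theorem unip_elliptic_false {d m : ℕ} (hd : 4 ≤ d) (hme : Even m)
    (H : ∀ x : GL (Fin d ⊕ Fin d) F, x ∈ Cfsg.Geo.omegaGL (⇑(plusQ d F)) →
      (∃ z : F, ((x ^ p : GL (Fin d ⊕ Fin d) F) : Matrix (Fin d ⊕ Fin d) (Fin d ⊕ Fin d) F) = z • (1 : Matrix (Fin d ⊕ Fin d) (Fin d ⊕ Fin d) F)) →
      (∀ z : F, (x : Matrix (Fin d ⊕ Fin d) (Fin d ⊕ Fin d) F) ≠ z • (1 : Matrix (Fin d ⊕ Fin d) (Fin d ⊕ Fin d) F)) →
      ∃ W : Submodule F (Fin d ⊕ Fin d → F), (finrank F W = m ∧ Cfsg.Geo.IsNondegenerateOn (polar (⇑(plusQ d F))) W ∧ ¬ Cfsg.Geo.IsPlusTypeOn (⇑(plusQ d F)) W) ∧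
        W.map (Matrix.toLin' (x : Matrix (Fin d ⊕ Fin d) (Fin d ⊕ Fin d) F)) ≤ W) : False := by
  classical
  obtain ⟨g, X, hgΩ, hgp, hns, hXts, hXd, -, hX, hXr⟩ := exists_unip (F := F) (p := p) hd
  have hQ := polarNondeg_plusQ (F := F) d
  have hcard : Fintype.card (Fin d ⊕ Fin d) = 2 * d := by
    simp [Fintype.card_sum]
    ring
  obtain ⟨W, ⟨h1, h3, h4⟩, h5⟩ := H (g : GL (Fin d ⊕ Fin d) F) (Subgroup.mem_map_of_mem _ hgΩ)
    ⟨1, by
      have h6 : (g : GL (Fin d ⊕ Fin d) F) ^ p = 1 := by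
        rw [← Subgroup.coe_pow, hgp]
        rfl
      rw [h6]
      simp⟩ hns
  have hn := polarNondeg_of_on h3
  apply h4
  rw [lag_iff_plus hn]
  exact plus_of_unip hQ hcard (lag_plusQ d) g X hXts hXd hX hXr W hn (fun w hw => h5 ⟨w, hw, rfl⟩) (by rw [h1]; exact hme)

/-- No invariant subspaces of odd dimension for the model element, if `d` is even. -/
theorem unip_odd_false {d m : ℕ} (hd : 4 ≤ d) (hdev : Even d) (hmo : ¬ Even m) (P : Submodule F (Fin d ⊕ Fin d → F) → Prop)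
    (H : ∀ x : GL (Fin d ⊕ Fin d) F, x ∈ Cfsg.Geo.omegaGL (⇑(plusQ d F)) →
      (∃ z : F, ((x ^ p : GL (Fin d ⊕ Fin d) F) : Matrix (Fin d ⊕ Fin d) (Fin d ⊕ Fin d) F) = z • (1 : Matrix (Fin d ⊕ Fin d) (Fin d ⊕ Fin d) F)) →
      (∀ z : F, (x : Matrix (Fin d ⊕ Fin d) (Fin d ⊕ Fin d) F) ≠ z • (1 : Matrix (Fin d ⊕ Fin d) (Fin d ⊕ Fin d) F)) →
      ∃ W : Submodule F (Fin d ⊕ Fin d → F), (finrank F W = m ∧ Cfsg.Geo.IsNondegenerateOn (polar (⇑(plusQ d F))) W ∧ P W) ∧
        W.map (Matrix.toLin' (x : Matrix (Fin d ⊕ Fin d) (Fin d ⊕ Fin d) F)) ≤ W) : False := by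
  classical
  obtain ⟨g, X, hgΩ, hgp, hns, hXts, -, hXd, hX, hXr⟩ := exists_unip (F := F) (p := p) hd
  have hQ := polarNondeg_plusQ (F := F) d
  have hcard : Fintype.card (Fin d ⊕ Fin d) = 2 * d := by
    simp [Fintype.card_sum]
    ring
  obtain ⟨W, ⟨h1, h3, h4⟩, h5⟩ := H (g : GL (Fin d ⊕ Fin d) F) (Subgroup.mem_map_of_mem _ hgΩ)
    ⟨1, by
      have h6 : (g : GL (Fin d ⊕ Fin d) F) ^ p = 1 := by
        rw [← Subgroup.coe_pow, hgp]
        rfl
      rw [h6]
      simp⟩ hns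
  have h6 := even_of_unip hQ hcard g X hXts (hXd hdev) hX hXr W (polarNondeg_of_on h3) (fun w hw => h5 ⟨w, hw, rfl⟩)
  rw [h1] at h6
  exact hmo h6

end Final

end Cfsg.Agent.Lib.Classical.OSemi.NondegP
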