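import Mathlib
import Cfsg.Agent.Lib.Classical.OSemi.NondegP

/-!
# Existence of elements of `Ω` with square `-1`
-/

set_option autoImplicit false
set_option linter.unusedSectionVars false
set_option linter.unusedSimpArgs false
set_option linter.unusedVariables false
set_option linter.style.haveILetI false
set_option maxHeartbeats 1000000

open Module QuadraticMap Matrix
open Cfsg Cfsg.Agent.Lib.Classical.Witt.Hyp Cfsg.Agent.Lib.Linalg.OrthModels Cfsg.Agent.Lib.Linalg.Bridge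
open Cfsg.Agent.Lib.Classical.OSemi.Lag Cfsg.Agent.Lib.Classical.OSemi.LagFree
open Cfsg.Agent.Lib.Classical.OSemi.Decomp Cfsg.Agent.Lib.Classical.OSemi.Coprime
open Cfsg.Agent.Lib.Classical.OSemi.SingJ Cfsg.Agent.Lib.Classical.OSemi.SingInvE Cfsg.Agent.Lib.Classical.OSemi.SingFinal
open Cfsg.Agent.Lib.Classical.OSemi.NondegJ
open Cfsg.Agent.Lib.Classical.Orth.Basic

namespace Cfsg.Agent.Lib.Classical.OSemi.NondegK

universe u

variable {F : Type u} [Field F] [Fintype F] {p : ℕ} [Fact p.Prime] [CharP F p]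

/-- The elements of `Ω⁺` with square `-1`. -/
theorem exists_J_omega_plus {q : ℕ} (hq : Fintype.card F = q) (hp2 : p ≠ 2) {d : ℕ} (hd : 4 ≤ d) (hnot : ¬ (Odd d ∧ q % 8 ≠ 1)) :
    ∃ g : ↥(Cfsg.isometryGroup F ⇑(plusQ d F)), g ∈ Cfsg.Omega F ⇑(plusQ d F) ∧ ∀ v, act g (act g v) = -v := by
  classical
  have hQ := polarNondeg_plusQ (F := F) d
  have hcard : Fintype.card (Fin d ⊕ Fin d) = 2 * d := by
    simp [Fintype.card_sum]
    ring
  have hL : Lag (plusQ d F) := lag_plusQ d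
  obtain ⟨h2, hq2, hsq, hsq2⟩ := odd_facts (p := p) hq hp2
  by_cases hq4 : q % 4 = 3
  · have hns : ¬ IsSquare (-1 : F) := fun h => (hsq.1 h) hq4
    have hev : Even d := by
      by_contra h0
      refine hnot ⟨Nat.not_even_iff_odd.1 h0, ?_⟩
      omega
    obtain ⟨e, he⟩ := hev
    obtain ⟨g, hg⟩ := exists_J h2 hns hQ hcard (by omega) (iff_of_true hL ⟨e, he⟩)
    exact ⟨g, (J_facts h2 hQ hcard g hg).2.2 ⟨2 ^ e, by rw [he, pow_add]⟩, hg⟩
  · have hs : IsSquare (-1 : F) := hsq.2 hq4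
    obtain ⟨s, hs⟩ := hs
    obtain ⟨g, hg⟩ := exists_J_plus hs.symm d
    have hsq' : IsSquare ((2 : F) ^ d) := by
      by_cases hev : Even d
      · obtain ⟨e, he⟩ := hev
        exact ⟨2 ^ e, by rw [he, pow_add]⟩
      · have h3 : q % 8 = 1 := by
          by_contra h0
          exact hnot ⟨Nat.not_even_iff_odd.1 hev, h0⟩
        have h4 : IsSquare (2 : F) := hsq2.2 (by omega)
        exact h4.pow d
    exact ⟨g, (J_facts h2 hQ hcard g hg).2.2 hsq', hg⟩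

/-- No elements of `Ω⁺` with square `-1`. -/
theorem no_J_plus {q : ℕ} (hq : Fintype.card F = q) (hp2 : p ≠ 2) {d : ℕ} (hd : 4 ≤ d) (h : Odd d ∧ q % 8 ≠ 1)
    (g : ↥(Cfsg.isometryGroup F ⇑(plusQ d F))) (hg : g ∈ Cfsg.Omega F ⇑(plusQ d F)) (hJ : ∀ v, act g (act g v) = -v) : False := by
  classical
  have hQ := polarNondeg_plusQ (F := F) d
  have hcard : Fintype.card (Fin d ⊕ Fin d) = 2 * d := by
    simp [Fintype.card_sum]
    ring
  have hL : Lag (plusQ d F) := lag_plusQ d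
  obtain ⟨h2, hq2, hsq, hsq2⟩ := odd_facts (p := p) hq hp2
  obtain ⟨hodd, hq8⟩ := h
  obtain ⟨h3, h4⟩ := J_facts h2 hQ hcard g hJ
  have hsqd := h4.1 hg
  have hS := isSquare_two_of_pow h2 (Nat.not_even_iff_odd.2 hodd) hsqd
  obtain ⟨h5, h6⟩ := hsq2.1 hS
  have hq4 : q % 4 = 3 := by omega
  have hnsq : ¬ IsSquare (-1 : F) := fun h => (hsq.1 h) hq4
  exact (Nat.not_even_iff_odd.2 hodd) ((h3 hnsq).1 hL)

section Gen

variable {ι' : Type} [Fintype ι'] [DecidableEq ι']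
variable {Q : QuadraticForm F (ι' → F)}

/-- The elements of `Ω⁻` with square `-1`. -/
theorem exists_J_omega_minus {q : ℕ} (hq : Fintype.card F = q) (hp2 : p ≠ 2) (hQ : PolarNondeg Q) {d : ℕ} (hcard : Fintype.card ι' = 2 * d) (hd : 4 ≤ d)
    (hL : ¬ Lag Q) (h : Odd d ∧ q % 8 = 7) :
    ∃ g : ↥(Cfsg.isometryGroup F ⇑Q), g ∈ Cfsg.Omega F ⇑Q ∧ ∀ v, act g (act g v) = -v := by
  classical
  obtain ⟨h2, hq2, hsq, hsq2⟩ := odd_facts (p := p) hq hp2
  obtain ⟨hodd, hq8⟩ := h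
  have hns : ¬ IsSquare (-1 : F) := fun h => (hsq.1 h) (by omega)
  have hS : IsSquare (2 : F) := hsq2.2 (by omega)
  obtain ⟨g, hg⟩ := exists_J h2 hns hQ hcard (by omega) (iff_of_false hL (Nat.not_even_iff_odd.2 hodd))
  exact ⟨g, (J_facts h2 hQ hcard g hg).2.2 (hS.pow d), hg⟩

/-- No elements of `Ω⁻` with square `-1`. -/
theorem no_J_minus {q : ℕ} (hq : Fintype.card F = q) (hp2 : p ≠ 2) (hQ : PolarNondeg Q) {d : ℕ} (hcard : Fintype.card ι' = 2 * d)
    (hL : ¬ Lag Q) (h : Even d ∨ q % 8 ≠ 7)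
    (g : ↥(Cfsg.isometryGroup F ⇑Q)) (hg : g ∈ Cfsg.Omega F ⇑Q) (hJ : ∀ v, act g (act g v) = -v) : False := by
  classical
  obtain ⟨h2, hq2, hsq, hsq2⟩ := odd_facts (p := p) hq hp2
  obtain ⟨h3, h4⟩ := J_facts h2 hQ hcard g hJ
  by_cases hq4 : q % 4 = 3
  · have hnsq : ¬ IsSquare (-1 : F) := fun h => (hsq.1 h) hq4
    have h5 := h3 hnsq
    have hodd : ¬ Even d := fun h6 => hL (h5.2 h6)
    have hsqd := h4.1 hg
    have hS := isSquare_two_of_pow h2 hodd hsqd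
    obtain ⟨h6, h7⟩ := hsq2.1 hS
    rcases h with h | h
    · exact hodd h
    · omega
  · have hs : IsSquare (-1 : F) := hsq.2 hq4
    obtain ⟨s, hs⟩ := hs
    exact hL (J_split h2 hQ hcard g hJ hs.symm).1

end Gen

end Cfsg.Agent.Lib.Classical.OSemi.NondegK
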