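import Mathlib
import Cfsg.Agent.Lib.Classical.OSemi.NondegK

/-!
# Involutions of `PΩ` and nondegenerate even dimensional subspaces of a given type, odd characteristic
-/

set_option autoImplicit false
set_option linter.unusedSectionVars false
set_option linter.unusedSimpArgs false
set_option linter.unusedVariables false
set_option linter.style.haveILetI false
set_option maxHeartbeats 1000000

open Module QuadraticMap Matrix
open Cfsg Cfsg.Agent.Lib.Classical.Witt.Hyp Cfsg.Agent.Lib.Linalg.OrthModels Cfsg.Agent.Lib.Linalg.Bridge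
open Cfsg.Agent.Lib.Classical.OSemi.Lag Cfsg.Agent.Lib.Classical.OSemi.LagFree
open Cfsg.Agent.Lib.Classical.OSemi.Decomp Cfsg.Agent.Lib.Classical.OSemi.Coprime
open Cfsg.Agent.Lib.Classical.OSemi.SingJ Cfsg.Agent.Lib.Classical.OSemi.SingInvE Cfsg.Agent.Lib.Classical.OSemi.SingFinal
open Cfsg.Agent.Lib.Classical.OSemi.NondegJ Cfsg.Agent.Lib.Classical.OSemi.NondegK Cfsg.Agent.Lib.Classical.OSemi.Invol
open Cfsg.Agent.Lib.Classical.Orth.Basic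

namespace Cfsg.Agent.Lib.Classical.OSemi.NondegR

universe u

variable {F : Type u} [Field F] [Fintype F] {p : ℕ} [Fact p.Prime] [CharP F p]

/-- The subspace with the given type from `A`. -/
theorem on_of_polarNondeg {ι' : Type} [Fintype ι'] [DecidableEq ι'] {Q : QuadraticForm F (ι' → F)} {A : Submodule F (ι' → F)}
    (h6 : PolarNondeg (Q.comp A.subtype)) : Cfsg.Geo.IsNondegenerateOn (polar (⇑Q)) A := by
  have h9 := (transfer Q (φ := A.subtype) h6 (fun w => rfl)).2.1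
  rwa [Submodule.range_subtype] at h9

/-- The result for `r = 2` and hyperbolic subspaces of the plus form. -/
theorem two_hyper_iff {q : ℕ} (hq : Fintype.card F = q) (hp2 : p ≠ 2) {d m : ℕ} (hd : 4 ≤ d) (hm2 : 2 ≤ m) (hme : Even m) (hmd : m < d) :
    (∀ x : GL (Fin d ⊕ Fin d) F, x ∈ Cfsg.Geo.omegaGL (⇑(plusQ d F)) →
      (∃ z : F, ((x ^ 2 : GL (Fin d ⊕ Fin d) F) : Matrix (Fin d ⊕ Fin d) (Fin d ⊕ Fin d) F) = z • (1 : Matrix (Fin d ⊕ Fin d) (Fin d ⊕ Fin d) F)) →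
      (∀ z : F, (x : Matrix (Fin d ⊕ Fin d) (Fin d ⊕ Fin d) F) ≠ z • (1 : Matrix (Fin d ⊕ Fin d) (Fin d ⊕ Fin d) F)) →
      ∃ W : Submodule F (Fin d ⊕ Fin d → F), (finrank F W = m ∧ Cfsg.Geo.IsNondegenerateOn (polar (⇑(plusQ d F))) W ∧ Cfsg.Geo.IsPlusTypeOn (⇑(plusQ d F)) W) ∧
        W.map (Matrix.toLin' (x : Matrix (Fin d ⊕ Fin d) (Fin d ⊕ Fin d) F)) ≤ W) ↔
    ((2 * d) % 4 = 2 ∨ m % 4 = 0 ∨ q % 4 = 1) := by
  classical
  have hQ := polarNondeg_plusQ (F := F) d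
  have hcard : Fintype.card (Fin d ⊕ Fin d) = 2 * d := by
    simp [Fintype.card_sum]
    ring
  haveI hne : Nonempty (Fin d ⊕ Fin d) := ⟨Sum.inl ⟨0, by omega⟩⟩
  have hL : Lag (plusQ d F) := lag_plusQ d
  obtain ⟨h2, hq2, hsq, hsq2⟩ := odd_facts (p := p) hq hp2
  obtain ⟨m', hm'⟩ := hme
  constructor
  · intro H0
    by_contra hR
    obtain ⟨hR1, hR2⟩ := not_or.1 hR
    obtain ⟨hR2, hR3⟩ := not_or.1 hR2
    have hev : Even d := by
      rw [Nat.even_iff]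
      omega
    have hq4 : q % 4 = 3 := by omega
    have hns : ¬ IsSquare (-1 : F) := fun h => (hsq.1 h) hq4
    obtain ⟨e, he⟩ := hev
    obtain ⟨g, hg⟩ := exists_J h2 hns hQ hcard (by omega) (iff_of_true hL ⟨e, he⟩)
    have hgΩ : g ∈ Cfsg.Omega F ⇑(plusQ d F) := (J_facts h2 hQ hcard g hg).2.2 ⟨2 ^ e, by rw [he, pow_add]⟩
    obtain ⟨h3, h4⟩ := J_statement' h2 hQ g hg
    obtain ⟨W, ⟨h5, h6, h7⟩, h8⟩ := H0 (g : GL (Fin d ⊕ Fin d) F) (Subgroup.mem_map_of_mem _ hgΩ) h3 h4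
    have hn := polarNondeg_of_on h6
    have h9 := (J_decomp h2 g hg m' W (fun w hw => h8 ⟨w, hw, rfl⟩) hn (by omega)).1 hns
    have h10 := h9.1 ((lag_iff_plus hn).1 h7)
    rw [Nat.even_iff] at h10
    omega
  · rintro hR x ⟨g, hg, rfl⟩ ⟨z, hz⟩ hns
    have hcases : ∃ W : Submodule F (Fin d ⊕ Fin d → F), (finrank F W = m ∧ Cfsg.Geo.IsNondegenerateOn (polar (⇑(plusQ d F))) W ∧ Cfsg.Geo.IsPlusTypeOn (⇑(plusQ d F)) W) ∧
        ∀ w ∈ W, act g w ∈ W := by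
      rcases two_cases h2 hQ g hz with h1 | h1
      · obtain ⟨W, ⟨h3, h4, h5⟩, h6⟩ := invol_nondeg h2 (plusQ d F) hQ g h1 (by omega) hm2 ⟨m', hm'⟩ (by omega) True
        exact ⟨W, ⟨h3, h4, h5.2 trivial⟩, h6⟩
      · obtain ⟨h3, h4⟩ := J_facts h2 hQ hcard g h1
        obtain ⟨A, h5, h6, h7⟩ := exists_J_nondeg h2 hQ hcard g h1 m' (by omega)
        have hA := on_of_polarNondeg h6
        refine ⟨A, ⟨by omega, hA, ?_⟩, h7⟩
        by_cases hq4 : q % 4 = 3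
        · have hnsq : ¬ IsSquare (-1 : F) := fun h => (hsq.1 h) hq4
          have h8 := (J_decomp h2 g h1 m' A h7 h6 h5).1 hnsq
          rw [lag_iff_plus h6, h8]
          have h9 := (h3 hnsq).1 hL
          rw [Nat.even_iff] at h9 ⊢
          omega
        · obtain ⟨s, hs⟩ := hsq.2 hq4
          obtain ⟨U, h9, h10, h11⟩ := J_inv_half h2 g h1 hs.symm A h6 h7
          exact ⟨U, h9, h10, h11⟩
    obtain ⟨W, h1, h3⟩ := hcases
    exact ⟨W, h1, fun _ ⟨w, hw, hww⟩ => by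
      rw [← hww]
      exact h3 w hw⟩

/-- The result for `r = 2` and elliptic subspaces of the minus form. -/
theorem two_minus_iff {q : ℕ} (hq : Fintype.card F = q) (hp2 : p ≠ 2) {d m : ℕ} (hd : 4 ≤ d) (hm2 : 2 ≤ m) (hme : Even m) (hmd : m + 2 ≤ 2 * d)
    {a b : F} (hab : ∀ x y : F, x ^ 2 + a * x * y + b * y ^ 2 = 0 → x = 0 ∧ y = 0) :
    (∀ x : GL ((Fin (d - 1) ⊕ Fin (d - 1)) ⊕ Fin 2) F, x ∈ Cfsg.Geo.omegaGL (⇑(minusQ (d - 1) F a b)) →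
      (∃ z : F, ((x ^ 2 : GL ((Fin (d - 1) ⊕ Fin (d - 1)) ⊕ Fin 2) F) : Matrix ((Fin (d - 1) ⊕ Fin (d - 1)) ⊕ Fin 2) ((Fin (d - 1) ⊕ Fin (d - 1)) ⊕ Fin 2) F) = z • (1 : Matrix ((Fin (d - 1) ⊕ Fin (d - 1)) ⊕ Fin 2) ((Fin (d - 1) ⊕ Fin (d - 1)) ⊕ Fin 2) F)) →
      (∀ z : F, (x : Matrix ((Fin (d - 1) ⊕ Fin (d - 1)) ⊕ Fin 2) ((Fin (d - 1) ⊕ Fin (d - 1)) ⊕ Fin 2) F) ≠ z • (1 : Matrix ((Fin (d - 1) ⊕ Fin (d - 1)) ⊕ Fin 2) ((Fin (d - 1) ⊕ Fin (d - 1)) ⊕ Fin 2) F)) →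
      ∃ W : Submodule F ((Fin (d - 1) ⊕ Fin (d - 1)) ⊕ Fin 2 → F), (finrank F W = m ∧ Cfsg.Geo.IsNondegenerateOn (polar (⇑(minusQ (d - 1) F a b))) W ∧ ¬ Cfsg.Geo.IsPlusTypeOn (⇑(minusQ (d - 1) F a b)) W) ∧
        W.map (Matrix.toLin' (x : Matrix ((Fin (d - 1) ⊕ Fin (d - 1)) ⊕ Fin 2) ((Fin (d - 1) ⊕ Fin (d - 1)) ⊕ Fin 2) F)) ≤ W) ↔
    (Even d ∨ q % 8 ≠ 7 ∨ m % 4 = 2) := by
  classical
  have hQ := polarNondeg_minusQ (d - 1) hab
  have hcard : Fintype.card ((Fin (d - 1) ⊕ Fin (d - 1)) ⊕ Fin 2) = 2 * d := by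
    simp [Fintype.card_sum]
    omega
  haveI hne : Nonempty ((Fin (d - 1) ⊕ Fin (d - 1)) ⊕ Fin 2) := ⟨Sum.inr 0⟩
  have hL : ¬ Lag (minusQ (d - 1) F a b) := not_lag_minusQ (d - 1) hab
  obtain ⟨h2, hq2, hsq, hsq2⟩ := odd_facts (p := p) hq hp2
  obtain ⟨m', hm'⟩ := hme
  constructor
  · intro H0
    by_contra hR
    obtain ⟨hR1, hR2⟩ := not_or.1 hR
    obtain ⟨hR2, hR3⟩ := not_or.1 hR2
    have hR2' : q % 8 = 7 := not_not.1 hR2
    obtain ⟨g, hgΩ, hg⟩ := exists_J_omega_minus hq hp2 hQ hcard hd hL ⟨Nat.not_even_iff_odd.1 hR1, hR2'⟩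
    have hns : ¬ IsSquare (-1 : F) := fun h => (hsq.1 h) (by omega)
    obtain ⟨h3, h4⟩ := J_statement' h2 hQ g hg
    obtain ⟨W, ⟨h5, h6, h7⟩, h8⟩ := H0 (g : GL ((Fin (d - 1) ⊕ Fin (d - 1)) ⊕ Fin 2) F) (Subgroup.mem_map_of_mem _ hgΩ) h3 h4
    have hn := polarNondeg_of_on h6
    have h9 := (J_decomp h2 g hg m' W (fun w hw => h8 ⟨w, hw, rfl⟩) hn (by omega)).1 hns
    apply h7
    rw [lag_iff_plus hn, h9, Nat.even_iff]
    omega
  · rintro hR x ⟨g, hg, rfl⟩ ⟨z, hz⟩ hns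
    have hcases : ∃ W : Submodule F ((Fin (d - 1) ⊕ Fin (d - 1)) ⊕ Fin 2 → F), (finrank F W = m ∧ Cfsg.Geo.IsNondegenerateOn (polar (⇑(minusQ (d - 1) F a b))) W ∧ ¬ Cfsg.Geo.IsPlusTypeOn (⇑(minusQ (d - 1) F a b)) W) ∧
        ∀ w ∈ W, act g w ∈ W := by
      rcases two_cases h2 hQ g hz with h1 | h1
      · obtain ⟨W, ⟨h3, h4, h5⟩, h6⟩ := invol_nondeg h2 (minusQ (d - 1) F a b) hQ g h1 (by omega) hm2 ⟨m', hm'⟩ (by omega) False
        exact ⟨W, ⟨h3, h4, fun h => h5.1 h⟩, h6⟩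
      · have hodd : ¬ (Even d ∨ q % 8 ≠ 7) := fun h => no_J_minus hq hp2 hQ hcard hL h g hg h1
        have hm4 : m % 4 = 2 := by
          rcases hR with h | h | h
          · exact absurd (Or.inl h) hodd
          · exact absurd (Or.inr h) hodd
          · exact h
        obtain ⟨h3', h4'⟩ := not_or.1 hodd
        have h4'' : q % 8 = 7 := not_not.1 h4'
        have hnsq : ¬ IsSquare (-1 : F) := fun h => (hsq.1 h) (by omega)
        obtain ⟨A, h5, h6, h7⟩ := exists_J_nondeg h2 hQ hcard g h1 m' (by omega)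
        have h8 := (J_decomp h2 g h1 m' A h7 h6 h5).1 hnsq
        refine ⟨A, ⟨by omega, on_of_polarNondeg h6, ?_⟩, h7⟩
        rw [lag_iff_plus h6, h8, Nat.even_iff]
        omega
    obtain ⟨W, h1, h3⟩ := hcases
    exact ⟨W, h1, fun _ ⟨w, hw, hww⟩ => by
      rw [← hww]
      exact h3 w hw⟩

end Cfsg.Agent.Lib.Classical.OSemi.NondegR
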