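import Mathlib
import Cfsg.Agent.Lib.Classical.OSemi.NondegR
import Cfsg.Agent.Lib.Classical.Witt.InvolModels

/-!
# Involutions and nondegenerate subspaces in characteristic two
-/

set_option autoImplicit false
set_option linter.unusedSectionVars false
set_option linter.unusedSimpArgs false
set_option linter.unusedVariables false
set_option linter.style.haveILetI false
set_option maxHeartbeats 1000000

open Module QuadraticMap Matrix
open Cfsg Cfsg.Agent.Lib.Classical.Witt.Hyp Cfsg.Agent.Lib.Linalg.OrthModels Cfsg.Agent.Lib.Linalg.Bridge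
open Cfsg.Agent.Lib.Classical.OSemi.Lag Cfsg.Agent.Lib.Classical.OSemi.LagFree
open Cfsg.Agent.Lib.Classical.OSemi.Decomp Cfsg.Agent.Lib.Classical.OSemi.Coprime
open Cfsg.Agent.Lib.Classical.OSemi.NondegE
open Cfsg.Agent.Lib.Classical.OSemi.SingInvE
open Cfsg.Agent.Lib.Classical.Orth.Basic Cfsg.Agent.Lib.Classical.Orth.Classes
open Cfsg.Agent.Lib.Classical.Symp.InvolChar2
open Cfsg.Agent.Lib.Classical.Witt.InvolChar2 Cfsg.Agent.Lib.Classical.Witt.InvolRep
open Cfsg.Agent.Lib.Classical.Witt.InvolCount Cfsg.Agent.Lib.Classical.Witt.InvolModels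

namespace Cfsg.Agent.Lib.Classical.OSemi.NondegC

universe u

section Abstract

variable {F : Type u} [Field F] [Finite F] [CharP F 2]

/-- The parity of the rank of an alternating square zero map. -/
theorem even_range_of_alt {E : Type*} [AddCommGroup E] [Module F E] [FiniteDimensional F E] (QE : QuadraticForm F E)
    (hE : PolarNondeg QE) (N : E →ₗ[F] E) (hadj : ∀ x y, polar QE (N x) y = polar QE x (N y))
    (hsq : ∀ x, N (N x) = 0) (halt : ∀ x, polar QE x (N x) = 0) : Even (finrank F (LinearMap.range N)) := by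
  refine even_of_alt_type (B := polarBilin QE) (nondeg_of_polarNondeg QE hE) (polar_isAlt QE) ⟨?_, hsq⟩ ?_
  · intro x y
    simpa only [polarBilin_apply_apply] using hadj x y
  · intro x
    simpa only [polarBilin_apply_apply] using halt x

end Abstract

variable {ι : Type} [Fintype ι] [DecidableEq ι] {F : Type u} [Field F] [Fintype F] [CharP F 2]
variable {Q : QuadraticForm F (ι → F)}

/-- An isometry with scalar square is an involution. -/
theorem sq_one_of_scalar (hQ : PolarNondeg Q) [hne : Nonempty ι] (g : ↥(Cfsg.isometryGroup F ⇑Q)) {z : F}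
    (hz : (((g : GL ι F) ^ 2 : GL ι F) : Matrix ι ι F) = z • (1 : Matrix ι ι F)) : g * g = 1 := by
  have h20 := two_eq_zero' F
  have hzz : z * z = 1 := scalar_sq hQ hz (fun v => by
    have h1 := Q_act (g ^ 2) v
    have h3 : ((((g ^ 2 : ↥(Cfsg.isometryGroup F ⇑Q)) : GL ι F)) : Matrix ι ι F) = (((g : GL ι F) ^ 2 : GL ι F) : Matrix ι ι F) := rfl
    rw [act, h3] at h1
    exact h1)
  have hz1 : z = 1 := by
    have h3 : (z - 1) * (z - 1) = 0 := by linear_combination hzz + (1 - z) * h20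
    exact sub_eq_zero.1 (mul_self_eq_zero.1 h3)
  rw [← pow_two]
  apply Subtype.ext
  apply Units.ext
  show (((g : GL ι F) ^ 2 : GL ι F) : Matrix ι ι F) = 1
  rw [hz, hz1, one_smul]

/-- An involution different from the identity is not scalar. -/
theorem nonscalar_of_ne_one [hne : Nonempty ι] (t : ↥(Cfsg.isometryGroup F ⇑Q)) (htt : t * t = 1) (ht1 : t ≠ 1) :
    ∀ z : F, ((t : GL ι F) : Matrix ι ι F) ≠ z • (1 : Matrix ι ι F) := by
  intro z hz
  have h20 := two_eq_zero' F
  have h1 : ((t : GL ι F) : Matrix ι ι F) * ((t : GL ι F) : Matrix ι ι F) = 1 := by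
    have h3 := congrArg (fun s : ↥(Cfsg.isometryGroup F ⇑Q) => ((s : GL ι F) : Matrix ι ι F)) htt
    simpa using h3
  rw [hz] at h1
  obtain ⟨i⟩ := hne
  have h3 := congrFun (congrFun h1 i) i
  simp [Matrix.smul_apply] at h3
  have hz1 : z = 1 := by
    have h5 : (z - 1) * (z - 1) = 0 := by linear_combination h3 + (1 - z) * h20
    exact sub_eq_zero.1 (mul_self_eq_zero.1 h5)
  apply ht1
  apply Subtype.ext
  apply Units.ext
  show ((t : GL ι F) : Matrix ι ι F) = 1
  rw [hz, hz1, one_smul]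

/-- The scalar square of an involution. -/
theorem scalar_of_sq_one (t : ↥(Cfsg.isometryGroup F ⇑Q)) (htt : t * t = 1) :
    ∃ z : F, (((t : GL ι F) ^ 2 : GL ι F) : Matrix ι ι F) = z • (1 : Matrix ι ι F) := by
  refine ⟨1, ?_⟩
  have h3 : ((t : GL ι F) ^ 2 : GL ι F) = 1 := by
    rw [pow_two]
    have := congrArg (fun s : ↥(Cfsg.isometryGroup F ⇑Q) => (s : GL ι F)) htt
    simpa using this
  rw [h3, one_smul]
  rfl

/-- The parity on an invariant nondegenerate subspace. -/
theorem even_map_of_alt (t : ↥(Cfsg.isometryGroup F ⇑Q)) (htt : t * t = 1) (ha : ∀ x, polar (⇑Q) x (act t x) = 0)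
    (W : Submodule F (ι → F)) (hn : PolarNondeg (Q.comp W.subtype)) (hNW : ∀ x ∈ W, nM t x ∈ W) :
    Even (finrank F (W.map (nM t))) := by
  have hq := isQuadN_nM htt
  have h1 := even_range_of_alt (Q.comp W.subtype) hn ((nM t).restrict hNW) (fun x y => by
      have := hq.adj.adj x.1 y.1
      simp only [polarBilin_apply_apply] at this
      exact this) (fun x => Subtype.ext (hq.adj.sq x.1)) (fun x => by
      have h3 := polar_nM t x.1
      rw [ha] at h3
      exact h3)
  have h3 : W.map (nM t) = (LinearMap.range ((nM t).restrict hNW)).map W.subtype := by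
    ext v
    simp only [Submodule.mem_map, LinearMap.mem_range, Subtype.exists, Submodule.subtype_apply]
    constructor
    · rintro ⟨y, hy, rfl⟩
      exact ⟨_, hNW y hy, ⟨y, hy, rfl⟩, rfl⟩
    · rintro ⟨w, hz, ⟨y, hy, h⟩, rfl⟩
      exact ⟨y, hy, congrArg Subtype.val h⟩
  rw [h3, Submodule.finrank_map_subtype_eq]
  exact h1

/-- The numerical invariants of an invariant subspace of an alternating involution. -/
theorem alt_parts {d : ℕ} (hQ : PolarNondeg Q) (hcard : Fintype.card ι = 2 * d) (t : ↥(Cfsg.isometryGroup F ⇑Q)) (htt : t * t = 1)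
    (ha : ∀ x, polar (⇑Q) x (act t x) = 0) (W : Submodule F (ι → F)) (hW : Cfsg.Geo.IsNondegenerateOn (polar ⇑Q) W)
    (hinv : ∀ w ∈ W, act t w ∈ W) :
    ∃ a a' : ℕ, Even a ∧ Even a' ∧ a + a' = rk t ∧ 2 * a ≤ finrank F W ∧ 2 * a' + finrank F W ≤ 2 * d ∧
      (2 * a = finrank F W → Cfsg.Geo.IsPlusTypeOn ⇑Q W) := by
  classical
  have hq := isQuadN_nM htt
  have hQN : ∀ x, Q (nM t x) = 0 := fun x => Q_nM_of_alt htt ha x
  have hn := polarNondeg_of_on hW
  obtain ⟨P, hP, hsup, hinf, hdim, hPn⟩ := exists_orth_gen Q hQ W hn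
  have hNW : ∀ x ∈ W, nM t x ∈ W := fun x hx => by
    rw [nM_apply]
    exact W.sub_mem (hinv x hx) hx
  have hNP : ∀ y ∈ P, nM t y ∈ P := fun y hy => by
    rw [hP]
    intro a ha'
    have h1 := hq.adj.adj a y
    simp only [polarBilin_apply_apply] at h1
    rw [← h1]
    exact (hP y).1 hy _ (hNW a ha')
  have hrange : W.map (nM t) ⊔ P.map (nM t) = LinearMap.range (nM t) := by
    rw [← Submodule.map_sup, hsup, Submodule.map_top]
  have hinf' : W.map (nM t) ⊓ P.map (nM t) = ⊥ := by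
    rw [eq_bot_iff, ← hinf]
    refine inf_le_inf ?_ ?_
    · rintro _ ⟨x, hx, rfl⟩
      exact hNW x hx
    · rintro _ ⟨x, hx, rfl⟩
      exact hNP x hx
  have hsum := Submodule.finrank_sup_add_finrank_inf_eq (W.map (nM t)) (P.map (nM t))
  rw [hrange, hinf', finrank_bot, add_zero] at hsum
  have hV : finrank F (ι → F) = 2 * d := by
    rw [Module.finrank_fintype_fun_eq_card, hcard]
  have hWts : ∀ w ∈ W.map (nM t), Q w = 0 := by
    rintro _ ⟨x, -, rfl⟩
    exact hQN x
  have hPts : ∀ w ∈ P.map (nM t), Q w = 0 := by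
    rintro _ ⟨x, -, rfl⟩
    exact hQN x
  have hle1 : W.map (nM t) ≤ W := by
    rintro _ ⟨x, hx, rfl⟩
    exact hNW x hx
  have hle2 : P.map (nM t) ≤ P := by
    rintro _ ⟨x, hx, rfl⟩
    exact hNP x hx
  have h1 := two_mul_le_of_ts hn hWts
  have h2 := two_mul_le_of_ts hPn hPts
  rw [inf_eq_right.2 hle1] at h1
  rw [inf_eq_right.2 hle2] at h2
  refine ⟨_, _, even_map_of_alt t htt ha W hn hNW, even_map_of_alt t htt ha P hPn hNP, hsum.symm ▸ rfl, h1, by omega, fun h => ?_⟩
  exact ⟨W.map (nM t), hle1, hWts, h⟩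

/-- Involutions from a family of norm one, with their action. -/
theorem exists_model_nonalt {κ : Type*} [Fintype κ] [DecidableEq κ] [hκ : Nonempty κ] (hQ : (polarBilin Q).Nondegenerate) {z : κ → ι → F}
    (hz : LinearIndependent F z) (h0 : ∀ i j, polar (⇑Q) (z i) (z j) = 0) (h1 : ∀ i, Q (z i) = 1)
    (W : Submodule F (ι → F)) (hW : ∀ j, z j ∈ W ∨ ∀ x ∈ W, polar (⇑Q) x (z j) = 0) :
    ∃ t : ↥(Cfsg.isometryGroup F ⇑Q), t * t = 1 ∧ rk t = Fintype.card κ ∧ ¬ IsAltT t ∧ ∀ w ∈ W, act t w ∈ W := by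
  have h20 := two_eq_zero' F
  have hNN : ∀ x, famN Q z z (famN Q z z x) = 0 := by
    intro x
    rw [famN_apply]
    refine Finset.sum_eq_zero fun j _ => ?_
    rw [famN_apply, polar_sum_smul_left]
    simp [h0]
  have hval : ∀ x, polar (⇑Q) x (famN Q z z x) = ∑ j, polar (⇑Q) x (z j) * polar (⇑Q) x (z j) := by
    intro x
    rw [famN_apply, polar_sum_smul_right]
  obtain ⟨t, htt, hact⟩ := exists_of_N (Q := Q) (famN Q z z) hNN (fun x => by
    rw [hval, famN_apply, Q_sum_orth z h0]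
    simp [h1])
  have hval' : ∀ x, polar (⇑Q) x (act t x) = ∑ j, polar (⇑Q) x (z j) * polar (⇑Q) x (z j) := by
    intro x
    rw [hact, polar_add_right, polar_self_eq, h20, zero_mul, zero_add, hval]
  refine ⟨t, htt, ?_, fun ha => ?_, fun w hw => ?_⟩
  · have he : nM t = famN Q z z := by
      refine LinearMap.ext fun x => ?_
      rw [nM_apply, hact]
      simp
    rw [rk, rank_eq_finrank, he, finrank_range_famN hQ hz hz]
  · obtain ⟨j₀⟩ := hκ
    obtain ⟨x, hx⟩ := pairing_surjective hQ hz (Pi.single j₀ 1)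
    have h2 := ha x
    rw [hval', Finset.sum_eq_single j₀] at h2
    · rw [hx] at h2
      simp at h2
    · intro j _ hj
      rw [hx]
      simp [hj]
    · intro h
      exact absurd (Finset.mem_univ _) h
  · rw [hact]
    refine W.add_mem hw ?_
    rw [famN_apply]
    refine W.sum_mem fun j _ => ?_
    rcases hW j with h | h
    · exact W.smul_mem _ h
    · rw [h w hw, zero_smul]
      exact W.zero_mem

/-- Involutions from a totally singular family, with their action. -/
theorem exists_model_alt {k : Type*} [Fintype k] [DecidableEq k] (hQ : (polarBilin Q).Nondegenerate)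
    {z : k ⊕ k → ι → F} (hz : LinearIndependent F z) (h0 : ∀ i j, polar (⇑Q) (z i) (z j) = 0)
    (h1 : ∀ i, Q (z i) = 0) (W : Submodule F (ι → F)) (hW : ∀ j, z (Sum.swap j) ∈ W ∨ ∀ x ∈ W, polar (⇑Q) x (z j) = 0) :
    ∃ t : ↥(Cfsg.isometryGroup F ⇑Q), t * t = 1 ∧ rk t = 2 * Fintype.card k ∧ IsAltT t ∧ ∀ w ∈ W, act t w ∈ W := by
  have h20 := two_eq_zero' F
  have hz' : LinearIndependent F (z ∘ Sum.swap) := hz.comp _ Sum.swap_leftInverse.injective
  have hNN : ∀ x, famN Q z (z ∘ Sum.swap) (famN Q z (z ∘ Sum.swap) x) = 0 := by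
    intro x
    rw [famN_apply]
    refine Finset.sum_eq_zero fun j _ => ?_
    rw [famN_apply, polar_sum_smul_left]
    simp [h0]
  have hval : ∀ x, polar (⇑Q) x (famN Q z (z ∘ Sum.swap) x) = 0 := by
    intro x
    rw [famN_apply, polar_sum_smul_right, Fintype.sum_sum_type, ← Finset.sum_add_distrib]
    refine Finset.sum_eq_zero fun j _ => ?_
    simp only [Function.comp, Sum.swap_inl, Sum.swap_inr]
    rw [mul_comm (polar (⇑Q) x (z (Sum.inr j)))]
    rw [← two_mul, h20, zero_mul]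
  have hQN : ∀ x, Q (famN Q z (z ∘ Sum.swap) x) = 0 := by
    intro x
    rw [famN_apply, Q_sum_orth (z ∘ Sum.swap) (fun i j => h0 _ _)]
    simp [h1]
  obtain ⟨t, htt, hact⟩ := exists_of_N (Q := Q) (famN Q z (z ∘ Sum.swap)) hNN (fun x => by
    rw [hval, hQN])
  refine ⟨t, htt, ?_, fun x => ?_, fun w hw => ?_⟩
  · have he : nM t = famN Q z (z ∘ Sum.swap) := by
      refine LinearMap.ext fun x => ?_
      rw [nM_apply, hact]
      simp
    rw [rk, rank_eq_finrank, he, finrank_range_famN hQ hz hz', Fintype.card_sum, two_mul]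
  · rw [hact, polar_add_right, polar_self_eq, h20, zero_mul, zero_add, hval]
  · rw [hact]
    refine W.add_mem hw ?_
    rw [famN_apply]
    refine W.sum_mem fun j _ => ?_
    rcases hW j with h | h
    · exact W.smul_mem _ h
    · rw [h w hw, zero_smul]
      exact W.zero_mem

/-- Moving an invariant subspace along a conjugation. -/
theorem conj_transfer (hQ : (polarBilin Q).Nondegenerate) (t t₀ : ↥(Cfsg.isometryGroup F ⇑Q)) (htt : t * t = 1) (ht₀ : t₀ * t₀ = 1)
    (hr : rk t₀ = rk t) (hty : IsAltT t₀ ↔ IsAltT t) (W₀ : Submodule F (ι → F)) (hinv : ∀ w ∈ W₀, act t₀ w ∈ W₀) :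
    ∃ g : ↥(Cfsg.isometryGroup F ⇑Q), ∀ w ∈ gMap g W₀, act t w ∈ gMap g W₀ := by
  obtain ⟨c, hc⟩ := isConj_iff.1 (isConj_of_type hQ t₀ t ht₀ htt hr hty)
  refine ⟨c, fun w hw => ?_⟩
  obtain ⟨y, hy, rfl⟩ := mem_gMap.1 hw
  refine mem_gMap.2 ⟨act t₀ y, hinv y hy, ?_⟩
  have h3 : act c⁻¹ (act c y) = y := by rw [← act_mul, inv_mul_cancel, act_one]
  rw [← hc, act_mul, act_mul, h3]

end Cfsg.Agent.Lib.Classical.OSemi.NondegC
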