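import Mathlib
import Cfsg.Agent.Lib.Classical.OSemi.NondegC

/-!
# Frames, model involutions and subspaces in characteristic two
-/

set_option autoImplicit false
set_option linter.unusedSectionVars false
set_option linter.unusedSimpArgs false
set_option linter.unusedVariables false
set_option linter.style.haveILetI false
set_option maxHeartbeats 1000000

open Module QuadraticMap Matrix
open Cfsg Cfsg.Agent.Lib.Classical.Witt.Hyp Cfsg.Agent.Lib.Linalg.OrthModels Cfsg.Agent.Lib.Linalg.Bridge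
open Cfsg.Agent.Lib.Classical.OSemi.Lag Cfsg.Agent.Lib.Classical.OSemi.LagFree
open Cfsg.Agent.Lib.Classical.OSemi.Decomp Cfsg.Agent.Lib.Classical.OSemi.Coprime
open Cfsg.Agent.Lib.Classical.Orth.Basic Cfsg.Agent.Lib.Classical.Orth.Classes Cfsg.Agent.Lib.Classical.Orth.Models
open Cfsg.Agent.Lib.Classical.Symp.InvolChar2
open Cfsg.Agent.Lib.Classical.Witt.InvolChar2 Cfsg.Agent.Lib.Classical.Witt.InvolRep
open Cfsg.Agent.Lib.Classical.Witt.InvolCount Cfsg.Agent.Lib.Classical.Witt.InvolModels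
open Cfsg.Agent.Lib.Classical.OSemi.NondegC

namespace Cfsg.Agent.Lib.Classical.OSemi.NondegD

universe u

section General

variable {ι : Type} [Fintype ι] [DecidableEq ι] {F : Type u} [Field F] [Fintype F] [CharP F 2]
variable {Q : QuadraticForm F (ι → F)}

/-- An alternating model with an invariant subspace. -/
theorem exists_alt_of_frame (hQ : (polarBilin Q).Nondegenerate) {n k K₁ K₂ : ℕ} (E : Fin n → ι → F) (hE : LinearIndependent F E)
    (h0 : ∀ i j, polar (⇑Q) (E i) (E j) = 0) (h1 : ∀ i, Q (E i) = 0) (W₀ : Submodule F (ι → F))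
    (hk1 : ∀ j : Fin n, j.val < k → E j ∈ W₀) (hk2 : ∀ j : Fin n, k ≤ j.val → ∀ x ∈ W₀, polar (⇑Q) x (E j) = 0)
    (h1K : 2 * K₁ ≤ k) (h2K : k + 2 * K₂ ≤ n) :
    ∃ t : ↥(Cfsg.isometryGroup F ⇑Q), t * t = 1 ∧ rk t = 2 * (K₁ + K₂) ∧ IsAltT t ∧ ∀ w ∈ W₀, act t w ∈ W₀ := by
  classical
  let av : ℕ → ℕ := fun i => if i < K₁ then 2 * i else k + 2 * (i - K₁)
  have hav : ∀ i : Fin (K₁ + K₂), av i.val + 1 < n := by
    intro i
    have := i.2
    simp only [av]
    split_ifs <;> omega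
  let a : Fin (K₁ + K₂) → Fin n := fun i => ⟨av i.val, by have := hav i; omega⟩
  let b : Fin (K₁ + K₂) → Fin n := fun i => ⟨av i.val + 1, hav i⟩
  have hmono : ∀ i j : Fin (K₁ + K₂), av i.val = av j.val → i = j := by
    intro i j h
    apply Fin.ext
    simp only [av] at h
    have := i.2
    have := j.2
    split_ifs at h <;> omega
  have hpar : ∀ i j : Fin (K₁ + K₂), av i.val ≠ av j.val + 1 := by
    intro i j h
    simp only [av] at h
    have := i.2
    have := j.2
    split_ifs at h <;> omega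
  have hinj : Function.Injective (Sum.elim a b) := by
    rintro (i | i) (j | j) h
    · have h3 : av i.val = av j.val := congrArg Fin.val h
      rw [hmono i j h3]
    · have h3 : av i.val = av j.val + 1 := congrArg Fin.val h
      exact absurd h3 (hpar i j)
    · have h3 : av i.val + 1 = av j.val := congrArg Fin.val h
      exact absurd h3.symm (hpar j i)
    · have h3 : av i.val + 1 = av j.val + 1 := congrArg Fin.val h
      rw [hmono i j (by omega)]
  obtain ⟨t, h3, h4, h5, h6⟩ := exists_model_alt hQ (k := Fin (K₁ + K₂)) (z := E ∘ Sum.elim a b) (hE.comp _ hinj) (fun i j => h0 _ _) (fun i => h1 _) W₀ (by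
    rintro (i | i)
    · by_cases hi : i.val < K₁
      · left
        apply hk1
        show av i.val + 1 < k
        simp only [av, if_pos hi]
        omega
      · right
        apply hk2
        show k ≤ av i.val
        simp only [av, if_neg hi]
        omega
    · by_cases hi : i.val < K₁
      · left
        apply hk1
        show av i.val < k
        simp only [av, if_pos hi]
        omega
      · right
        apply hk2
        show k ≤ av i.val + 1
        simp only [av, if_neg hi]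
        omega)
  refine ⟨t, h3, ?_, h5, h6⟩
  rw [h4, Fintype.card_fin]

/-- A nonalternating model with an invariant subspace. -/
theorem exists_nonalt_of_frame (hQ : (polarBilin Q).Nondegenerate) {κ : Type*} [Fintype κ] [DecidableEq κ] (E : κ → ι → F) (hE : LinearIndependent F E)
    (h0 : ∀ i j, polar (⇑Q) (E i) (E j) = 0) (h1 : ∀ i, Q (E i) = 1) (W₀ : Submodule F (ι → F))
    (hW : ∀ j, E j ∈ W₀ ∨ ∀ x ∈ W₀, polar (⇑Q) x (E j) = 0) (s : ℕ) (hs : 0 < s) (hsk : s ≤ Fintype.card κ) :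
    ∃ t : ↥(Cfsg.isometryGroup F ⇑Q), t * t = 1 ∧ rk t = s ∧ ¬ IsAltT t ∧ ∀ w ∈ W₀, act t w ∈ W₀ := by
  classical
  obtain ⟨ε⟩ : Nonempty (Fin s ↪ κ) := Function.Embedding.nonempty_of_card_le (by simpa using hsk)
  haveI : Nonempty (Fin s) := ⟨⟨0, hs⟩⟩
  obtain ⟨t, h3, h4, h5, h6⟩ := exists_model_nonalt hQ (z := E ∘ ε) (hE.comp _ ε.injective) (fun i j => h0 _ _) (fun i => h1 _) W₀ (fun j => hW _)
  exact ⟨t, h3, by rw [h4, Fintype.card_fin], h5, h6⟩

/-- The backward direction from models. -/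
theorem back_gen (hQ : (polarBilin Q).Nondegenerate) {d n : ℕ} (hcard : Fintype.card ι = 2 * d) (W₀ : Submodule F (ι → F))
    (hna : ∀ s, 0 < s → s ≤ d → ∃ t : ↥(Cfsg.isometryGroup F ⇑Q), t * t = 1 ∧ rk t = s ∧ ¬ IsAltT t ∧ ∀ w ∈ W₀, act t w ∈ W₀)
    (ha : ∀ K, 0 < K → 2 * K ≤ n → ∃ t : ↥(Cfsg.isometryGroup F ⇑Q), t * t = 1 ∧ rk t = 2 * K ∧ IsAltT t ∧ ∀ w ∈ W₀, act t w ∈ W₀)
    (hrk : ∀ t : ↥(Cfsg.isometryGroup F ⇑Q), t * t = 1 → IsAltT t → rk t ≤ n)
    (t : ↥(Cfsg.isometryGroup F ⇑Q)) (htt : t * t = 1) (ht1 : t ≠ 1) :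
    ∃ g : ↥(Cfsg.isometryGroup F ⇑Q), ∀ w ∈ gMap g W₀, act t w ∈ gMap g W₀ := by
  have hpos := rk_pos ht1
  by_cases hat : IsAltT t
  · obtain ⟨K, hK⟩ := even_rk_of_alt hQ htt hat
    have hle := hrk t htt hat
    obtain ⟨t₀, h1, h3, h4, h5⟩ := ha K (by omega) (by omega)
    exact conj_transfer hQ t t₀ htt h1 (by omega) (iff_of_true h4 hat) W₀ h5
  · have hle : 2 * rk t ≤ finrank F (ι → F) := two_mul_finrank_range_le hQ (isQuadN_nM htt).adj
    rw [Module.finrank_fintype_fun_eq_card, hcard] at hle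
    obtain ⟨t₀, h1, h3, h4, h5⟩ := hna (rk t) hpos (by omega)
    exact conj_transfer hQ t t₀ htt h1 h3 (iff_of_false h4 hat) W₀ h5

end General

section Ext

variable {ι₁ ι₂ : Type} {F : Type u} [Field F]

theorem ext_apply {s : ι₁ → ι₂} (hs : Function.Injective s) (w : ι₁ → F) (i : ι₁) :
    Function.ExtendByZero.linearMap F s w (s i) = w i := hs.extend_apply _ _ _

theorem ext_apply' {s : ι₁ → ι₂} (w : ι₁ → F) {y : ι₂} (hy : y ∉ Set.range s) :
    Function.ExtendByZero.linearMap F s w y = 0 := Function.extend_apply' _ _ _ hy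

theorem mem_range_ext {s : ι₁ → ι₂} (hs : Function.Injective s) (x : ι₂ → F) :
    x ∈ LinearMap.range (Function.ExtendByZero.linearMap F s) ↔ ∀ y, y ∉ Set.range s → x y = 0 := by
  constructor
  · rintro ⟨w, rfl⟩ y hy
    exact ext_apply' w hy
  · intro h
    refine ⟨x ∘ s, ?_⟩
    funext y
    by_cases hy : y ∈ Set.range s
    · obtain ⟨i, rfl⟩ := hy
      exact ext_apply hs _ i
    · rw [ext_apply' _ hy, h y hy]

end Ext

section Plus

variable {F : Type u} [Field F]

/-- The map of a plus form into a bigger one. -/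
noncomputable def plusEmb {k d : ℕ} (hk : k ≤ d) : (Fin k ⊕ Fin k → F) →ₗ[F] (Fin d ⊕ Fin d → F) :=
  Function.ExtendByZero.linearMap F (Sum.map (Fin.castLE hk) (Fin.castLE hk))

theorem plusS_inj {k d : ℕ} (hk : k ≤ d) : Function.Injective (Sum.map (Fin.castLE hk) (Fin.castLE hk)) :=
  (Fin.castLE_injective hk).sumMap (Fin.castLE_injective hk)

theorem plusS_notMem_inl {k d : ℕ} (hk : k ≤ d) {j : Fin d} (hj : k ≤ j.val) :
    (Sum.inl j : Fin d ⊕ Fin d) ∉ Set.range (Sum.map (Fin.castLE hk) (Fin.castLE hk)) := by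
  rintro ⟨i | i, hi⟩
  · have h3 : Fin.castLE hk i = j := Sum.inl.inj hi
    have h4 := congrArg Fin.val h3
    have := i.2
    simp at h4
    omega
  · simp at hi

theorem plusS_notMem_inr {k d : ℕ} (hk : k ≤ d) {j : Fin d} (hj : k ≤ j.val) :
    (Sum.inr j : Fin d ⊕ Fin d) ∉ Set.range (Sum.map (Fin.castLE hk) (Fin.castLE hk)) := by
  rintro ⟨i | i, hi⟩
  · simp at hi
  · have h3 : Fin.castLE hk i = j := Sum.inr.inj hi
    have h4 := congrArg Fin.val h3
    have := i.2
    simp at h4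
    omega

theorem plusEmb_Q {k d : ℕ} (hk : k ≤ d) (w : Fin k ⊕ Fin k → F) : plusQ d F (plusEmb hk w) = plusQ k F w := by
  rw [plusQ_apply, plusQ_apply, Cfsg.quadFormPlus, Cfsg.quadFormPlus]
  symm
  apply Fintype.sum_of_injective (Fin.castLE hk) (Fin.castLE_injective hk)
  · intro j hj
    have hj' : k ≤ j.val := by
      by_contra h
      exact hj ⟨⟨j.val, by omega⟩, rfl⟩
    have h3 : plusEmb hk w (Sum.inl j) = 0 := ext_apply' w (plusS_notMem_inl hk hj')
    rw [h3, zero_mul]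
  · intro i
    have h3 : plusEmb hk w (Sum.inl (Fin.castLE hk i)) = w (Sum.inl i) := ext_apply (plusS_inj hk) w (Sum.inl i)
    have h4 : plusEmb hk w (Sum.inr (Fin.castLE hk i)) = w (Sum.inr i) := ext_apply (plusS_inj hk) w (Sum.inr i)
    rw [h3, h4]

theorem mem_plusEmb {k d : ℕ} (hk : k ≤ d) (x : Fin d ⊕ Fin d → F) :
    x ∈ LinearMap.range (plusEmb (F := F) hk) ↔ ∀ j : Fin d, k ≤ j.val → x (Sum.inl j) = 0 ∧ x (Sum.inr j) = 0 := by
  rw [plusEmb, mem_range_ext (plusS_inj hk)]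
  constructor
  · intro h j hj
    exact ⟨h _ (plusS_notMem_inl hk hj), h _ (plusS_notMem_inr hk hj)⟩
  · rintro h (j | j) hy
    · have hj : k ≤ j.val := by
        by_contra h3
        exact hy ⟨Sum.inl ⟨j.val, by omega⟩, rfl⟩
      exact (h j hj).1
    · have hj : k ≤ j.val := by
        by_contra h3
        exact hy ⟨Sum.inr ⟨j.val, by omega⟩, rfl⟩
      exact (h j hj).2

end Plus

section Minus

variable {F : Type u} [Field F]

/-- The map of a minus form into a bigger one. -/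
noncomputable def minusEmb {k n : ℕ} (hk : k ≤ n) : ((Fin k ⊕ Fin k) ⊕ Fin 2 → F) →ₗ[F] ((Fin n ⊕ Fin n) ⊕ Fin 2 → F) :=
  Function.ExtendByZero.linearMap F (Sum.map (Sum.map (Fin.castLE hk) (Fin.castLE hk)) id)

theorem minusS_inj {k n : ℕ} (hk : k ≤ n) : Function.Injective (Sum.map (Sum.map (Fin.castLE hk) (Fin.castLE hk)) (id : Fin 2 → Fin 2)) :=
  ((Fin.castLE_injective hk).sumMap (Fin.castLE_injective hk)).sumMap Function.injective_id

theorem minusS_notMem_inl {k n : ℕ} (hk : k ≤ n) {j : Fin n} (hj : k ≤ j.val) :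
    (Sum.inl (Sum.inl j) : (Fin n ⊕ Fin n) ⊕ Fin 2) ∉ Set.range (Sum.map (Sum.map (Fin.castLE hk) (Fin.castLE hk)) (id : Fin 2 → Fin 2)) := by
  rintro ⟨(i | i) | i, hi⟩
  · have h3 : Fin.castLE hk i = j := Sum.inl.inj (Sum.inl.inj hi)
    have h4 := congrArg Fin.val h3
    have := i.2
    simp at h4
    omega
  · simp at hi
  · simp at hi

theorem minusS_notMem_inr {k n : ℕ} (hk : k ≤ n) {j : Fin n} (hj : k ≤ j.val) :
    (Sum.inl (Sum.inr j) : (Fin n ⊕ Fin n) ⊕ Fin 2) ∉ Set.range (Sum.map (Sum.map (Fin.castLE hk) (Fin.castLE hk)) (id : Fin 2 → Fin 2)) := by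
  rintro ⟨(i | i) | i, hi⟩
  · simp at hi
  · have h3 : Fin.castLE hk i = j := Sum.inr.inj (Sum.inl.inj hi)
    have h4 := congrArg Fin.val h3
    have := i.2
    simp at h4
    omega
  · simp at hi

theorem minusEmb_Q {k n : ℕ} (hk : k ≤ n) (a b : F) (w : (Fin k ⊕ Fin k) ⊕ Fin 2 → F) :
    minusQ n F a b (minusEmb hk w) = minusQ k F a b w := by
  rw [minusQ_apply, minusQ_apply, Cfsg.quadFormMinus, Cfsg.quadFormMinus]
  have h0 : minusEmb hk w (Sum.inr 0) = w (Sum.inr 0) := ext_apply (minusS_inj hk) w (Sum.inr 0)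
  have h1 : minusEmb hk w (Sum.inr 1) = w (Sum.inr 1) := ext_apply (minusS_inj hk) w (Sum.inr 1)
  rw [h0, h1]
  congr 1
  symm
  apply Fintype.sum_of_injective (Fin.castLE hk) (Fin.castLE_injective hk)
  · intro j hj
    have hj' : k ≤ j.val := by
      by_contra h
      exact hj ⟨⟨j.val, by omega⟩, rfl⟩
    have h3 : minusEmb hk w (Sum.inl (Sum.inl j)) = 0 := ext_apply' w (minusS_notMem_inl hk hj')
    rw [h3, zero_mul]
  · intro i
    have h3 : minusEmb hk w (Sum.inl (Sum.inl (Fin.castLE hk i))) = w (Sum.inl (Sum.inl i)) := ext_apply (minusS_inj hk) w (Sum.inl (Sum.inl i))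
    have h4 : minusEmb hk w (Sum.inl (Sum.inr (Fin.castLE hk i))) = w (Sum.inl (Sum.inr i)) := ext_apply (minusS_inj hk) w (Sum.inl (Sum.inr i))
    rw [h3, h4]

theorem mem_minusEmb {k n : ℕ} (hk : k ≤ n) (x : (Fin n ⊕ Fin n) ⊕ Fin 2 → F) :
    x ∈ LinearMap.range (minusEmb (F := F) hk) ↔ ∀ j : Fin n, k ≤ j.val → x (Sum.inl (Sum.inl j)) = 0 ∧ x (Sum.inl (Sum.inr j)) = 0 := by
  rw [minusEmb, mem_range_ext (minusS_inj hk)]
  constructor
  · intro h j hj
    exact ⟨h _ (minusS_notMem_inl hk hj), h _ (minusS_notMem_inr hk hj)⟩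
  · rintro h ((j | j) | j) hy
    · have hj : k ≤ j.val := by
        by_contra h3
        exact hy ⟨Sum.inl (Sum.inl ⟨j.val, by omega⟩), rfl⟩
      exact (h j hj).1
    · have hj : k ≤ j.val := by
        by_contra h3
        exact hy ⟨Sum.inl (Sum.inr ⟨j.val, by omega⟩), rfl⟩
      exact (h j hj).2
    · exact absurd ⟨Sum.inr j, rfl⟩ hy

end Minus

section Final

variable {F : Type u} [Field F] [Fintype F] [CharP F 2]

/-- The plus frame facts. -/
theorem plus_frame_ind (d : ℕ) : LinearIndependent F (plusZero d F) := by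
  refine linInd_of_coord _ Sum.inl fun i j => ?_
  simp [plusZero, Pi.single_apply, Sum.inl.injEq, eq_comm]

theorem plus_frame_polar (d : ℕ) (i j : Fin d) : polar (⇑(plusQ d F)) (plusZero d F i) (plusZero d F j) = 0 := by
  rw [coe_plusQ, plusZero, polar_plus_single_inl]
  simp [plusZero, Pi.single_apply]

theorem plus_frame_Q (d : ℕ) (i : Fin d) : plusQ d F (plusZero d F i) = 0 := by
  rw [plusQ_apply, Cfsg.quadFormPlus]
  simp [plusZero, Pi.single_apply]

theorem plus_one_ind (d : ℕ) : LinearIndependent F (plusOne d F) := by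
  refine linInd_of_coord _ Sum.inl fun i j => ?_
  simp [plusOne, Pi.single_apply, Sum.inl.injEq, eq_comm]

theorem plus_one_polar (d : ℕ) (i j : Fin d) : polar (⇑(plusQ d F)) (plusOne d F i) (plusOne d F j) = 0 := by
  have h2 := two_eq_zero' F
  rw [plusOne, polar_add_left, coe_plusQ, polar_plus_single_inl, polar_plus_single_inr]
  simp only [plusOne, Pi.add_apply, Pi.single_apply]
  simp only [Sum.inr.injEq, Sum.inl.injEq, reduceCtorEq, if_false, add_zero, zero_add]
  rw [← two_mul, h2, zero_mul]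

theorem plus_one_Q (d : ℕ) (i : Fin d) : plusQ d F (plusOne d F i) = 1 := by
  rw [plusQ_apply, Cfsg.quadFormPlus, Finset.sum_eq_single i]
  · simp [plusOne]
  · intro b _ hb
    simp [plusOne, Pi.single_apply, hb, hb.symm]
  · intro h
    exact absurd (Finset.mem_univ _) h

/-- Characteristic two: hyperbolic subspaces of the plus form. -/
theorem char2_hyper_iff {d m : ℕ} (hd : 4 ≤ d) (hm2 : 2 ≤ m) (hme : Even m) (hmd : m < d) :
    (∀ x : GL (Fin d ⊕ Fin d) F, x ∈ Cfsg.Geo.omegaGL (⇑(plusQ d F)) →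
      (∃ z : F, ((x ^ 2 : GL (Fin d ⊕ Fin d) F) : Matrix (Fin d ⊕ Fin d) (Fin d ⊕ Fin d) F) = z • (1 : Matrix (Fin d ⊕ Fin d) (Fin d ⊕ Fin d) F)) →
      (∀ z : F, (x : Matrix (Fin d ⊕ Fin d) (Fin d ⊕ Fin d) F) ≠ z • (1 : Matrix (Fin d ⊕ Fin d) (Fin d ⊕ Fin d) F)) →
      ∃ W : Submodule F (Fin d ⊕ Fin d → F), (finrank F W = m ∧ Cfsg.Geo.IsNondegenerateOn (polar (⇑(plusQ d F))) W ∧ Cfsg.Geo.IsPlusTypeOn (⇑(plusQ d F)) W) ∧
        W.map (Matrix.toLin' (x : Matrix (Fin d ⊕ Fin d) (Fin d ⊕ Fin d) F)) ≤ W) ↔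
    (Odd d ∨ m % 4 = 0) := by
  classical
  have hQ := polarNondeg_plusQ (F := F) d
  have hB := nondeg_of_polarNondeg _ hQ
  have hcard : Fintype.card (Fin d ⊕ Fin d) = 2 * d := by
    simp [Fintype.card_sum]
    ring
  haveI hne : Nonempty (Fin d ⊕ Fin d) := ⟨Sum.inl ⟨0, by omega⟩⟩
  obtain ⟨k, hk⟩ := hme
  constructor
  · intro H0
    by_contra hR
    obtain ⟨hR1, hR2⟩ := not_or.1 hR
    obtain ⟨K, hK⟩ := Nat.not_odd_iff_even.1 hR1
    obtain ⟨t, htt, hrk, hat, -⟩ := exists_alt_of_frame hB (n := d) (k := d) (K₁ := K) (K₂ := 0) (plusZero d F) (plus_frame_ind d)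
      (plus_frame_polar d) (plus_frame_Q d) ⊤ (fun _ _ => Submodule.mem_top) (fun j hj => absurd j.2 (by omega)) (by omega) (by omega)
    have ht1 : t ≠ 1 := ne_one_of_rk (by omega)
    have htΩ : t ∈ Cfsg.Omega F ⇑(plusQ d F) := (Cfsg.Agent.Lib.Classical.Orth.DicksonRank.mem_omega_iff_rank_even hB (Or.inr (by omega)) t).2 (by
      show Even (rk t)
      rw [hrk]
      exact even_two_mul _)
    obtain ⟨W, ⟨h5, h6, h7⟩, h8⟩ := H0 (t : GL (Fin d ⊕ Fin d) F) (Subgroup.mem_map_of_mem _ htΩ) (scalar_of_sq_one t htt) (nonscalar_of_ne_one t htt ht1)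
    obtain ⟨a, a', ⟨e₁, he₁⟩, ⟨e₂, he₂⟩, h9, h10, h11, -⟩ := alt_parts hQ hcard t htt hat W h6 (fun w hw => h8 ⟨w, hw, rfl⟩)
    omega
  · rintro hR x ⟨g, hg, rfl⟩ ⟨z, hz⟩ hns
    have htt := sq_one_of_scalar hQ g hz
    have ht1 : g ≠ 1 := by
      rintro rfl
      exact hns 1 (by simp)
    have hkd : k ≤ d := by omega
    obtain ⟨h1, h3, h4⟩ := transfer (plusQ d F) (polarNondeg_plusQ k) (plusEmb hkd) (plusEmb_Q hkd)
    have h4' : Cfsg.Geo.IsPlusTypeOn (⇑(plusQ d F)) (LinearMap.range (plusEmb (F := F) hkd)) := h4.2 (lag_plusQ k)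
    have hR' : d % 2 = 1 ∨ m % 4 = 0 := by
      rcases hR with h | h
      · exact Or.inl (Nat.odd_iff.1 h)
      · exact Or.inr h
    have hrk : ∀ t : ↥(Cfsg.isometryGroup F ⇑(plusQ d F)), t * t = 1 → IsAltT t → rk t ≤ d := by
      intro t htt _
      have hle : 2 * rk t ≤ finrank F (Fin d ⊕ Fin d → F) := two_mul_finrank_range_le hB (isQuadN_nM htt).adj
      rw [Module.finrank_fintype_fun_eq_card, hcard] at hle
      omega
    obtain ⟨g₀, hg₀⟩ := back_gen hB hcard (LinearMap.range (plusEmb (F := F) hkd)) (fun s hs hsd => by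
        refine exists_nonalt_of_frame hB (plusOne d F) (plus_one_ind d) (plus_one_polar d) (plus_one_Q d) _ (fun j => ?_) s hs (by simpa using hsd)
        by_cases hj : j.val < k
        · left
          rw [mem_plusEmb]
          intro j' hj'
          have hne : j' ≠ j := by
            rintro rfl
            omega
          simp [plusOne, Pi.single_apply, hne]
        · right
          intro x hx
          obtain ⟨h5, h6⟩ := (mem_plusEmb hkd x).1 hx j (by omega)
          rw [polar_comm, plusOne, polar_add_left, coe_plusQ, polar_plus_single_inl, polar_plus_single_inr, h5, h6, add_zero])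
      (fun K hK hKn => by
        obtain ⟨K₁, K₂, h5, h6, h7⟩ : ∃ K₁ K₂, K₁ + K₂ = K ∧ 2 * K₁ ≤ k ∧ k + 2 * K₂ ≤ d :=
          ⟨min K (k / 2), K - min K (k / 2), by omega, by omega, by omega⟩
        subst h5
        refine exists_alt_of_frame hB (k := k) (plusZero d F) (plus_frame_ind d) (plus_frame_polar d) (plus_frame_Q d) _ (fun j hj => ?_) (fun j hj x hx => ?_) h6 h7
        · rw [mem_plusEmb]
          intro j' hj'
          have hne : j' ≠ j := by
            rintro rfl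
            omega
          simp [plusZero, Pi.single_apply, hne]
        · obtain ⟨h8, h9⟩ := (mem_plusEmb hkd x).1 hx j hj
          rw [polar_comm, coe_plusQ, plusZero, polar_plus_single_inl, h9])
      hrk g htt ht1
    refine ⟨gMap g₀ (LinearMap.range (plusEmb (F := F) hkd)), ⟨?_, nondeg_gMap g₀ h3, (plus_gMap_iff g₀).2 h4'⟩, fun _ ⟨w, hw, hww⟩ => ?_⟩
    · rw [finrank_gMap, h1, Module.finrank_fintype_fun_eq_card]
      simp [Fintype.card_sum]
      omega
    · rw [← hww]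
      exact hg₀ w hw

/-- The minus frame facts. -/
theorem minus_frame_ind (n : ℕ) : LinearIndependent F (minusZero n F) := by
  refine linInd_of_coord _ (fun i => Sum.inl (Sum.inl i)) fun i j => ?_
  simp [minusZero, Pi.single_apply, Sum.inl.injEq, eq_comm]

theorem minus_frame_polar (n : ℕ) (a b : F) (i j : Fin n) : polar (⇑(minusQ n F a b)) (minusZero n F i) (minusZero n F j) = 0 := by
  rw [coe_minusQ, minusZero, polar_minus_single_inl]
  simp [minusZero, Pi.single_apply]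

theorem minus_frame_Q (n : ℕ) (a b : F) (i : Fin n) : minusQ n F a b (minusZero n F i) = 0 := by
  rw [minusQ_apply, Cfsg.quadFormMinus]
  simp [minusZero, Pi.single_apply]

theorem minus_one_ind (n : ℕ) : LinearIndependent F (minusOne n F) := by
  refine linInd_of_coord _ (minusCoord n) fun i j => ?_
  rcases i with _ | i <;> rcases j with _ | j <;>
    simp [minusOne, minusCoord, Pi.single_apply, Sum.inl.injEq, eq_comm]

theorem minus_one_polar (n : ℕ) (a b : F) (i j : Option (Fin n)) : polar (⇑(minusQ n F a b)) (minusOne n F i) (minusOne n F j) = 0 := by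
  have h2 := two_eq_zero' F
  rcases i with _ | i
  · rw [coe_minusQ, minusOne, polar_minus_single_z0, h2, zero_mul, zero_add]
    rcases j with _ | j <;> simp [minusOne, Pi.single_apply]
  · rw [minusOne, polar_add_left, coe_minusQ, polar_minus_single_inl, polar_minus_single_inr]
    rcases j with _ | j
    · simp [minusOne, Pi.single_apply]
    · simp only [minusOne, Pi.add_apply, Pi.single_apply]
      simp only [Sum.inr.injEq, Sum.inl.injEq, reduceCtorEq, if_false, add_zero, zero_add]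
      rw [← two_mul, h2, zero_mul]

theorem minus_one_Q (n : ℕ) (a b : F) (i : Option (Fin n)) : minusQ n F a b (minusOne n F i) = 1 := by
  rw [minusQ_apply, Cfsg.quadFormMinus]
  rcases i with _ | i
  · simp [minusOne, Pi.single_apply]
  · rw [Finset.sum_eq_single i]
    · simp [minusOne, Pi.single_apply]
    · intro c _ hc
      simp [minusOne, Pi.single_apply, hc, hc.symm]
    · intro h
      exact absurd (Finset.mem_univ _) h

/-- Characteristic two: elliptic subspaces of the minus form. -/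
theorem char2_minus_iff {d m : ℕ} (hd : 4 ≤ d) (hm2 : 2 ≤ m) (hme : Even m) (hmd : m + 2 ≤ 2 * d)
    {a b : F} (hab : ∀ x y : F, x ^ 2 + a * x * y + b * y ^ 2 = 0 → x = 0 ∧ y = 0) :
    (∀ x : GL ((Fin (d - 1) ⊕ Fin (d - 1)) ⊕ Fin 2) F, x ∈ Cfsg.Geo.omegaGL (⇑(minusQ (d - 1) F a b)) →
      (∃ z : F, ((x ^ 2 : GL ((Fin (d - 1) ⊕ Fin (d - 1)) ⊕ Fin 2) F) : Matrix ((Fin (d - 1) ⊕ Fin (d - 1)) ⊕ Fin 2) ((Fin (d - 1) ⊕ Fin (d - 1)) ⊕ Fin 2) F) = z • (1 : Matrix ((Fin (d - 1) ⊕ Fin (d - 1)) ⊕ Fin 2) ((Fin (d - 1) ⊕ Fin (d - 1)) ⊕ Fin 2) F)) →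
      (∀ z : F, (x : Matrix ((Fin (d - 1) ⊕ Fin (d - 1)) ⊕ Fin 2) ((Fin (d - 1) ⊕ Fin (d - 1)) ⊕ Fin 2) F) ≠ z • (1 : Matrix ((Fin (d - 1) ⊕ Fin (d - 1)) ⊕ Fin 2) ((Fin (d - 1) ⊕ Fin (d - 1)) ⊕ Fin 2) F)) →
      ∃ W : Submodule F ((Fin (d - 1) ⊕ Fin (d - 1)) ⊕ Fin 2 → F), (finrank F W = m ∧ Cfsg.Geo.IsNondegenerateOn (polar (⇑(minusQ (d - 1) F a b))) W ∧ ¬ Cfsg.Geo.IsPlusTypeOn (⇑(minusQ (d - 1) F a b)) W) ∧
        W.map (Matrix.toLin' (x : Matrix ((Fin (d - 1) ⊕ Fin (d - 1)) ⊕ Fin 2) ((Fin (d - 1) ⊕ Fin (d - 1)) ⊕ Fin 2) F)) ≤ W) ↔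
    (Even d ∨ m % 4 = 2) := by
  classical
  have hQ := polarNondeg_minusQ (d - 1) hab
  have hB := nondeg_of_polarNondeg _ hQ
  have hcard : Fintype.card ((Fin (d - 1) ⊕ Fin (d - 1)) ⊕ Fin 2) = 2 * d := by
    simp [Fintype.card_sum]
    omega
  haveI hne : Nonempty ((Fin (d - 1) ⊕ Fin (d - 1)) ⊕ Fin 2) := ⟨Sum.inr 0⟩
  obtain ⟨k, hk⟩ := hme
  constructor
  · intro H0
    by_contra hR
    obtain ⟨hR1, hR2⟩ := not_or.1 hR
    have hodd : d % 2 = 1 := by
      rw [Nat.even_iff] at hR1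
      omega
    obtain ⟨K, hK⟩ : ∃ K, d - 1 = 2 * K := ⟨(d - 1) / 2, by omega⟩
    obtain ⟨t, htt, hrk, hat, -⟩ := exists_alt_of_frame hB (n := d - 1) (k := d - 1) (K₁ := K) (K₂ := 0) (minusZero (d - 1) F) (minus_frame_ind (d - 1))
      (minus_frame_polar (d - 1) a b) (minus_frame_Q (d - 1) a b) ⊤ (fun _ _ => Submodule.mem_top) (fun j hj => absurd j.2 (by omega)) (by omega) (by omega)
    have ht1 : t ≠ 1 := ne_one_of_rk (by omega)
    have htΩ : t ∈ Cfsg.Omega F ⇑(minusQ (d - 1) F a b) := (Cfsg.Agent.Lib.Classical.Orth.DicksonRank.mem_omega_iff_rank_even hB (Or.inr (by omega)) t).2 (by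
      show Even (rk t)
      rw [hrk]
      exact even_two_mul _)
    obtain ⟨W, ⟨h5, h6, h7⟩, h8⟩ := H0 (t : GL ((Fin (d - 1) ⊕ Fin (d - 1)) ⊕ Fin 2) F) (Subgroup.mem_map_of_mem _ htΩ) (scalar_of_sq_one t htt) (nonscalar_of_ne_one t htt ht1)
    obtain ⟨a, a', ⟨e₁, he₁⟩, ⟨e₂, he₂⟩, h9, h10, h11, h12⟩ := alt_parts hQ hcard t htt hat W h6 (fun w hw => h8 ⟨w, hw, rfl⟩)
    have h13 : 2 * a ≠ finrank F W := fun h => h7 (h12 h)
    omega
  · rintro hR x ⟨g, hg, rfl⟩ ⟨z, hz⟩ hns
    have htt := sq_one_of_scalar hQ g hz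
    have ht1 : g ≠ 1 := by
      rintro rfl
      exact hns 1 (by simp)
    obtain ⟨k', hk'⟩ : ∃ k', k = k' + 1 := ⟨k - 1, by omega⟩
    have hkd : k' ≤ d - 1 := by omega
    obtain ⟨h1, h3, h4⟩ := transfer (minusQ (d - 1) F a b) (polarNondeg_minusQ k' hab) (minusEmb hkd) (minusEmb_Q hkd a b)
    have h4' : ¬ Cfsg.Geo.IsPlusTypeOn (⇑(minusQ (d - 1) F a b)) (LinearMap.range (minusEmb (F := F) hkd)) :=
      fun h => not_lag_minusQ k' hab (h4.1 h)
    have hR' : d % 2 = 0 ∨ m % 4 = 2 := by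
      rcases hR with h | h
      · exact Or.inl (Nat.even_iff.1 h)
      · exact Or.inr h
    have hrk : ∀ t : ↥(Cfsg.isometryGroup F ⇑(minusQ (d - 1) F a b)), t * t = 1 → IsAltT t → rk t ≤ d - 1 := by
      intro t htt ha
      refine Cfsg.Agent.Lib.Classical.Witt.Index.finrank_le_of_ts_minus (d - 1) hab _ ?_
      rintro _ ⟨x, rfl⟩
      exact Q_nM_of_alt htt ha x
    obtain ⟨g₀, hg₀⟩ := back_gen (n := d - 1) hB hcard (LinearMap.range (minusEmb (F := F) hkd)) (fun s hs hsd => by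
        refine exists_nonalt_of_frame hB (minusOne (d - 1) F) (minus_one_ind (d - 1)) (minus_one_polar (d - 1) a b) (minus_one_Q (d - 1) a b) _ (fun j => ?_) s hs (by
          simp only [Fintype.card_option, Fintype.card_fin]
          omega)
        rcases j with _ | j
        · left
          rw [mem_minusEmb]
          intro j' hj'
          simp [minusOne, Pi.single_apply]
        · by_cases hj : j.val < k'
          · left
            rw [mem_minusEmb]
            intro j' hj'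
            have hne : j' ≠ j := by
              rintro rfl
              omega
            simp [minusOne, Pi.single_apply, hne]
          · right
            intro x hx
            obtain ⟨h5, h6⟩ := (mem_minusEmb hkd x).1 hx j (by omega)
            rw [polar_comm, minusOne, polar_add_left, coe_minusQ, polar_minus_single_inl, polar_minus_single_inr, h5, h6, add_zero])
      (fun K hK hKn => by
        obtain ⟨K₁, K₂, h5, h6, h7⟩ : ∃ K₁ K₂, K₁ + K₂ = K ∧ 2 * K₁ ≤ k' ∧ k' + 2 * K₂ ≤ d - 1 :=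
          ⟨min K (k' / 2), K - min K (k' / 2), by omega, by omega, by omega⟩
        subst h5
        refine exists_alt_of_frame hB (k := k') (minusZero (d - 1) F) (minus_frame_ind (d - 1)) (minus_frame_polar (d - 1) a b) (minus_frame_Q (d - 1) a b) _ (fun j hj => ?_) (fun j hj x hx => ?_) h6 h7
        · rw [mem_minusEmb]
          intro j' hj'
          have hne : j' ≠ j := by
            rintro rfl
            omega
          simp [minusZero, Pi.single_apply, hne]
        · obtain ⟨h8, h9⟩ := (mem_minusEmb hkd x).1 hx j hj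
          rw [polar_comm, coe_minusQ, minusZero, polar_minus_single_inl, h9])
      hrk g htt ht1
    refine ⟨gMap g₀ (LinearMap.range (minusEmb (F := F) hkd)), ⟨?_, nondeg_gMap g₀ h3, fun h => h4' ((plus_gMap_iff g₀).1 h)⟩, fun _ ⟨w, hw, hww⟩ => ?_⟩
    · rw [finrank_gMap, h1, Module.finrank_fintype_fun_eq_card]
      simp [Fintype.card_sum]
      omega
    · rw [← hww]
      exact hg₀ w hw

end Final

end Cfsg.Agent.Lib.Classical.OSemi.NondegD
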