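import Mathlib
import Cfsg.Agent.Lib.Classical.OSemi.NondegK

/-!
# Odd dimensional subspaces, minus type, `d` even, `r = p`
-/

set_option autoImplicit false
set_option linter.unusedSectionVars false
set_option linter.unusedSimpArgs false
set_option linter.unusedVariables false
set_option linter.style.haveILetI false
set_option maxHeartbeats 1000000

open Module QuadraticMap Matrix
open Cfsg Cfsg.Agent.Lib.Classical.Witt.Hyp Cfsg.Agent.Lib.Linalg.OrthModels Cfsg.Agent.Lib.Linalg.Bridge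
open Cfsg.Agent.Lib.Classical.OSemi.Lag Cfsg.Agent.Lib.Classical.OSemi.LagFree
open Cfsg.Agent.Lib.Classical.OSemi.Decomp Cfsg.Agent.Lib.Classical.OSemi.Coprime
open Cfsg.Agent.Lib.Classical.OSemi.NondegE Cfsg.Agent.Lib.Classical.OSemi.NondegG Cfsg.Agent.Lib.Classical.OSemi.NondegJ
open Cfsg.Agent.Lib.Classical.OSemi.NondegP
open Cfsg.Agent.Lib.Classical.Witt.TS
open Cfsg.Agent.Lib.Classical.Elusive.Inv Cfsg.Agent.Lib.Classical.Elusive.JordanType
open Cfsg.Agent.Lib.Classical.OJordan.Model Cfsg.Agent.Lib.Classical.OJordan.Plus Cfsg.Agent.Lib.Classical.OJordan.Combi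
open Cfsg.Agent.Lib.Classical.Spectra.Bridge
open Cfsg.Agent.Lib.Classical.Orth.Basic

namespace Cfsg.Agent.Lib.Classical.OSemi.NondegL

universe u

section Abstract

variable {F : Type u} [Field F] [Fintype F]

/-- The line form. -/
noncomputable def lineQ (ε : F) : QuadraticForm F F := ε • QuadraticMap.sq (R := F)

theorem lineQ_apply (ε t : F) : lineQ ε t = ε * (t * t) := rfl

theorem lineQ_nondeg (h2 : (2 : F) ≠ 0) {ε : F} (hε : ε ≠ 0) : PolarNondeg (lineQ ε) := by
  intro a ha
  have h1 := ha 1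
  rw [polar, lineQ_apply, lineQ_apply, lineQ_apply] at h1
  have h3 : 2 * ε * a = 0 := by linear_combination h1
  exact (mul_eq_zero.1 h3).resolve_left (mul_ne_zero h2 hε)

theorem lag_line_pair {ε : F} (h2 : (2 : F) ≠ 0) : Lag ((lineQ ε).prod (lineQ (-ε))) := by
  let L : F →ₗ[F] F × F := LinearMap.prod LinearMap.id LinearMap.id
  have hL : Function.Injective L := fun a b h => congrArg Prod.fst h
  refine ⟨LinearMap.range L, ?_, ?_⟩
  · rintro _ ⟨t, rfl⟩
    show lineQ ε t + lineQ (-ε) t = 0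
    rw [lineQ_apply, lineQ_apply]
    ring
  · rw [LinearMap.finrank_range_of_inj hL, Module.finrank_prod, Module.finrank_self]

variable {A B : Type u} [AddCommGroup A] [Module F A] [FiniteDimensional F A] [AddCommGroup B] [Module F B] [FiniteDimensional F B]

/-- Two odd dimensional pieces. -/
theorem lag_four (h2 : (2 : F) ≠ 0) {QA : QuadraticForm F A} {QB : QuadraticForm F B} (hA : PolarNondeg QA) (hB : PolarNondeg QB) {ε : F} (hε : ε ≠ 0)
    {a b : ℕ} (hda : finrank F A + 1 = 2 * a) (hdb : finrank F B + 1 = 2 * b)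
    (h1 : Lag (QA.prod (lineQ ε))) (h3 : Lag (QB.prod (lineQ (-ε)))) : Lag (QA.prod QB) := by
  have hε' : -ε ≠ 0 := neg_ne_zero.2 hε
  have hn1 := polarNondeg_prod hA (lineQ_nondeg h2 hε)
  have hn2 := polarNondeg_prod hB (lineQ_nondeg h2 hε')
  have hd1 : finrank F (A × F) = 2 * a := by
    rw [Module.finrank_prod, Module.finrank_self]
    exact hda
  have hd2 : finrank F (B × F) = 2 * b := by
    rw [Module.finrank_prod, Module.finrank_self]
    exact hdb
  have hAll := (lag_prod' hn1 hn2 hd1 hd2).2 (iff_of_true h1 h3)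
  let φ : ((A × F) × (B × F)) ≃ₗ[F] ((A × B) × (F × F)) := LinearEquiv.prodProdProdComm F A F B F
  have hφ : ∀ v, ((QA.prod QB).prod ((lineQ ε).prod (lineQ (-ε)))) (φ v) = ((QA.prod (lineQ ε)).prod (QB.prod (lineQ (-ε)))) v := by
    rintro ⟨⟨x, s⟩, ⟨y, t⟩⟩
    show QA x + QB y + (lineQ ε s + lineQ (-ε) t) = QA x + lineQ ε s + (QB y + lineQ (-ε) t)
    ring
  have hAll' := (lag_congr_iff φ hφ).1 hAll
  have hn3 := polarNondeg_prod hA hB
  have hn4 := polarNondeg_prod (lineQ_nondeg h2 hε) (lineQ_nondeg h2 hε')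
  have hd3 : finrank F (A × B) = 2 * (a + b - 1) := by
    rw [Module.finrank_prod]
    omega
  have hd4 : finrank F (F × F) = 2 * 1 := by
    rw [Module.finrank_prod, Module.finrank_self]
  exact ((lag_prod' hn3 hn4 hd3 hd4).1 hAll').2 (lag_line_pair h2)

/-- A totally singular subspace and an orthogonal vector with a given value. -/
theorem lag_of_line (QA : QuadraticForm F A) (X' : Submodule F A) (hX' : ∀ x ∈ X', QA x = 0) {ε : F} (w₀ : A) (hQw₀ : QA w₀ = ε)
    (hperp : ∀ x ∈ X', polar QA x w₀ = 0) (hd : finrank F A = 2 * finrank F X' + 1) : Lag (QA.prod (lineQ (-ε))) := by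
  classical
  let L : (X' × F) →ₗ[F] (A × F) := LinearMap.prod (X'.subtype ∘ₗ LinearMap.fst F X' F + (LinearMap.toSpanSingleton F A w₀) ∘ₗ LinearMap.snd F X' F) (LinearMap.snd F X' F)
  have hLa : ∀ (x : X') (s : F), L (x, s) = ((x : A) + s • w₀, s) := fun _ _ => rfl
  have hLi : Function.Injective L := by
    rw [injective_iff_map_eq_zero]
    rintro ⟨x, s⟩ h
    rw [hLa] at h
    have h1 : s = 0 := congrArg Prod.snd h
    have h3 := congrArg Prod.fst h
    simp only [h1, zero_smul, add_zero] at h3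
    have h4 : x = 0 := Subtype.ext h3
    rw [h1, h4]
    rfl
  refine ⟨LinearMap.range L, ?_, ?_⟩
  · rintro _ ⟨⟨x, s⟩, rfl⟩
    rw [hLa]
    show QA ((x : A) + s • w₀) + lineQ (-ε) s = 0
    have h3 := QuadraticMap.map_add (⇑QA) (x : A) (s • w₀)
    rw [h3, hX' _ x.2, QuadraticMap.map_smul, hQw₀, polar_smul_right, hperp _ x.2, lineQ_apply]
    simp only [smul_eq_mul, mul_zero, zero_add, add_zero]
    ring
  · rw [LinearMap.finrank_range_of_inj hLi, Module.finrank_prod, Module.finrank_prod, Module.finrank_self, hd]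
    ring

end Abstract

section Main

variable {ι' : Type} [Fintype ι'] [DecidableEq ι'] {F : Type u} [Field F] [Fintype F]
variable {Q : QuadraticForm F (ι' → F)}

theorem gg_one_of_mem {ν : Multiset ℕ} (h : ∀ x ∈ ν, x = 1 ∨ x = 2) : gg ν 1 = ν.count 2 := by
  induction ν using Multiset.induction_on with
  | empty => simp [gg]
  | cons a s ih =>
    have h1 : gg (a ::ₘ s) 1 = (a - 1) + gg s 1 := by simp [gg]
    rw [h1, ih (fun x hx => h x (Multiset.mem_cons_of_mem hx))]
    rcases h a (Multiset.mem_cons_self _ _) with rfl | rfl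
    · simp
    · simp [Multiset.count_cons]
      ring

/-- A piece of type `1, 2^b` with a given form on its fixed vectors. -/
theorem lag_of_part (h2 : (2 : F) ≠ 0) (hQ : PolarNondeg Q) {N : Module.End F (ι' → F)} (hIso : ∀ v, Q (v + N v) = Q v) {ε : F}
    (hker : ∀ w, N w = 0 → ∃ t, Q w = ε * (t * t)) {A : Submodule F (ι' → F)} (hAn : PolarNondeg (Q.comp A.subtype)) (hAi : IsInv N A)
    {b : ℕ} (hAd : finrank F A = 2 * b + 1) (hNd : finrank F (A.map N) = b) (hN2 : ∀ a ∈ A, N (N a) = 0) (hε : ε ≠ 0) :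
    Lag ((Q.comp A.subtype).prod (lineQ (-ε))) := by
  classical
  have hpol : ∀ x y, polar (⇑Q) (x + N x) (y + N y) = polar (⇑Q) x y := by
    intro x y
    have e : x + N x + (y + N y) = (x + y) + N (x + y) := by
      rw [map_add]
      abel
    rw [polar, polar, e, hIso, hIso, hIso]
  have hpol2 : ∀ x y, polar (⇑Q) x (N y) + polar (⇑Q) (N x) y + polar (⇑Q) (N x) (N y) = 0 := by
    intro x y
    have h1 := hpol x y
    rw [polar_add_left, polar_add_right, polar_add_right] at h1
    linear_combination h1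
  -- the image
  obtain ⟨X, hXdef⟩ : ∃ X, X = A.map N := ⟨_, rfl⟩
  rw [← hXdef] at hNd
  have hXA : X ≤ A := by
    rw [hXdef]
    rintro _ ⟨a, ha, rfl⟩
    exact hAi a ha
  have hXts : ∀ x ∈ X, Q x = 0 := by
    rw [hXdef]
    rintro _ ⟨a, ha, rfl⟩
    have h1 := hpol2 (N a) a
    rw [hN2 a ha, polar_zero_left, polar_zero_left] at h1
    have h3 : polar (⇑Q) (N a) (N a) = 0 := by simpa using h1
    rw [polar_self_eq] at h3
    exact (mul_eq_zero.1 h3).resolve_left h2
  -- the kernel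
  obtain ⟨K, hKdef⟩ : ∃ K, K = A ⊓ LinearMap.ker N := ⟨_, rfl⟩
  have hXK : X ≤ K := by
    rw [hXdef, hKdef]
    rintro _ ⟨a, ha, rfl⟩
    exact ⟨hAi a ha, hN2 a ha⟩
  have hKd : finrank F K = b + 1 := by
    have h1 := LinearMap.finrank_range_add_finrank_ker (N.domRestrict A)
    rw [LinearMap.range_domRestrict, ← hXdef, hNd, LinearMap.ker_domRestrict, finrank_comap_subtype, ← hKdef, hAd] at h1
    omega
  obtain ⟨w, hwK, hwX⟩ : ∃ w ∈ K, w ∉ X := by
    by_contra hcon
    push Not at hcon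
    have h1 : K ≤ X := hcon
    have h3 := Submodule.finrank_mono h1
    omega
  have hwA : w ∈ A := by
    rw [hKdef] at hwK
    exact hwK.1
  have hwN : N w = 0 := by
    rw [hKdef] at hwK
    exact hwK.2
  have hXw : ∀ x ∈ X, polar (⇑Q) x w = 0 := by
    rw [hXdef]
    rintro _ ⟨a, ha, rfl⟩
    have h1 := hpol2 a w
    rw [hwN, polar_zero_right, polar_zero_right] at h1
    simpa using h1
  obtain ⟨t, ht⟩ := hker w hwN
  have ht0 : t ≠ 0 := by
    rintro rfl
    have hQw : Q w = 0 := by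
      rw [ht]
      ring
    have hts : IsTS Q (X ⊔ Submodule.span F {w}) := IsTS.sup_span (show IsTS Q X from hXts) hQw hXw
    have h1 := two_mul_le_of_ts hAn hts
    have h3 : A ⊓ (X ⊔ Submodule.span F {w}) = X ⊔ Submodule.span F {w} := by
      rw [inf_eq_right]
      refine sup_le hXA ?_
      rw [Submodule.span_singleton_le_iff_mem]
      exact hwA
    rw [h3, finrank_sup_span_add _ hwX, hNd] at h1
    omega
  -- the vector
  obtain ⟨w₀, hw₀⟩ : ∃ w₀, w₀ = t⁻¹ • w := ⟨_, rfl⟩
  have hw₀A : w₀ ∈ A := by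
    rw [hw₀]
    exact A.smul_mem _ hwA
  have hQw₀ : Q w₀ = ε := by
    rw [hw₀, Q_smul, ht]
    field_simp
  have hXw₀ : ∀ x ∈ X, polar (⇑Q) x w₀ = 0 := by
    intro x hx
    rw [hw₀, polar_smul_right', hXw x hx]
    ring
  -- the totally singular subspace
  have hX'd : finrank F ↥(X.comap A.subtype) = b := by
    rw [finrank_comap_subtype, inf_eq_right.2 hXA, hNd]
  refine lag_of_line (Q.comp A.subtype) (X.comap A.subtype) (fun x hx => hXts _ hx) ⟨w₀, hw₀A⟩ hQw₀ (fun x hx => ?_) (by rw [hX'd, hAd])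
  rw [polar_comp_sub]
  exact hXw₀ _ hx

end Main

end Cfsg.Agent.Lib.Classical.OSemi.NondegL
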