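import Mathlib
import Cfsg.Agent.Lib.Classical.OSemi.NondegL

/-!
# Odd dimensional subspaces, minus type, `d` even, `r = p`: the element
-/

set_option autoImplicit false
set_option linter.unusedSectionVars false
set_option linter.unusedSimpArgs false
set_option linter.unusedVariables false
set_option linter.style.haveILetI false
set_option maxHeartbeats 1000000

open Module QuadraticMap Matrix
open Cfsg Cfsg.Agent.Lib.Classical.Witt.Hyp Cfsg.Agent.Lib.Linalg.OrthModels Cfsg.Agent.Lib.Linalg.Bridge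
open Cfsg.Agent.Lib.Classical.OSemi.Lag Cfsg.Agent.Lib.Classical.OSemi.LagFree
open Cfsg.Agent.Lib.Classical.OSemi.Decomp Cfsg.Agent.Lib.Classical.OSemi.Coprime
open Cfsg.Agent.Lib.Classical.OSemi.NondegE Cfsg.Agent.Lib.Classical.OSemi.NondegG Cfsg.Agent.Lib.Classical.OSemi.NondegJ
open Cfsg.Agent.Lib.Classical.OSemi.NondegP Cfsg.Agent.Lib.Classical.OSemi.NondegL Cfsg.Agent.Lib.Classical.OSemi.Invol
open Cfsg.Agent.Lib.Classical.Witt.TS
open Cfsg.Agent.Lib.Classical.Elusive.Inv Cfsg.Agent.Lib.Classical.Elusive.JordanType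
open Cfsg.Agent.Lib.Classical.OJordan.Model Cfsg.Agent.Lib.Classical.OJordan.Plus Cfsg.Agent.Lib.Classical.OJordan.Combi
open Cfsg.Agent.Lib.Classical.Spectra.Bridge
open Cfsg.Agent.Lib.Classical.Orth.Basic

namespace Cfsg.Agent.Lib.Classical.OSemi.NondegM

universe u

section Conj

variable {F : Type*} [Field F] {V V' : Type*} [AddCommGroup V] [Module F V] [AddCommGroup V'] [Module F V']

theorem finrank_conj (ψ : V ≃ₗ[F] V') (N' : Module.End F V') (k : ℕ) :
    finrank F ((⊤ : Submodule F V).map (((ψ.symm : V' →ₗ[F] V) ∘ₗ N' ∘ₗ (ψ : V →ₗ[F] V')) ^ k)) =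
      finrank F ((⊤ : Submodule F V').map (N' ^ k)) := by
  have e : (⊤ : Submodule F V).map (((ψ.symm : V' →ₗ[F] V) ∘ₗ N' ∘ₗ (ψ : V →ₗ[F] V')) ^ k) =
      ((⊤ : Submodule F V').map (N' ^ k)).map (ψ.symm : V' →ₗ[F] V) := by
    ext x
    simp only [Submodule.mem_map, Submodule.mem_top, true_and]
    constructor
    · rintro ⟨y, rfl⟩
      refine ⟨(N' ^ k) (ψ y), ⟨ψ y, rfl⟩, ?_⟩
      rw [Cfsg.Agent.Lib.Classical.OJordan.Model.conj_pow]
      rfl
    · rintro ⟨_, ⟨y, rfl⟩, rfl⟩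
      refine ⟨ψ.symm y, ?_⟩
      rw [Cfsg.Agent.Lib.Classical.OJordan.Model.conj_pow]
      simp
  rw [e]
  exact LinearEquiv.finrank_map_eq ψ.symm _

end Conj

section Model

variable {ι' : Type} [Fintype ι'] [DecidableEq ι'] {F : Type u} [Field F] [Fintype F]
variable {Q : QuadraticForm F (ι' → F)}

/-- The element with a prescribed value on its fixed vectors. -/
theorem exists_model_eps (h2F : (2 : F) ≠ 0) (hQ : PolarNondeg Q) {d : ℕ} (hcard : Fintype.card ι' = 2 * d) (hd : 4 ≤ d) (hdev : Even d) {ε : F} (hε : ε ≠ 0) :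
    ∃ N : Module.End F (ι' → F), (∀ v, Q (v + N v) = Q v) ∧
      (∀ k, finrank F ((⊤ : Submodule F (ι' → F)).map (N ^ k)) = gg (1 ::ₘ 3 ::ₘ Multiset.replicate (d - 2) 2) k) ∧
      ∀ w, N w = 0 → ∃ t, Q w = ε * (t * t) := by
  classical
  have hV : finrank F (ι' → F) = 2 * d := by
    rw [Module.finrank_fintype_fun_eq_card, hcard]
  obtain ⟨u, hu⟩ := exists_represent h2F Q hQ (by omega) ε
  let f₀ : F →ₗ[F] (ι' → F) := LinearMap.toSpanSingleton F _ u
  have hf₀ : ∀ t, Q (f₀ t) = lineQ ε t := by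
    intro t
    show Q (t • u) = _
    rw [Q_smul, hu, lineQ_apply]
    ring
  obtain ⟨P, _, _, _, QP, e, hPn, hPd, he⟩ := exists_compl_abs Q hQ (lineQ ε) (lineQ_nondeg h2F hε) f₀ hf₀
  rw [Module.finrank_self, hV] at hPd
  obtain ⟨r₀, hr₀⟩ := hdev
  obtain ⟨N', h1, h3⟩ := hasType_odd h2F QP (nondeg_of_polarNondeg QP hPn) (⟨d - 1, by omega⟩ : Odd (finrank F P))
    (μ := 3 ::ₘ Multiset.replicate (d - 2) 2)
    (by
      intro x hx
      rw [Multiset.mem_cons, Multiset.mem_replicate] at hx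
      rcases hx with rfl | ⟨-, rfl⟩ <;> omega)
    (by
      simp only [Multiset.sum_cons, Multiset.sum_replicate, smul_eq_mul]
      omega)
    (even_count_model1 (by decide) ⟨r₀ - 1, by omega⟩)
  have hg1 : gg (3 ::ₘ Multiset.replicate (d - 2) 2) 1 = d := by
    simp [gg]
    omega
  have hg2 : gg (3 ::ₘ Multiset.replicate (d - 2) 2) 2 = 1 := by
    simp [gg]
  -- the fixed vectors of `N'`
  have hQP0 : ∀ p, N' p = 0 → QP p = 0 := by
    intro p hp
    have hR : finrank F (LinearMap.range N') = d := by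
      have h4 := h3 1
      rwa [pow_one, hg1, Submodule.map_top] at h4
    have hK := LinearMap.finrank_range_add_finrank_ker N'
    have hRK := LinearMap.finrank_range_add_finrank_ker (N'.domRestrict (LinearMap.range N'))
    have hRm : LinearMap.range (N'.domRestrict (LinearMap.range N')) = (⊤ : Submodule F P).map (N' ^ 2) := by
      rw [LinearMap.range_domRestrict, pow_two, Module.End.mul_eq_comp, Submodule.map_comp, Submodule.map_top]
    rw [hRm, h3 2, hg2, LinearMap.ker_domRestrict, finrank_comap_subtype, hR] at hRK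
    rw [hR] at hK
    have hle : LinearMap.ker N' ≤ LinearMap.range N' := by
      have h5 : LinearMap.range N' ⊓ LinearMap.ker N' = LinearMap.ker N' := Submodule.eq_of_le_of_finrank_eq inf_le_right (by omega)
      exact inf_eq_right.1 h5
    obtain ⟨y, rfl⟩ := hle hp
    have h6 : polar (⇑QP) (y + N' y) (N' y) = polar (⇑QP) y (N' y) := by
      have h7 : polar (⇑QP) (y + N' y) (N' y + N' (N' y)) = polar (⇑QP) y (N' y) := by
        have e7 : y + N' y + (N' y + N' (N' y)) = (y + N' y) + N' (y + N' y) := by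
          rw [map_add]
        rw [polar, polar, e7, h1, h1, h1]
      rwa [hp, add_zero] at h7
    rw [polar_add_left] at h6
    have h8 : polar (⇑QP) (N' y) (N' y) = 0 := by linear_combination h6
    rw [Cfsg.Agent.Lib.Classical.Witt.Hyp.polar_self] at h8
    exact (mul_eq_zero.1 h8).resolve_left h2F
  let N₀ : Module.End F (F × P) := (0 : Module.End F F).prodMap N'
  let N : Module.End F (ι' → F) := ((e.symm.symm : (F × P) ≃ₗ[F] (ι' → F)) : (F × P) →ₗ[F] (ι' → F)) ∘ₗ N₀ ∘ₗ ((e.symm : (ι' → F) ≃ₗ[F] (F × P)) : (ι' → F) →ₗ[F] (F × P))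
  have hNa : ∀ t p, N (e (t, p)) = e (0, N' p) := by
    intro t p
    show e (N₀ (e.symm (e (t, p)))) = _
    rw [LinearEquiv.symm_apply_apply]
    rfl
  refine ⟨N, ?_, ?_, ?_⟩
  · intro v
    obtain ⟨⟨t, p⟩, rfl⟩ := e.surjective v
    rw [hNa, ← map_add, he, he]
    show lineQ ε (t + 0) + QP (p + N' p) = lineQ ε t + QP p
    rw [add_zero, h1]
  · intro k
    rw [finrank_conj e.symm N₀ k]
    show finrank F ((⊤ : Submodule F (F × P)).map (((0 : Module.End F F).prodMap N') ^ k)) = _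
    rw [prodMap_pow, finrank_map_prodMap, h3 k]
    have h5 : (1 ::ₘ 3 ::ₘ Multiset.replicate (d - 2) 2) = {1} + (3 ::ₘ Multiset.replicate (d - 2) 2) := rfl
    rw [h5, gg_add]
    congr 1
    cases k with
    | zero =>
      rw [pow_zero]
      show finrank F ((⊤ : Submodule F F).map LinearMap.id) = _
      rw [Submodule.map_id, finrank_top, Module.finrank_self]
      simp [gg]
    | succ k =>
      rw [zero_pow (by omega), Submodule.map_zero, finrank_bot]
      simp [gg]
  · intro w hw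
    obtain ⟨⟨t, p⟩, rfl⟩ := e.surjective w
    rw [hNa] at hw
    have h5 : ((0 : F), N' p) = 0 := e.injective (by rw [hw, map_zero])
    have h6 : N' p = 0 := congrArg Prod.snd h5
    refine ⟨t, ?_⟩
    rw [he]
    show lineQ ε t + QP p = _
    rw [hQP0 p h6, add_zero, lineQ_apply]

end Model

section Pipeline

variable {ι : Type} [Fintype ι] [DecidableEq ι] {F : Type*} [Field F] [Fintype F] {p : ℕ} [Fact p.Prime] [CharP F p]
variable (Q : QuadraticForm F (ι → F))

theorem pipeline_N (hQ : (polarBilin Q).Nondegenerate) (h2F : (2 : F) ≠ 0) (hpo : Odd p)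
    (P : Submodule F (ι → F) → Prop) {m : ℕ}
    (H : ∀ x : GL ι F, x ∈ Cfsg.Geo.omegaGL (⇑Q) → x ^ p = 1 → (∀ z : F, (x : Matrix ι ι F) ≠ z • (1 : Matrix ι ι F)) →
      ∃ W : Submodule F (ι → F), (finrank F W = m ∧ Cfsg.Geo.IsNondegenerateOn (polar (⇑Q)) W ∧ P W) ∧
        W.map (Matrix.toLin' (x : Matrix ι ι F)) ≤ W)
    {μ : Multiset ℕ} (hμ : ∀ a ∈ μ, 0 < a ∧ a ≤ p) (h2 : ∃ a ∈ μ, 2 ≤ a) (N : Module.End F (ι → F)) (hIso : ∀ v, Q (v + N v) = Q v)
    (hType : ∀ k, finrank F ((⊤ : Submodule F (ι → F)).map (N ^ k)) = gg μ k) :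
    ∃ (ν ν' : Multiset ℕ) (W W' : Submodule F (ι → F)), μ = ν + ν' ∧ (∀ a ∈ ν, 0 < a) ∧ (∀ a ∈ ν', 0 < a) ∧ (∀ e : ℕ, Even e → Even (ν.count e)) ∧
      finrank F W = m ∧ Cfsg.Geo.IsNondegenerateOn (polar (⇑Q)) W ∧ P W ∧ IsInv N W ∧ IsInv N W' ∧ W ⊓ W' = ⊥ ∧ W ⊔ W' = ⊤ ∧
        (∀ a ∈ W, ∀ b ∈ W', polar (⇑Q) a b = 0) ∧ (∀ k, finrank F (W.map (N ^ k)) = gg ν k) ∧ (∀ k, finrank F (W'.map (N ^ k)) = gg ν' k) := by
  classical
  have hNp : N ^ p = 0 := eq_zero_of_gg hType (fun e he => (hμ e he).2)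
  have hp0 : 0 < p := (Fact.out : p.Prime).pos
  let T : Module.End F (ι → F) := 1 + N
  have hTv : ∀ v, T v = v + N v := fun v => rfl
  have hTp : T ^ p = 1 := by
    rw [one_add_pow_char (p := p), hNp, add_zero]
  have hTiso : ∀ v, Q (T v) = Q v := hIso
  obtain ⟨g, hg⟩ := exists_iso Q T hTiso hp0 hTp
  have hgp : g ^ p = 1 := (Mat_pow_eq_one_iff Q g p).1 (by rw [hg]; exact hTp)
  have hgΩ : g ∈ Cfsg.Omega F (⇑Q) := mem_omega_of_odd Q hQ h2F hpo hgp
  have hact : ∀ v, ((g : GL ι F) : Matrix ι ι F) *ᵥ v = T v := by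
    intro v
    rw [← hg]
    rfl
  have hscal : ∀ z : F, ((g : GL ι F) : Matrix ι ι F) ≠ z • (1 : Matrix ι ι F) := by
    intro z hz
    have hNz : N = (z - 1) • (1 : Module.End F (ι → F)) := by
      apply LinearMap.ext
      intro v
      have h3 := hact v
      rw [hz, Matrix.smul_mulVec, Matrix.one_mulVec, hTv] at h3
      show N v = (z - 1) • v
      rw [sub_smul, one_smul, h3]
      abel
    have hN0 : N = 0 := by
      by_cases hz1 : z - 1 = 0
      · rw [hNz, hz1, zero_smul]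
      · have h3 : ((z - 1) • (1 : Module.End F (ι → F))) ^ p = 0 := by
          rw [← hNz, hNp]
        rw [_root_.smul_pow, one_pow] at h3
        have h4 : (1 : Module.End F (ι → F)) = 0 := (smul_eq_zero.1 h3).resolve_left (pow_ne_zero _ hz1)
        rw [← mul_one N, h4, mul_zero]
    have h3 := hType 1
    rw [hN0, pow_one] at h3
    have h4 : gg μ 1 = 0 := by
      rw [← h3, Submodule.map_zero, finrank_bot]
    obtain ⟨a, ha, ha2⟩ := h2
    have := le_of_gg_eq_zero h4 a ha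
    omega
  obtain ⟨W, ⟨hWm, hWnd, hPW⟩, hWinv⟩ := H (g : GL ι F) ⟨g, hgΩ, rfl⟩
    (congrArg Subtype.val hgp) hscal
  have hTW : ∀ w ∈ W, T w ∈ W := by
    intro w hw
    apply hWinv
    refine ⟨w, hw, ?_⟩
    rw [Matrix.toLin'_apply, hact]
  have hNW : IsInv N W := by
    intro w hw
    have h3 := W.sub_mem (hTW w hw) hw
    rwa [hTv, add_sub_cancel_left] at h3
  let B : LinearMap.BilinForm F (ι → F) := polarBilin Q
  have hBdef : ∀ x y, B x y = polar (⇑Q) x y := fun x y => rfl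
  have hS : ∀ x y, B x y = B y x := fun x y => polar_comm _ _ _
  have hBT : ∀ x y, B (T x) (T y) = B x y := by
    intro x y
    rw [hBdef, hBdef, polar, polar, ← map_add, hTiso, hTiso, hTiso]
  have hR : B.IsRefl := fun x y h => by rw [hS]; exact h
  have hres : (B.restrict W).Nondegenerate := by
    constructor
    · rintro ⟨x, hx⟩ h
      by_contra hne
      have hx0 : x ≠ 0 := fun h0 => hne (Subtype.ext h0)
      obtain ⟨y, hy, hy2⟩ := (hWnd x hx hx0).2
      exact hy2 (h ⟨y, hy⟩)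
    · rintro ⟨x, hx⟩ h
      by_contra hne
      have hx0 : x ≠ 0 := fun h0 => hne (Subtype.ext h0)
      obtain ⟨y, hy, hy2⟩ := (hWnd x hx hx0).1
      exact hy2 (h ⟨y, hy⟩)
  have hcompl := LinearMap.BilinForm.isCompl_orthogonal_of_restrict_nondegenerate hR hres
  have hW' : IsInv N (B.orthogonal W) := by
    intro v hv n hn
    have hv' : ∀ n ∈ W, B n v = 0 := fun n hn => hv n hn
    have h3 : T (((T ^ (p - 1))) n) = n := by
      rw [← Module.End.mul_apply, ← pow_succ', Nat.sub_add_cancel hp0, hTp]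
      rfl
    have h4 : (T ^ (p - 1)) n ∈ W := IsInv.pow (y := T) hTW (p - 1) hn
    have h5 : B n (T v) = 0 := by
      conv_lhs => rw [← h3]
      rw [hBT]
      exact hv' _ h4
    rw [hTv, map_add, hv' n hn, zero_add] at h5
    exact h5
  obtain ⟨ν, ν', hsum, h1, h3, h4, h5⟩ := type_add hNp hNW hW' hcompl.inf_eq_bot hcompl.sup_eq_top
    (fun a ha => (hμ a ha).1) hType
  refine ⟨ν, ν', W, B.orthogonal W, hsum, h1, h3, ?_, hWm, hWnd, hPW, hNW, hW', hcompl.inf_eq_bot, hcompl.sup_eq_top, fun a ha b hb => hb a ha, h4, h5⟩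
  apply Cfsg.Agent.Lib.Classical.OJordan.Parity.even_count B hS h2F hNp hNW _ _ h1 h4
  · intro w hw hx
    by_contra hne
    obtain ⟨y, hy, hy2⟩ := (hWnd w hw hne).2
    exact hy2 (hx y hy)
  · intro x _ y _
    exact hBT x y

end Pipeline

end Cfsg.Agent.Lib.Classical.OSemi.NondegM
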