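import Mathlib
import Cfsg.Agent.Lib.Classical.OSemi.NondegM

/-!
# Odd dimensional subspaces, minus type, `d` even, `r = p`: the conclusion
-/

set_option autoImplicit false
set_option linter.unusedSectionVars false
set_option linter.unusedSimpArgs false
set_option linter.unusedVariables false
set_option linter.style.haveILetI false
set_option maxHeartbeats 1000000

open Module QuadraticMap Matrix
open Cfsg Cfsg.Agent.Lib.Classical.Witt.Hyp Cfsg.Agent.Lib.Linalg.OrthModels Cfsg.Agent.Lib.Linalg.Bridge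
open Cfsg.Agent.Lib.Classical.OSemi.Lag Cfsg.Agent.Lib.Classical.OSemi.LagFree
open Cfsg.Agent.Lib.Classical.OSemi.Decomp Cfsg.Agent.Lib.Classical.OSemi.Coprime
open Cfsg.Agent.Lib.Classical.OSemi.NondegE Cfsg.Agent.Lib.Classical.OSemi.NondegG Cfsg.Agent.Lib.Classical.OSemi.NondegJ
open Cfsg.Agent.Lib.Classical.OSemi.NondegP Cfsg.Agent.Lib.Classical.OSemi.NondegL Cfsg.Agent.Lib.Classical.OSemi.NondegM Cfsg.Agent.Lib.Classical.OSemi.Invol
open Cfsg.Agent.Lib.Classical.Witt.TS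
open Cfsg.Agent.Lib.Classical.Elusive.Inv Cfsg.Agent.Lib.Classical.Elusive.JordanType
open Cfsg.Agent.Lib.Classical.OJordan.Model Cfsg.Agent.Lib.Classical.OJordan.Plus Cfsg.Agent.Lib.Classical.OJordan.Combi
open Cfsg.Agent.Lib.Classical.Spectra.Bridge
open Cfsg.Agent.Lib.Classical.Orth.Basic

namespace Cfsg.Agent.Lib.Classical.OSemi.NondegN

universe u

variable {ι' : Type} [Fintype ι'] [DecidableEq ι'] {F : Type u} [Field F] [Fintype F]
variable {Q : QuadraticForm F (ι' → F)}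
variable {p : ℕ} [Fact p.Prime] [CharP F p]

/-- A piece described by a multiset of ones and twos. -/
theorem lag_of_type (h2 : (2 : F) ≠ 0) (hQ : PolarNondeg Q) {N : Module.End F (ι' → F)} (hIso : ∀ v, Q (v + N v) = Q v) {ε : F}
    (hker : ∀ w, N w = 0 → ∃ t, Q w = ε * (t * t)) {A : Submodule F (ι' → F)} (hAn : PolarNondeg (Q.comp A.subtype)) (hAi : IsInv N A)
    {ν : Multiset ℕ} (hν : ∀ x ∈ ν, x = 1 ∨ x = 2) (h1 : ν.count 1 = 1) (hT : ∀ k, finrank F (A.map (N ^ k)) = gg ν k) (hε : ε ≠ 0) :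
    Lag ((Q.comp A.subtype).prod (lineQ (-ε))) := by
  have h3 := sum_of_mem_123 (ν := ν) (fun x hx => by
    rcases hν x hx with h | h <;> simp [h])
  have h4 : ν.count 3 = 0 := by
    rw [Multiset.count_eq_zero]
    intro h
    rcases hν 3 h with h5 | h5 <;> omega
  have h5 := finrank_eq_sum_of_type hT
  have h6 := hT 1
  rw [pow_one, gg_one_of_mem hν] at h6
  have h7 : gg ν 2 = 0 := gg_eq_zero (fun e he => by
    rcases hν e he with h8 | h8 <;> omega)
  refine lag_of_part h2 hQ hIso hker hAn hAi (b := ν.count 2) (by omega) h6 (fun a ha => ?_) hε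
  have h8 := hT 2
  rw [h7] at h8
  have h9 := Submodule.finrank_eq_zero.1 h8
  have h10 : (N ^ 2) a ∈ A.map (N ^ 2) := ⟨a, ha, rfl⟩
  rw [h9] at h10
  rw [pow_two, Module.End.mul_apply] at h10
  exact h10

/-- The impossibility for the element. -/
theorem odd_even_d_false (hQ : PolarNondeg Q) (h2F : (2 : F) ≠ 0) (hpo : Odd p) (hp1 : 1 < p) {d : ℕ} (hcard : Fintype.card ι' = 2 * d) (hd : 4 ≤ d) (hdev : Even d)
    (hL : ¬ Lag Q) {m : ℕ} (hmo : Odd m) (W₀ : Submodule F (ι' → F)) (hW₀d : finrank F W₀ = m) (hW₀n : Cfsg.Geo.IsNondegenerateOn (polar (⇑Q)) W₀)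
    (H : ∀ x : GL ι' F, x ∈ Cfsg.Geo.omegaGL (⇑Q) → x ^ p = 1 → (∀ z : F, (x : Matrix ι' ι' F) ≠ z • (1 : Matrix ι' ι' F)) →
      ∃ W : Submodule F (ι' → F), (finrank F W = m ∧ Cfsg.Geo.IsNondegenerateOn (polar (⇑Q)) W ∧ Cfsg.Geo.AreIsometricFor ⇑Q W W₀) ∧
        W.map (Matrix.toLin' (x : Matrix ι' ι' F)) ≤ W) : False := by
  classical
  have hp3 : 3 ≤ p := by
    obtain ⟨c, hc⟩ := hpo
    omega
  have hQb := nondeg_of_polarNondeg Q hQ
  have hQR := polarNondeg_of_on hW₀n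
  obtain ⟨m', hm'⟩ := hmo
  have hw : finrank F W₀ + 1 = 2 * (m' + 1) := by omega
  have hμ : ∀ a ∈ (1 ::ₘ 3 ::ₘ Multiset.replicate (d - 2) 2), 0 < a ∧ a ≤ p := by
    intro x hx
    rw [Multiset.mem_cons, Multiset.mem_cons, Multiset.mem_replicate] at hx
    rcases hx with rfl | rfl | ⟨-, rfl⟩ <;> omega
  have h23 : ∃ a ∈ (1 ::ₘ 3 ::ₘ Multiset.replicate (d - 2) 2), 2 ≤ a :=
    ⟨3, Multiset.mem_cons_of_mem (Multiset.mem_cons_self _ _), by omega⟩
  have e1 : (1 ::ₘ 3 ::ₘ Multiset.replicate (d - 2) 2).count 1 = 1 := by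
    simp [Multiset.count_cons, Multiset.count_replicate]
  have e3 : (1 ::ₘ 3 ::ₘ Multiset.replicate (d - 2) 2).count 3 = 1 := by
    simp [Multiset.count_cons, Multiset.count_replicate]
  have hmemμ : ∀ x ∈ (1 ::ₘ 3 ::ₘ Multiset.replicate (d - 2) 2), x = 1 ∨ x = 2 ∨ x = 3 := by
    intro x hx
    rw [Multiset.mem_cons, Multiset.mem_cons, Multiset.mem_replicate] at hx
    rcases hx with h | h | ⟨-, h⟩ <;> omega
  -- the common arithmetic
  have hnum : ∀ ν ν' : Multiset ℕ, (1 ::ₘ 3 ::ₘ Multiset.replicate (d - 2) 2) = ν + ν' → ν.sum = m → (∀ e : ℕ, Even e → Even (ν.count e)) →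
      ((m % 4 = 1 → ν.count 1 = 1 ∧ ν.count 3 = 0) ∧ (m % 4 = 3 → ν'.count 1 = 1 ∧ ν'.count 3 = 0)) ∧ (∀ x ∈ ν, x = 1 ∨ x = 2 ∨ x = 3) ∧ (∀ x ∈ ν', x = 1 ∨ x = 2 ∨ x = 3) := by
    intro ν ν' hsum hs hpar
    have hmem : ∀ x ∈ ν, x = 1 ∨ x = 2 ∨ x = 3 := fun x hx => hmemμ x (by rw [hsum]; exact Multiset.mem_add.2 (Or.inl hx))
    have hmem' : ∀ x ∈ ν', x = 1 ∨ x = 2 ∨ x = 3 := fun x hx => hmemμ x (by rw [hsum]; exact Multiset.mem_add.2 (Or.inr hx))
    have h1 := sum_of_mem_123 hmem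
    have c1 := congrArg (Multiset.count 1) hsum
    have c3 := congrArg (Multiset.count 3) hsum
    rw [e1, Multiset.count_add] at c1
    rw [e3, Multiset.count_add] at c3
    obtain ⟨b, hb⟩ := hpar 2 even_two
    refine ⟨⟨fun h => ?_, fun h => ?_⟩, hmem, hmem'⟩
    · omega
    · omega
  have hsimp : ∀ ν : Multiset ℕ, (∀ x ∈ ν, x = 1 ∨ x = 2 ∨ x = 3) → ν.count 3 = 0 → ∀ x ∈ ν, x = 1 ∨ x = 2 := by
    intro ν h1 h3 x hx
    rcases h1 x hx with h | h | h
    · exact Or.inl h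
    · exact Or.inr h
    · subst h
      rw [Multiset.count_eq_zero] at h3
      exact absurd hx h3
  by_cases hm4 : m % 4 = 1
  · obtain ⟨a₀, ha₀, hτ⟩ := exists_scalar h2F (Q.comp W₀.subtype) hQR hw False
    have hε : -a₀ ≠ 0 := neg_ne_zero.2 ha₀
    obtain ⟨N, hIso, hType, hker⟩ := exists_model_eps h2F hQ hcard hd hdev hε
    obtain ⟨ν, ν', W, W', hsum, h1, h3, hpar, hWm, hWn, ⟨e, he⟩, hNW, hNW', hinf, hsup, horth, hTν, hTν'⟩ :=
      pipeline_N Q hQb h2F hpo _ H hμ h23 N hIso hType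
    obtain ⟨⟨h4, -⟩, h5, h6⟩ := hnum ν ν' hsum (by rw [← finrank_eq_sum_of_type hTν, hWm]) hpar
    obtain ⟨h7, h8⟩ := h4 hm4
    have h9 := lag_of_type h2F hQ hIso hker (polarNondeg_of_on hWn) hNW (hsimp ν h5 h8) h7 hTν hε
    rw [neg_neg] at h9
    apply hτ.1
    let φ : (W × F) ≃ₗ[F] (W₀ × F) := e.prodCongr (LinearEquiv.refl F F)
    have hφ : ∀ v, ((Q.comp W₀.subtype).prod (a₀ • (QuadraticMap.sq (R := F)))) (φ v) = ((Q.comp W.subtype).prod (lineQ a₀)) v := by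
      rintro ⟨x, s⟩
      show Q ((e x : W₀) : ι' → F) + lineQ a₀ s = Q (x : ι' → F) + lineQ a₀ s
      rw [he]
    exact (lag_congr_iff φ hφ).1 h9
  · have hm4' : m % 4 = 3 := by omega
    obtain ⟨a₀, ha₀, hτ⟩ := exists_scalar h2F (Q.comp W₀.subtype) hQR hw True
    obtain ⟨N, hIso, hType, hker⟩ := exists_model_eps h2F hQ hcard hd hdev ha₀
    obtain ⟨ν, ν', W, W', hsum, h1, h3, hpar, hWm, hWn, ⟨e, he⟩, hNW, hNW', hinf, hsup, horth, hTν, hTν'⟩ :=
      pipeline_N Q hQb h2F hpo _ H hμ h23 N hIso hType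
    obtain ⟨⟨-, h4⟩, h5, h6⟩ := hnum ν ν' hsum (by rw [← finrank_eq_sum_of_type hTν, hWm]) hpar
    obtain ⟨h7, h8⟩ := h4 hm4'
    have hWp := polarNondeg_of_on hWn
    have hW'p : PolarNondeg (Q.comp W'.subtype) := nondeg_of_orth_sup hQ (by rw [sup_comm]; exact hsup)
      (fun b hb a ha => by rw [polar_comm]; exact horth a ha b hb)
    have h9 := lag_of_type h2F hQ hIso hker hW'p hNW' (hsimp ν' h6 h8) h7 hTν' ha₀
    -- the first piece
    let φ : (W₀ × F) ≃ₗ[F] (W × F) := e.symm.prodCongr (LinearEquiv.refl F F)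
    have hφ : ∀ v, ((Q.comp W.subtype).prod (lineQ a₀)) (φ v) = ((Q.comp W₀.subtype).prod (a₀ • (QuadraticMap.sq (R := F)))) v := by
      rintro ⟨x, s⟩
      show Q ((e.symm x : W) : ι' → F) + lineQ a₀ s = Q (x : ι' → F) + lineQ a₀ s
      rw [← he (e.symm x), LinearEquiv.apply_symm_apply]
    have h10 : Lag ((Q.comp W.subtype).prod (lineQ a₀)) := (lag_congr_iff φ hφ).1 (hτ.2 trivial)
    -- the dimensions
    have hV : finrank F W + finrank F W' = 2 * d := by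
      have h11 := Submodule.finrank_sup_add_finrank_inf_eq W W'
      rw [hsup, hinf, finrank_top, finrank_bot, add_zero, Module.finrank_fintype_fun_eq_card, hcard] at h11
      omega
    have h12 : Lag ((Q.comp W.subtype).prod (Q.comp W'.subtype)) :=
      lag_four h2F hWp hW'p ha₀ (a := m' + 1) (b := d - m') (by omega) (by omega) h10 h9
    apply hL
    have hc : IsCompl W W' := ⟨disjoint_iff.2 hinf, codisjoint_iff.2 hsup⟩
    let ψ : (W × W') ≃ₗ[F] (ι' → F) := Submodule.prodEquivOfIsCompl W W' hc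
    have hψ : ∀ v : W × W', Q (ψ v) = ((Q.comp W.subtype).prod (Q.comp W'.subtype)) v := by
      intro v
      have h13 : ψ v = (v.1 : ι' → F) + (v.2 : ι' → F) := rfl
      rw [h13, Q_add, horth _ v.1.2 _ v.2.2, add_zero]
      rfl
    exact (lag_congr_iff ψ hψ).1 h12

end Cfsg.Agent.Lib.Classical.OSemi.NondegN
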